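import Cfsg.Agent.Lib.G24C.Defs

/-! The normaliser and the centraliser of the standard subgroup. -/

set_option autoImplicit false

namespace H16.GC

open H30 H30.F4 H69 Subgroup Cfsg H79.AS

variable {G : Type*} [Group G] [Finite G]

namespace Cy

variable (X : Cy G)

omit [Finite G]

theorem ak {a : G} (ha : a ∈ X.A) (h : a ∈ 𝐂(X.A)) : a = 1 := by
  have := X.p2.simple
  rcases (inferInstance : (center X.A).Normal).eq_bot_or_eq_top with e | e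
  · have k : (⟨a, ha⟩ : X.A) ∈ center X.A := mem_center_iff.2 fun g => Subtype.ext (h g g.2)
    rw [e, mem_bot] at k
    exact congrArg Subtype.val k
  · have k := congrArg Subtype.val (mem_center_iff.1 (e ▸ mem_top (⟨_, X.qa_A (e5 1)⟩ : X.A))
      ⟨_, X.qa_A ![0, 0, 1, 0, 0, 0]⟩)
    have := X.qa_comm ![0, 0, 1, 0, 0, 0] (e5 1)
    rw [show X.qa _ * X.qa _ = X.qa _ * X.qa _ from k, left_eq_mul] at this
    exact absurd (X.x_inj 11 this) (by decide)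
theorem odd_inf {g : G} (hg : g ∉ 𝐍(X.A)) : Odd (Nat.card (𝐂(X.A) ⊓ 𝐂(X.A) ^ᶜ g : Subgroup G)) :=
  X.std.2.1.2 g (X.std.2.2.2 ▸ hg)
theorem tg {g x : G} (hg : g ∉ 𝐍(X.A)) (h1 : x ∈ 𝐂(X.A)) (h2 : x ∈ 𝐂(X.A) ^ᶜ g) {j : ℕ}
    (hj : x ^ 2 ^ j = 1) : x = 1 := eq_one_of_odd (X.odd_inf hg) ⟨h1, h2⟩ hj
theorem tg' {c k : G} (h1 : k ∈ 𝐂(X.A)) (h2 : k * k = 1) (h3 : k ≠ 1)
    (h4 : c * k * c⁻¹ ∈ 𝐂(X.A)) : c ∈ 𝐍(X.A) := by
  by_contra h
  exact h3 (X.tg (g := c⁻¹) (j := 1) (fun e => h (by simpa using inv_mem e)) h1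
    (mem_cj.2 (by rwa [inv_inv])) (by rw [pow_one, sq, h2]))
theorem cent_N {c k : G} (h1 : k ∈ 𝐂(X.A)) (h2 : k * k = 1) (h3 : k ≠ 1) (h4 : c * k = k * c) :
    c ∈ 𝐍(X.A) := X.tg' h1 h2 h3 (by rwa [h4, mul_inv_cancel_right])
theorem not_le {g : G} (hg : g ∉ 𝐍(X.A)) : ¬ X.A ≤ 𝐂(X.A) ^ᶜ g := fun h =>
  X.std.2.2.1 g (fun e => hg (cj_eq_self_iff.1 e))
    (commutator_eq_bot_iff_le_centralizer.2 (cj_centralizer X.A g ▸ h))
theorem KN {n k : G} (hn : n ∈ 𝐍(X.A)) (hk : k ∈ 𝐂(X.A)) : n * k * n⁻¹ ∈ 𝐂(X.A) :=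
  conj_mem_of_mem_normalizer (normalizer_le_normalizer_centralizer _ hn) hk
theorem pr_mul {k a k' a' : G} (ha : a ∈ X.A) (hk' : k' ∈ 𝐂(X.A)) :
    k * a * (k' * a') = k * k' * (a * a') := by
  rw [mul_assoc, ← mul_assoc a, hk' a ha]; group
theorem pr_uq {k a k' a' : G} (hk : k ∈ 𝐂(X.A)) (ha : a ∈ X.A) (hk' : k' ∈ 𝐂(X.A)) (ha' : a' ∈ X.A)
    (e : k * a = k' * a') : k = k' ∧ a = a' := by
  have e1 : k'⁻¹ * k = a' * a⁻¹ := by
    rw [inv_mul_eq_iff_eq_mul, ← mul_assoc, ← e, mul_inv_cancel_right]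
  have := X.ak (mul_mem ha' (inv_mem ha)) (e1 ▸ mul_mem (inv_mem hk') hk)
  rw [mul_inv_eq_one] at this
  exact ⟨mul_right_cancel (this ▸ e), this.symm⟩
theorem pr_comm {k a k' a' : G} (hk : k ∈ 𝐂(X.A)) (ha : a ∈ X.A) (hk' : k' ∈ 𝐂(X.A))
    (ha' : a' ∈ X.A) (e : k * a * (k' * a') = k' * a' * (k * a)) :
    k * k' = k' * k ∧ a * a' = a' * a := by
  rw [X.pr_mul ha hk', X.pr_mul ha' hk] at e
  exact X.pr_uq (mul_mem hk hk') (mul_mem ha ha') (mul_mem hk' hk) (mul_mem ha' ha) e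
theorem pr_pow {k a : G} (hk : k ∈ 𝐂(X.A)) (ha : a ∈ X.A) {n : ℕ} (e : (k * a) ^ n = 1) :
    k ^ n = 1 ∧ a ^ n = 1 := by
  rw [(show Commute k a from (hk a ha).symm).mul_pow, ← mul_one 1] at e
  exact X.pr_uq (pow_mem hk n) (pow_mem ha n) (one_mem _) (one_mem _) e
theorem mem_KA {g : G} : g ∈ 𝐂(X.A) ⊔ X.A ↔ ∃ k ∈ 𝐂(X.A), ∃ a ∈ X.A, g = k * a :=
  mem_sup_of_le_normalizer_right (centralizer_le_normalizer _)
/-- the projection of `C(A) A` to `A` -/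
theorem exists_pi : ∃ π : ↥(𝐂(X.A) ⊔ X.A) →* G, ∀ g : ↥(𝐂(X.A) ⊔ X.A),
    π g ∈ X.A ∧ (g : G) * (π g)⁻¹ ∈ 𝐂(X.A) := by
  choose k hk a ha e using fun g : ↥(𝐂(X.A) ⊔ X.A) => X.mem_KA.1 g.2
  refine ⟨MonoidHom.mk' a fun g h => ?_, fun g => ⟨ha g, ?_⟩⟩
  · exact (X.pr_uq (hk _) (ha _) (mul_mem (hk g) (hk h)) (mul_mem (ha g) (ha h))
      (by rw [← e, ← X.pr_mul (ha g) (hk h), ← e, ← e, coe_mul])).2
  · rw [e g, MonoidHom.mk'_apply, mul_inv_cancel_right]; exact hk g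
theorem Phi_mul {n m : G} (h : X.Phi n) (h' : X.Phi m) : n * m ∈ 𝐂(X.A) := by
  refine cent_closure ?_
  rintro _ ⟨r, t, rfl⟩
  have e : ∀ t : F4, t * t * (t * t) = t := by decide
  have := h r (t * t)
  rw [e, ← h'] at this
  exact (mul_inv_eq_iff_eq_mul.1 (by rw [← this]; nth_rw 1 [this]; group)).symm
theorem phi_of {n : G} (hn : n ∈ 𝐍(X.A)) (h1 : n ∉ 𝐂(X.A) ⊔ X.A) : ∃ a ∈ X.A, X.Phi (a * n) := by
  obtain ⟨a, ha, h | h⟩ := X.p3.aut n hn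
  · exact (h1 (by simpa using mul_mem (mem_sup_right (inv_mem ha)) (mem_sup_left h))).elim
  · exact ⟨a, ha, h⟩
theorem mul_KA {n m : G} (hn : n ∈ 𝐍(X.A)) (hm : m ∈ 𝐍(X.A)) (h1 : n ∉ 𝐂(X.A) ⊔ X.A)
    (h2 : m ∉ 𝐂(X.A) ⊔ X.A) : n * m ∈ 𝐂(X.A) ⊔ X.A := by
  obtain ⟨a, ha, h⟩ := X.phi_of hn h1
  obtain ⟨b, hb, h'⟩ := X.phi_of hm h2
  rw [show n * m = a⁻¹ * (a * n * b⁻¹ * (a * n)⁻¹) * (a * n * (b * m)) by group]
  exact mul_mem (mem_sup_right (mul_mem (inv_mem ha) (conj_mem_of_mem_normalizer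
    (mul_mem (le_normalizer ha) hn) (inv_mem hb)))) (mem_sup_left (X.Phi_mul h h'))
theorem sq_KA {n : G} (hn : n ∈ 𝐍(X.A)) : n * n ∈ 𝐂(X.A) ⊔ X.A := by
  by_cases h : n ∈ 𝐂(X.A) ⊔ X.A
  exacts [mul_mem h h, X.mul_KA hn hn h h]
theorem five_KA {n : G} (hn : n ∈ 𝐍(X.A)) (h5 : n ^ 5 = 1) : n ∈ 𝐂(X.A) ⊔ X.A := by
  have := pow_mem (X.sq_KA hn) 3
  rwa [← sq, ← pow_mul, show 2 * 3 = 5 + 1 from rfl, pow_succ, h5, one_mul] at this
theorem cV_KB {n : G} (hn : n ∈ 𝐍(X.A)) (h : n ∈ 𝐂(X.V)) :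
    ∃ k ∈ 𝐂(X.A), ∃ b ∈ X.B, n = k * b := by
  by_cases h1 : n ∈ 𝐂(X.A) ⊔ X.A
  · obtain ⟨k, hk, a, ha, rfl⟩ := X.mem_KA.1 h1
    have := mul_mem (inv_mem (centralizer_anti X.V_le_A hk)) h
    rw [inv_mul_cancel_left] at this
    exact ⟨k, hk, a, X.p2.cV a ha 1 one_ne_zero (X.mem_CV.1 this 1), rfl⟩
  · obtain ⟨a, ha, k⟩ := X.phi_of hn h1
    have e : ∀ s, a * X.vv s * a⁻¹ = X.vv (s * s) := fun s => by
      rw [← show _ = X.vv (s * s) from k 11 s, mul_assoc a n, show n * X.x 11 s = _ from X.mem_CV.1 h s]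
      group
    have := e w
    rw [X.mem_CV.1 (X.B_le_CV (X.p2.cV a ha 1 one_ne_zero (mul_inv_eq_iff_eq_mul.1
      ((e 1).trans (by rw [mul_one]))))), mul_inv_cancel_right] at this
    exact absurd (X.vv_inj this) (by decide)
theorem cent_B {a : G} (ha : a ∈ X.A) (h : a ∈ 𝐂(X.B)) : a ∈ X.V :=
  X.p1.B_cent a (X.p2.cV a ha 1 one_ne_zero (h _ (X.V_le_B (X.vv_mem 1))).symm)
    (centralizer_anti X.QA_le_B h)
theorem cent_z : X.A ⊓ centralizer {X.z} = X.B :=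
  le_antisymm (fun a h => X.p2.cV a h.1 1 one_ne_zero (mem_centralizer_singleton_iff.1 h.2))
    fun _ h => ⟨X.B_le_A h, mem_centralizer_singleton_iff.2 (X.mem_CV.1 (X.B_le_CV h) 1)⟩

theorem t_inv : X.t⁻¹ = X.t := inv_eq_of_mul_eq_one_right X.t_sq
theorem t_A {a : G} (ha : a ∈ X.A) : a * X.t = X.t * a := X.t_K a ha
theorem t_not_A : X.t ∉ X.A := fun h => X.t_ne (X.ak h X.t_K)
/-- the centraliser of `t` normalises `A` -/
theorem ct_N {g : G} (h : g * X.t = X.t * g) : g ∈ 𝐍(X.A) := X.cent_N X.t_K X.t_sq X.t_ne h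
theorem Dt_t : X.Dt X.t := ⟨1, by simp⟩
theorem Dt.conj {X : Cy G} {d : G} (h : X.Dt d) (g : G) : X.Dt (g * d * g⁻¹) := by
  obtain ⟨c, rfl⟩ := h
  exact ⟨g * c, by group⟩
theorem Dt.sq {X : Cy G} {d : G} (h : X.Dt d) : d * d = 1 := by
  obtain ⟨c, rfl⟩ := h
  rw [← cj_mul, X.t_sq, mul_one, mul_inv_cancel]
theorem Dt.ne {X : Cy G} {d : G} (h : X.Dt d) : d ≠ 1 := by
  obtain ⟨c, rfl⟩ := h
  intro e
  exact X.t_ne (by simpa [mul_inv_eq_one, mul_eq_left] using e)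
theorem Phi_N {f : G} (h : X.Phi f) : f ∈ 𝐍(X.A) := by
  have k : ∀ g : G, X.Phi g → ∀ a ∈ X.A, g * a * g⁻¹ ∈ X.A := fun g h a ha =>
    cj_closure (by rintro _ ⟨r, t, rfl⟩; rw [h]; exact X.x_mem _ _) ha
  have hi : X.Phi f⁻¹ := fun r t => by
    have e : ∀ t : F4, t * t * (t * t) = t := by decide
    rw [← e t, ← h r (t * t), e]; group
  refine mem_normalizer_iff.2 fun a => ⟨k f h a, fun ha => ?_⟩
  simpa [mul_assoc] using k _ hi _ ha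
theorem Phi_t {f : G} (h : X.Phi f) : X.Phi (X.t * f) := fun r s => by
  rw [show X.t * f * X.x r s * (X.t * f)⁻¹ = X.t * (f * X.x r s * f⁻¹) * X.t⁻¹ by group, h,
    ← X.t_A (X.x_mem _ _), mul_inv_cancel_right]
theorem Phi_not_KA {f : G} (h : X.Phi f) : f ∉ 𝐂(X.A) ⊔ X.A := fun h1 => by
  obtain ⟨k, hk, a, ha, rfl⟩ := X.mem_KA.1 h1
  have e : ∀ s, a * X.vv s * a⁻¹ = X.vv (s * s) := fun s => by
    have := h 11 s
    rw [show k * a * X.x 11 s * (k * a)⁻¹ = k * (a * X.vv s * a⁻¹) * k⁻¹ by rw [Rt.vv]; group,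
      ← hk _ (mul_mem (mul_mem ha (X.vv_A s)) (inv_mem ha)), mul_inv_cancel_right] at this
    exact this
  have := e w
  rw [X.mem_CV.1 (X.B_le_CV (X.p2.cV a ha 1 one_ne_zero (mul_inv_eq_iff_eq_mul.1
    ((e 1).trans (by rw [mul_one]))))), mul_inv_cancel_right] at this
  exact absurd (X.vv_inj this) (by decide)

end Cy

namespace Co

variable (X : Co G)

omit [Finite G]

theorem A_O : X.A ≤ 𝐂(X.O) := le_centralizer_iff.1 X.O_K
theorem O_t {o : G} (h : o ∈ X.O) : o * X.t = X.t * o := X.t_O o h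
/-- the 2-elements of `C_K(t)` -/
theorem two_K {k : G} (hk : k ∈ 𝐂(X.A)) (h : k * X.t = X.t * k) {j : ℕ} (h2 : k ^ 2 ^ j = 1) :
    k = 1 ∨ k = X.t := by
  rcases X.cK k hk h with e | e
  · exact Or.inl (eq_one_of_odd X.O_odd e h2)
  · refine Or.inr ?_
    have := eq_one_of_odd X.O_odd e (j := j + 1) (by
      rw [(show Commute k X.t from h).mul_pow, pow_succ, pow_mul, h2, one_pow, one_mul, mul_comm,
        pow_mul, sq, X.t_sq, one_pow])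
    rw [mul_eq_one_iff_eq_inv.1 this, X.t_inv]
/-- the centraliser of `t` normalises `O` -/
theorem ct_O {g : G} (h : g * X.t = X.t * g) : g ∈ 𝐍(X.O) := by
  have k : ∀ g : G, g * X.t = X.t * g → ∀ o ∈ X.O, g * o * g⁻¹ ∈ X.O := fun g h o ho => by
    have c : g * o * g⁻¹ * X.t = X.t * (g * o * g⁻¹) :=
      ((show Commute g X.t from h).mul_left (X.O_t ho)).mul_left (show Commute g X.t from h).inv_left
    rcases X.cK _ (X.KN (X.ct_N h) (X.O_K ho)) c with e | e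
    · exact e
    · exfalso
      have := pow_card_one e
      rw [(show Commute _ X.t from c).mul_pow, conj_pow, pow_card_one ho, mul_one, mul_inv_cancel,
        one_mul] at this
      obtain ⟨m, hm⟩ := X.O_odd
      rw [hm, pow_succ, pow_mul, sq, X.t_sq, one_pow, one_mul] at this
      exact X.t_ne this
  refine mem_normalizer_iff.2 fun a => ⟨k g h a, fun ha => ?_⟩
  simpa [mul_assoc] using k _ (show Commute g X.t from h).inv_left _ ha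
/-- the elements which centralise `t` and `V` -/
theorem ct_V {g : G} (h : g * X.t = X.t * g) (hv : g ∈ 𝐂(X.V)) :
    ∃ o ∈ X.O, ∃ b ∈ X.B, g = o * b ∨ g = o * X.t * b := by
  obtain ⟨k, hk, b, hb, rfl⟩ := X.cV_KB (X.ct_N h) hv
  have c : k * X.t = X.t * k := by
    have := X.t_A (X.B_le_A hb)
    rw [mul_assoc, this, ← mul_assoc, ← mul_assoc] at h
    exact mul_right_cancel h
  rcases X.cK k hk c with e | e
  · exact ⟨k, e, b, hb, Or.inl rfl⟩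
  · exact ⟨_, e, b, hb, Or.inr (by rw [mul_assoc k, X.t_sq, mul_one])⟩

end Co

end H16.GC
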