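import Cfsg.Agent.Lib.G24C.MB

/-! The 2-subgroups of the centraliser of `t`. -/

set_option autoImplicit false

namespace H16.GC

open H30 H30.F4 H69 Subgroup Cfsg H79.AS

variable {G : Type*} [Group G] [Finite G]

namespace CT

theorem card_le_two {B H : Subgroup G} (h : ∀ x ∈ B, ∀ y ∈ B, x ∉ H → y ∉ H → x * y ∈ H) :
    Nat.card B ≤ 2 * Nat.card (B ⊓ H : Subgroup G) := by
  by_cases hb : B ≤ H
  · rw [inf_eq_left.2 hb]; omega
  · obtain ⟨a, ha, ha'⟩ := SetLike.not_le_iff_exists.1 hb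
    have hi : (H.subgroupOf B).index = 2 := by
      rw [Subgroup.index_eq_two_iff_exists_notMem_and]
      refine ⟨⟨a, ha⟩, ha', fun b => ?_⟩
      by_cases hbH : (b : G) ∈ H
      · exact Or.inr hbH
      · exact Or.inl (h _ b.2 _ ha hbH ha')
    have e := (H.subgroupOf B).card_mul_index
    rw [hi, ← inf_subgroupOf_left,
      Nat.card_congr (subgroupOfEquivOfLe (inf_le_left : B ⊓ H ≤ B)).toEquiv] at e
    omega

/-- the extension of `B` by a normalising involution -/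
def ex (B : Subgroup G) (x : G) (h2 : x * x = 1) (hn : ∀ b ∈ B, x * b * x ∈ B) : Subgroup G where
  carrier := {g | g ∈ B ∨ x * g ∈ B}
  one_mem' := Or.inl (one_mem _)
  mul_mem' := by
    rintro a b (ha | ha) (hb | hb)
    · exact Or.inl (mul_mem ha hb)
    · refine Or.inr ?_
      have := mul_mem (hn a ha) hb
      rwa [mul_assoc (x * a), ← mul_assoc x x, h2, one_mul, mul_assoc] at this
    · exact Or.inr (mul_assoc x a b ▸ mul_mem ha hb)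
    · refine Or.inl ?_
      have := mul_mem (hn _ ha) hb
      rwa [← mul_assoc x x, h2, one_mul, mul_assoc, ← mul_assoc x x, h2, one_mul] at this
  inv_mem' := by
    rintro a (ha | ha)
    · exact Or.inl (inv_mem ha)
    · refine Or.inr ?_
      have := hn _ (inv_mem ha)
      rwa [mul_inv_rev, mul_assoc x, inv_mul_cancel_right] at this

omit [Finite G] in
theorem mem_ex {B : Subgroup G} {x g : G} {h2 : x * x = 1} {hn : ∀ b ∈ B, x * b * x ∈ B} :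
    g ∈ ex B x h2 hn ↔ g ∈ B ∨ x * g ∈ B := Iff.rfl

theorem card_ex {B : Subgroup G} {x : G} (h2 : x * x = 1) (hn : ∀ b ∈ B, x * b * x ∈ B)
    (hx : x ∉ B) : Nat.card (ex B x h2 hn) = 2 * Nat.card B := by
  have hi : (B.subgroupOf (ex B x h2 hn)).index = 2 := by
    rw [Subgroup.index_eq_two_iff_exists_notMem_and]
    refine ⟨⟨x, Or.inr (h2 ▸ one_mem _)⟩, hx, fun b => b.2.symm.imp_left fun h => ?_⟩
    have := hn _ h
    rwa [← mul_assoc x x, h2, one_mul] at this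
  have e := (B.subgroupOf (ex B x h2 hn)).card_mul_index
  rw [hi, Nat.card_congr (subgroupOfEquivOfLe (fun _ h => Or.inl h : B ≤ ex B x h2 hn)).toEquiv] at e
  omega

variable (X : Co G)

omit [Finite G] in
theorem tn {S : Subgroup G} (hc : ∀ g ∈ S, g * X.t = X.t * g) : ∀ b ∈ S, X.t * b * X.t ∈ S :=
  fun b hb => by rwa [← hc b hb, mul_assoc, X.t_sq, mul_one]

/-- `S ⟨t⟩` -/
abbrev tj (S : Subgroup G) (hc : ∀ g ∈ S, g * X.t = X.t * g) : Subgroup G :=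
  ex S X.t X.t_sq (tn X hc)

omit [Finite G] in
theorem tj_comm {S : Subgroup G} {hc : ∀ g ∈ S, g * X.t = X.t * g} {g : G} (hg : g ∈ tj X S hc) :
    g * X.t = X.t * g := by
  rcases hg with h | h
  · exact hc g h
  · exact mul_left_cancel (a := X.t) (by rw [← mul_assoc]; exact hc _ h)

omit [Finite G] in
theorem tj_isP {S : Subgroup G} (hS : IsPGroup 2 S) (hc : ∀ g ∈ S, g * X.t = X.t * g) :
    IsPGroup 2 (tj X S hc) := by
  rintro ⟨g, hg⟩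
  rcases id hg with h | h
  · obtain ⟨k, e⟩ := hS ⟨g, h⟩
    exact ⟨k, Subtype.ext (congrArg Subtype.val e :)⟩
  · obtain ⟨k, e⟩ := hS ⟨_, h⟩
    have e1 : (X.t * g) ^ 2 ^ k = 1 := congrArg Subtype.val e
    refine ⟨k + 1, Subtype.ext ?_⟩
    change g ^ 2 ^ (k + 1) = 1
    have c : Commute X.t g := (tj_comm X hg).symm
    have e2 : (X.t * g) ^ 2 ^ (k + 1) = 1 := by rw [pow_succ, pow_mul, e1, one_pow]
    rwa [c.mul_pow, pow_succ', pow_mul, sq, X.t_sq, one_pow, one_mul, ← pow_succ'] at e2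

omit [Finite G] in
theorem inA {S : Subgroup G} (hS : IsPGroup 2 S) (hc : ∀ g ∈ S, g * X.t = X.t * g) {g : G}
    (hg : g ∈ S) (hK : g ∈ 𝐂(X.A) ⊔ X.A) : g ∈ tj X S hc ⊓ X.A ∨ X.t * g ∈ tj X S hc ⊓ X.A := by
  obtain ⟨k, hk, a, ha, rfl⟩ := X.mem_KA.1 hK
  obtain ⟨n, e⟩ := hS ⟨_, hg⟩
  have e1 : (k * a) ^ 2 ^ n = 1 := congrArg Subtype.val e
  have c := X.pr_comm hk ha X.t_K (one_mem _) (by simpa using hc _ hg)
  rcases X.two_K hk c.1 (X.pr_pow hk ha e1).1 with rfl | rfl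
  · exact Or.inl ⟨Or.inl hg, by rwa [one_mul]⟩
  · refine Or.inr ⟨Or.inr (by rwa [← mul_assoc, X.t_sq, one_mul]), ?_⟩
    rwa [← mul_assoc, X.t_sq, one_mul]

/-- the normal form of a 2-subgroup of `C(t)` -/
def Nf (S : Subgroup G) : Prop :=
  (∀ g ∈ S, g * X.t = X.t * g) ∧ ∀ g ∈ S, g ∈ 𝐂(X.A) ⊔ X.A → g ∈ X.U ∨ X.t * g ∈ X.U

theorem two0 {S : Subgroup G} (hS : IsPGroup 2 S) (hc : ∀ g ∈ S, g * X.t = X.t * g) :
    ∃ a ∈ X.A, ∀ g ∈ S, g ∈ 𝐂(X.A) ⊔ X.A → a * g * a⁻¹ ∈ X.U ∨ X.t * (a * g * a⁻¹) ∈ X.U := by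
  obtain ⟨a, ha, h⟩ := X.syl_U.exists_cj_le ((tj_isP X hS hc).to_inf_left (K := X.A)) inf_le_right
  refine ⟨a, ha, fun g hg hK => (inA X hS hc hg hK).imp (fun e => h (cj_mem a e)) fun e => ?_⟩
  have := h (cj_mem a e)
  rwa [← mul_assoc, X.t_A ha, mul_assoc, mul_assoc, ← mul_assoc a] at this

theorem nf {d : G} (hd : X.Dt d) {S : Subgroup G} (hS : IsPGroup 2 S) (hc : ∀ g ∈ S, g * d = d * g) :
    ∃ c, c * d * c⁻¹ = X.t ∧ Nf X (S ^ᶜ c) := by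
  obtain ⟨g, rfl⟩ := hd
  have h1 : ∀ c, c * (g * X.t * g⁻¹) * c⁻¹ = X.t → ∀ y ∈ S ^ᶜ c, y * X.t = X.t * y := fun c e y hy => by
    obtain ⟨s, hs, rfl⟩ := mem_cj'.1 hy
    rw [← e, ← cj_mul, hc s hs, cj_mul]
  obtain ⟨a, ha, h⟩ := two0 X (isPGroup_cj hS g⁻¹) (h1 g⁻¹ (by group))
  have e : a * g⁻¹ * (g * X.t * g⁻¹) * (a * g⁻¹)⁻¹ = X.t := by
    rw [show a * g⁻¹ * (g * X.t * g⁻¹) * (a * g⁻¹)⁻¹ = a * X.t * a⁻¹ by group, X.t_A ha,
      mul_inv_cancel_right]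
  refine ⟨a * g⁻¹, e, h1 _ e, fun y hy hK => ?_⟩
  rw [← cj_cj] at hy
  obtain ⟨s, hs, rfl⟩ := mem_cj'.1 hy
  refine h s hs ?_
  have := mul_mem (mul_mem (mem_sup_right (inv_mem ha)) hK) (mem_sup_right (S := 𝐂(X.A)) ha)
  simpa [mul_assoc] using this

theorem idxK {S : Subgroup G} (hc : ∀ g ∈ S, g * X.t = X.t * g) :
    Nat.card S ≤ 2 * Nat.card (S ⊓ (𝐂(X.A) ⊔ X.A) : Subgroup G) :=
  card_le_two fun x hx y hy => X.mul_KA (X.ct_N (hc x hx)) (X.ct_N (hc y hy))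

theorem card_tj {S : Subgroup G} (h : Nf X S) (hn : X.t ∉ S) :
    Nat.card S ≤ 2 * Nat.card (tj X S h.1 ⊓ X.U : Subgroup G) := by
  classical
  refine (idxK X h.1).trans (Nat.mul_le_mul_left 2 ?_)
  refine Nat.card_le_card_of_injective (fun g => if e : (g : G) ∈ X.U then ⟨g, Or.inl g.2.1, e⟩ else
    ⟨X.t * g, Or.inr (by rw [← mul_assoc, X.t_sq, one_mul]; exact g.2.1),
      (h.2 _ g.2.1 g.2.2).resolve_left e⟩) fun a b e => ?_
  dsimp only at e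
  split_ifs at e with h1 h2 h2 <;> have e' := congrArg Subtype.val e <;> dsimp only at e'
  · exact Subtype.ext e'
  · exact (hn (by rw [← mul_inv_eq_iff_eq_mul] at e'; exact e' ▸ mul_mem a.2.1 (inv_mem b.2.1))).elim
  · exact (hn (by rw [← eq_mul_inv_iff_mul_eq] at e'; exact e' ▸ mul_mem b.2.1 (inv_mem a.2.1))).elim
  · exact Subtype.ext (mul_left_cancel e')

omit [Finite G] in
theorem tj_cc {S T : Subgroup G} {hS : ∀ g ∈ S, g * X.t = X.t * g} {hT : ∀ g ∈ T, g * X.t = X.t * g}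
    (h : ∀ a ∈ S, ∀ b ∈ T, a * b = b * a) {a b : G} (ha : a ∈ tj X S hS) (hb : b ∈ tj X T hT) :
    a * b = b * a := by
  have ca : Commute X.t a := (tj_comm X ha).symm
  have cb : Commute X.t b := (tj_comm X hb).symm
  have k : ∀ {x y : G}, Commute X.t y → Commute (X.t * x) y → Commute x y := fun {x y} c e => by
    have := c.mul_left e
    rwa [← mul_assoc, X.t_sq, one_mul] at this
  rcases ha with ha | ha <;> rcases hb with hb | hb
  · exact h _ ha _ hb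
  · exact (k ca (Commute.symm (h _ ha _ hb))).symm
  · exact k cb (h _ ha _ hb)
  · exact k cb (k ((Commute.refl _).mul_right ca) (Commute.symm (h _ ha _ hb))).symm

omit [Finite G] in
theorem tj_sq {S : Subgroup G} {hS : ∀ g ∈ S, g * X.t = X.t * g} (h2 : ∀ e ∈ S, e * e = 1) {a : G}
    (ha : a ∈ tj X S hS) : a * a = 1 := by
  have ca := tj_comm X ha
  rcases ha with ha | ha
  · exact h2 a ha
  · have := h2 _ ha
    rwa [mul_assoc, ← mul_assoc a, ca, ← mul_assoc, ← mul_assoc, X.t_sq, one_mul] at this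

omit [Finite G] in
theorem sq_cj {E : Subgroup G} (h2 : ∀ e ∈ E, e * e = 1) (c : G) : ∀ e ∈ E ^ᶜ c, e * e = 1 := by
  intro e he
  obtain ⟨s, hs, rfl⟩ := mem_cj'.1 he
  rw [← cj_mul, h2 s hs, mul_one, mul_inv_cancel]

omit [Finite G] in
theorem isP_sq {E : Subgroup G} (h2 : ∀ e ∈ E, e * e = 1) : IsPGroup 2 E :=
  fun g => ⟨1, Subtype.ext (by rw [pow_one, sq]; exact h2 _ g.2)⟩

end CT
open CT

namespace Co

variable (X : Co G)

theorem ct_Q {g : G} (h : g * X.t = X.t * g) (hq : g ∈ 𝐂(X.QA)) :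
    ∃ o ∈ X.O, ∃ s, g = o * X.vv s ∨ g = o * X.t * X.vv s := by
  obtain ⟨o, ho, b, hb, e⟩ := X.ct_V h (centralizer_anti X.V_le_QA hq)
  have hA : 𝐂(X.A) ≤ 𝐂(X.QA) := centralizer_anti (X.QA_le_B.trans X.B_le_A)
  have k : b ∈ 𝐂(X.QA) := by
    rcases e with rfl | rfl
    · exact (mul_mem_cancel_left (hA (X.O_K ho))).1 hq
    · exact (mul_mem_cancel_left (hA (mul_mem (X.O_K ho) X.t_K))).1 hq
  obtain ⟨s, rfl⟩ := X.mem_V.1 (X.p1.B_cent b hb k)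
  exact ⟨o, ho, s, e⟩
theorem ct_P {g : G} (h : g * X.t = X.t * g) (hq : g ∈ 𝐂(X.P)) :
    ∃ o ∈ X.O, ∃ e ∈ X.W, g = o * e ∨ g = o * X.t * e := by
  obtain ⟨o, ho, b, hb, e⟩ := X.ct_V h
    (centralizer_anti (X.V_le_W.trans (X.W_le_R0.trans X.R0_le_P)) hq)
  have hA : 𝐂(X.A) ≤ 𝐂(X.P) := centralizer_anti (X.P_le_U.trans X.U_le_A)
  have k : b ∈ 𝐂(X.P) := by
    rcases e with rfl | rfl
    · exact (mul_mem_cancel_left (hA (X.O_K ho))).1 hq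
    · exact (mul_mem_cancel_left (hA (mul_mem (X.O_K ho) X.t_K))).1 hq
  have hU : b ∈ X.U := X.mem_U_of hb fun c => by
    rw [← k _ (X.x_P le_rfl c), mul_inv_cancel_right, mul_inv_cancel]; exact one_mem _
  exact ⟨o, ho, b, X.cent_P (X.cent_W hU (k _ (X.x_P (by decide) 1)).symm) k, e⟩
theorem two_KA {S : Subgroup G} (hS : IsPGroup 2 S) (hc : ∀ g ∈ S, g * X.t = X.t * g)
    (hK : S ≤ 𝐂(X.A) ⊔ X.A) :
    ∃ a ∈ X.A, ∀ g ∈ S, a * g * a⁻¹ ∈ X.U ∨ X.t * (a * g * a⁻¹) ∈ X.U := by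
  obtain ⟨a, ha, h⟩ := two0 X hS hc
  exact ⟨a, ha, fun g hg => h g hg (hK hg)⟩
theorem c1 {d : G} (hd : X.Dt d) {S : Subgroup G} (hS : IsPGroup 2 S) (hc : ∀ g ∈ S, g * d = d * g) :
    Nat.card S ≤ 16384 := by
  obtain ⟨c, -, h⟩ := nf X hd hS hc
  rw [← card_cj S c]
  have k1 := idxK X h.1
  have k2 := card_le_two (B := S ^ᶜ c ⊓ (𝐂(X.A) ⊔ X.A)) (H := X.U) fun x hx y hy hx' hy' => by
    have := mul_mem ((h.2 x hx.1 hx.2).resolve_left hx') ((h.2 y hy.1 hy.2).resolve_left hy')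
    rwa [← h.1 x hx.1, mul_assoc, ← mul_assoc X.t, X.t_sq, one_mul] at this
  have k3 := card_le_of_le (inf_le_right : S ^ᶜ c ⊓ (𝐂(X.A) ⊔ X.A) ⊓ X.U ≤ X.U)
  rw [X.card_U] at k3
  omega
theorem c2 {d : G} (hd : X.Dt d) {E : Subgroup G} (h2 : ∀ e ∈ E, e * e = 1)
    (hc : ∀ g ∈ E, g * d = d * g) (hn : d ∉ E) : Nat.card E ≤ 128 := by
  obtain ⟨c, e, h⟩ := nf X hd (isP_sq h2) hc
  rw [← card_cj E c]
  have k1 := card_tj X h (by rwa [← e, cj_mem_iff])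
  have k2 := X.ea_U (E := tj X _ h.1 ⊓ X.U) inf_le_right fun a ha => tj_sq X (sq_cj h2 c) ha.1
  omega
theorem c3 {d : G} (hd : X.Dt d) {Y E : Subgroup G} (hY : IsPGroup 2 Y)
    (hc : ∀ g ∈ Y, g * d = d * g) (hn : d ∉ Y) (hE : E ≤ Y) (hEY : E ≤ 𝐂(Y))
    (h2 : ∀ e ∈ E, e * e = 1) (h64 : 64 ≤ Nat.card E) : Nat.card Y ≤ 512 := by
  obtain ⟨c, e, h⟩ := nf X hd hY hc
  rw [← card_cj Y c]
  rw [← card_cj E c] at h64
  have hn' : X.t ∉ Y ^ᶜ c := by rwa [← e, cj_mem_iff]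
  have h' : Nf X (E ^ᶜ c) := ⟨fun g hg => h.1 g (cj_mono c hE hg), fun g hg => h.2 g (cj_mono c hE hg)⟩
  have k1 := card_tj X h hn'
  have k2 := card_tj X h' fun k => hn' (cj_mono c hE k)
  have k3 : ¬ tj X _ h'.1 ⊓ X.U ≤ X.W := fun k => by
    have := card_le_of_le k
    rw [X.card_W] at this
    omega
  obtain ⟨a, ha, ha'⟩ := SetLike.not_le_iff_exists.1 k3
  have k4 := X.cent_inv ha.2 (tj_sq X (sq_cj h2 c) ha.1) ha'
  have k5 : tj X _ h.1 ⊓ X.U ≤ X.U ⊓ centralizer {a} := fun y hy =>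
    ⟨hy.2, mem_centralizer_singleton_iff.2 (tj_cc X
      (fun u hu v hv => (cj_centralizer Y c ▸ cj_mono c hEY hv : v ∈ 𝐂(Y ^ᶜ c)) u hu) hy.1 ha.1)⟩
  have := card_le_of_le k5
  omega
theorem exists_ff : ∃ f, X.Ff f := by
  by_cases h : ∀ g, g * X.t = X.t * g → g ∈ 𝐂(X.A) ⊔ X.A
  · exact ⟨1, by simp, Or.inl ⟨rfl, h⟩⟩
  push Not at h
  obtain ⟨g, h1, h2⟩ := h
  obtain ⟨a, ha, hf⟩ := X.phi_of (X.ct_N h1) h2
  have c : Commute (a * g) X.t := Commute.mul_left (X.t_A ha) h1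
  generalize a * g = f at hf c
  obtain ⟨m, hm⟩ := X.O_odd
  refine ⟨f ^ Nat.card X.O, c.pow_left _, Or.inr ⟨fun r s => ?_, ?_⟩⟩
  · have k := pow_mem hf.sq m (X.x r (s * s)) (X.x_mem _ _)
    rw [hm, pow_succ, pow_mul, sq, mul_inv_rev, mul_assoc _ f, mul_assoc _ (f * _), ← mul_assoc _ f⁻¹,
      hf, ← mul_assoc, ← k, mul_inv_cancel_right]
  · rw [← (Commute.refl f).mul_pow]
    rcases X.cK _ hf.sq (c.mul_left c) with e | e
    · exact Or.inl (pow_card_one e)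
    · have := pow_card_one e
      rw [(c.mul_left c).mul_pow] at this
      refine Or.inr ?_
      rw [mul_eq_one_iff_eq_inv.1 this, hm, pow_succ, pow_mul, sq, X.t_sq, one_pow, one_mul, X.t_inv]
theorem c4 {f : G} (hf : X.Ff f) {S : Subgroup G} (hS : IsPGroup 2 S)
    (hc : ∀ g ∈ S, g * X.t = X.t * g) (hU : X.U ≤ S) (hfS : f ∈ S) {g : G} (hg : g ∈ S) :
    g ∈ X.U ∨ X.t * g ∈ X.U ∨ f * g ∈ X.U ∨ X.t * f * g ∈ X.U := by
  have e : tj X S hc ⊓ X.A = X.U := X.syl_U.max _ (le_inf (fun _ h => Or.inl (hU h)) X.U_le_A)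
    inf_le_right (tj_isP X hS hc).to_inf_left
  have k : ∀ g ∈ S, g ∈ 𝐂(X.A) ⊔ X.A → g ∈ X.U ∨ X.t * g ∈ X.U := fun g hg hK =>
    e ▸ inA X hS hc hg hK
  by_cases hK : g ∈ 𝐂(X.A) ⊔ X.A
  · exact (k g hg hK).imp_right Or.inl
  rcases hf.2 with ⟨-, h⟩ | ⟨h, -⟩
  · exact (hK (h g (hc g hg))).elim
  · rw [mul_assoc]
    exact Or.inr (Or.inr (k _ (mul_mem hfS hg)
      (X.mul_KA (X.Phi_N h) (X.ct_N (hc g hg)) (X.Phi_not_KA h) hK)))
theorem exists_S0 {f : G} (ht : f * X.t = X.t * f) (hf : X.Phi f) (h2 : f * f = 1) :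
    ∃ S : Subgroup G, IsPGroup 2 S ∧ Nat.card S = 16384 ∧
      ∀ g, g ∈ S ↔ g ∈ X.U ∨ X.t * g ∈ X.U ∨ f * g ∈ X.U ∨ X.t * f * g ∈ X.U := by
  have hc : ∀ g ∈ X.U, g * X.t = X.t * g := fun g hg => X.t_A (X.U_le_A hg)
  have hU : ∀ b ∈ X.U, f * b * f ∈ X.U := fun b hb => by
    have := conj_mem_of_mem_normalizer (X.Phi_U hf) hb
    rwa [inv_eq_of_mul_eq_one_right h2] at this
  have hn : ∀ b ∈ tj X X.U hc, f * b * f ∈ tj X X.U hc := fun b hb => hb.imp (hU b) fun h => by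
    have := hU _ h
    rwa [← mul_assoc, ht, mul_assoc, mul_assoc, ← mul_assoc f] at this
  have hx : f ∉ tj X X.U hc := by
    rintro (h | h)
    · exact X.Phi_not_KA hf (mem_sup_right (X.U_le_A h))
    · exact X.Phi_not_KA (X.Phi_t hf) (mem_sup_right (X.U_le_A h))
  have e : Nat.card (ex _ f h2 hn) = 16384 := by
    rw [card_ex h2 hn hx, card_ex X.t_sq _ fun h => X.t_not_A (X.U_le_A h), X.card_U]
  refine ⟨_, IsPGroup.of_card (n := 14) e, e, fun g => ?_⟩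
  rw [mem_ex, mem_ex, mem_ex, or_assoc, mul_assoc]

end Co

end H16.GC
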