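import Cfsg.Agent.Lib.ASG.Bas

/-! A standard subgroup `G₂(4)` whose centraliser has 2-rank one: the frames. -/

set_option autoImplicit false

namespace H16.GC

open H30 H30.F4 H69 Subgroup Cfsg H79.AS

/-! ### Involutions acting freely -/

section
variable {G : Type*} [Group G]

/-- every involution of the coset `c Y` is conjugate to `c` under `Y` -/
def Fr (c : G) (Y : Subgroup G) : Prop :=
  ∀ y ∈ Y, c * y * (c * y) = 1 → ∃ x ∈ Y, x * c * x⁻¹ = c * y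

/-- some element of `Y` moves `c` into `c b Z` -/
def On (c : G) (Y Z : Subgroup G) (b : G) : Prop := ∃ y ∈ Y, ∃ x ∈ Z, y * c * y⁻¹ = c * (b * x)

/-- `Y / Z` is an elementary abelian section normalised by the involution `c` -/
structure Sec (c : G) (Y Z : Subgroup G) : Prop where
  c_sq : c * c = 1
  le : Z ≤ Y
  cY : c ∈ 𝐍(Y)
  cZ : c ∈ 𝐍(Z)
  comm : ∀ x ∈ Y, ∀ y ∈ Y, x * y * x⁻¹ * y⁻¹ ∈ Z
  sq : ∀ y ∈ Y, y * y ∈ Z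

/-- `t` acts freely on `Y / Z`, and the fixed points are `B Z / Z` -/
structure Dbl (t : G) (Y Z B : Subgroup G) : Prop extends Sec t Y Z where
  B_le : B ≤ Y
  B_t : ∀ b ∈ B, b * t = t * b
  onto : ∀ b ∈ B, On t Y Z b
  ker : ∀ y ∈ Y, ∀ x ∈ Z, y * t * y⁻¹ = t * x → ∃ b ∈ B, ∃ x' ∈ Z, y = b * x'

/-- the set which doubles `B` over `Z` -/
def DbS (t : G) (O Z B : Subgroup G) (y : G) : Prop :=
  y ∈ 𝐂(Z) ∧ y ∈ 𝐂(O) ∧ (∀ b ∈ B, y * b * y⁻¹ * b⁻¹ ∈ Z) ∧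
    (∃ b ∈ B, ∃ x ∈ Z, y * t * y⁻¹ = t * (b * x)) ∧ y * y ∈ Z

def Db (t : G) (O Z B : Subgroup G) : Subgroup G := closure {y | DbS t O Z B y}

/-- the hypotheses of the doubling lemma -/
structure Pre (t : G) (O Z B : Subgroup G) : Prop where
  t_sq : t * t = 1
  O_odd : Odd (Nat.card O)
  t_O : t ∈ 𝐂(O)
  t_Z : t ∈ 𝐍(Z)
  Z_ab : Z ≤ 𝐂(Z)
  Z_sq : ∀ x ∈ Z, x * x = 1
  Z_O : Z ≤ 𝐂(O)
  B_O : B ≤ 𝐂(O)
  B_Z : B ≤ 𝐂(Z)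
  B_t : ∀ b ∈ B, b * t = t * b
  B_comm : ∀ a ∈ B, ∀ b ∈ B, a * b * a⁻¹ * b⁻¹ ∈ Z
  B_sq : ∀ b ∈ B, b * b ∈ Z
  fr : Fr t Z
  cen : ∀ g ∈ 𝐂(Z), g * t = t * g → (∀ b ∈ B, g * b * g⁻¹ * b⁻¹ ∈ Z) → ∃ o ∈ O, ∃ b ∈ B, g = o * b
  zb : ∀ b ∈ B, b ∈ 𝐂(B) → b ∈ Z

/-- the subgroup generated by the root groups numbered from `k` on -/
def Ur (X : Rt G) (k : Fin 12) : Subgroup G := closure {g | ∃ r t, k ≤ r ∧ g = X.x r t}

end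

/-! ### The frames -/

/-- `A` is a standard subgroup whose centraliser has 2-rank one. -/
structure Cy (G : Type*) [Group G] extends Rt G where
  p1 : toRt.P1
  p2 : toRt.P2
  p3 : toRt.P3
  std : IsStandardSubgroup toRt.A
  t : G
  t_K : t ∈ 𝐂(toRt.A)
  t_sq : t * t = 1
  t_ne : t ≠ 1
  r1 : ∀ k ∈ 𝐂(toRt.A), k * k = 1 → k * t = t * k → k = 1 ∨ k = t

namespace Cy

variable {G : Type*} [Group G] (X : Cy G)

/-- the Sylow 2-subgroup of `A` -/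
def U : Subgroup G := Ur X.toRt 6
/-- the unipotent radical `2^(4+6)` -/
def P : Subgroup G := Ur X.toRt 7
/-- `P ∩ Q_A` -/
def R0 : Subgroup G := Ur X.toRt 8
/-- the centre of `P` -/
def W : Subgroup G := Ur X.toRt 10
/-- the class of `t` -/
def Dt (d : G) : Prop := ∃ g, d = g * X.t * g⁻¹
/-- `f` centralises `t` and induces the field automorphism, or there is no such element -/
def Ff (f : G) : Prop := f * X.t = X.t * f ∧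
  ((f = 1 ∧ ∀ g, g * X.t = X.t * g → g ∈ 𝐂(X.A) ⊔ X.A) ∨ (X.Phi f ∧ (f * f = 1 ∨ f * f = X.t)))

end Cy

/-- `C_K(t) = O × ⟨t⟩`. -/
structure Co (G : Type*) [Group G] extends Cy G where
  O : Subgroup G
  O_odd : Odd (Nat.card O)
  O_K : O ≤ 𝐂(toRt.A)
  t_O : t ∈ 𝐂(O)
  cK : ∀ k ∈ 𝐂(toRt.A), k * t = t * k → k ∈ O ∨ k * t ∈ O

/-- The element `n = θ₁ θ⁻¹`. -/
structure Ca (G : Type*) [Group G] extends Co G where
  n : G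
  n_O : n ∈ 𝐂(O)
  n_v : ∀ s, n * toRt.vv s = toRt.vv s * n
  n_t : n * t * n⁻¹ = t * toRt.vv w
  n_q : ∀ y, ∃ s, n * toRt.qa y * n⁻¹ = toRt.qa y * toRt.vv s
  n_L : ∀ l ∈ toRt.L, l⁻¹ * (n * l * n⁻¹) ∈ toRt.QA

/-- The elements `p c` which double `V`. -/
structure Cb (G : Type*) [Group G] extends Co G where
  p : F4 → G
  c0 : F4
  p_B : ∀ c, p c ∈ 𝐂(toRt.B)
  p_O : ∀ c, p c ∈ 𝐂(O)
  p_t : ∀ c, p c * t * (p c)⁻¹ = t * toRt.vv c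
  p_add : ∀ c d, ∃ s, p c * p d = p (c + d) * toRt.vv s
  p_zero : p 0 = 1
  p_th : ∀ c, th * p c * th⁻¹ = p (v * c)
  p_sq : ∀ c, p c * p c = toRt.vv (c0 * c)
  p_comm : ∀ c d, p c * p d = p d * p c

/-- The doubled groups `Ṽ = 2⁴` and `W̃ = 2⁸` are elementary abelian. -/
structure Cc (G : Type*) [Group G] extends Co G where
  p : F4 → G
  p_B : ∀ c, p c ∈ 𝐂(toRt.B)
  p_O : ∀ c, p c ∈ 𝐂(O)
  p_t : ∀ c, p c * t * (p c)⁻¹ = t * toRt.vv c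
  p_add : ∀ c d, p (c + d) = p c * p d
  p_th : ∀ c, th * p c * th⁻¹ = p (v * c)
  pp : ∀ c d, p c * (nb * p d * nb⁻¹) = nb * p d * nb⁻¹ * p c
  x6p : ∀ s c, ∃ a, x 6 s * (nb * p c * nb⁻¹) * (x 6 s)⁻¹ =
    nb * p c * nb⁻¹ * (p (s * c) * toRt.vv a)

namespace Cc

variable {G : Type*} [Group G] (X : Cc G)

def p' (c : F4) : G := X.nb * X.p c * X.nb⁻¹
/-- the coordinates on `Ṽ` -/
def pv (u : F4 × F4) : G := X.p u.1 * X.vv u.2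
def Vt : Subgroup G := closure {g | ∃ u, g = X.pv u}
def Wt : Subgroup G := closure {g | ∃ u d a, g = X.pv u * (X.p' d * X.x 10 a)}
def Qt : Subgroup G := Db X.t X.O X.Vt X.QA
def Pt : Subgroup G := Db X.t X.O X.Wt X.P
def R : Subgroup G := X.Qt ⊓ 𝐂(X.Wt)
def Ut : Subgroup G := X.Pt ⊔ X.Qt

/-- a Sylow 2-subgroup `T` of `G` which normalises `Ũ` -/
structure Top (T : Subgroup G) (f : G) : Prop where
  ff : X.Ff f
  syl : IsSylowIn 2 T ⊤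
  Ut_le : X.Ut ≤ T
  t_mem : X.t ∈ T
  f_mem : f ∈ T
  nU : T ≤ 𝐍(X.Ut)
  nV : T ≤ 𝐍(X.Vt)
  cen : ∀ g ∈ T, ∀ y ∈ X.Ut, g * X.t * g⁻¹ = X.t * y →
    g ∈ X.Ut ∨ X.t * g ∈ X.Ut ∨ f * g ∈ X.Ut ∨ X.t * f * g ∈ X.Ut
  cV : ∀ g ∈ T, g ∈ 𝐂(X.Vt) → g ∈ X.Ut

end Cc

end H16.GC
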