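import Cfsg.Agent.Lib.G24C.UT

/-! No conjugate of `t` lies in `Ũ`. -/

set_option autoImplicit false

namespace H16.GC

open H30 H30.F4 H69 Subgroup Cfsg H79.AS

variable {G : Type*} [Group G] [Finite G]

namespace ND

variable (X : Cc G) {y : G}

theorem not_CW (hd : X.Dt y) : y ∉ 𝐂(X.Wt) := fun h => by
  by_cases k : y ∈ X.Wt
  · have := X.c1 hd (IsPGroup.of_card X.card_Pt) fun g hg => (mem_centralizer_iff.1 (X.Pt_Wt hg) y k).symm
    rw [X.card_Pt] at this
    omega
  · have := X.c2 hd (fun _ => X.Wt_sq) (fun g hg => mem_centralizer_iff.1 h g hg) k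
    rw [X.card_Wt] at this
    omega

theorem not_Qt (hd : X.Dt y) : y ∉ X.Qt := fun h => by
  have h1 := UT.card_le_cm fun u hu => X.dbl_Qt.comm u hu y h
  have h2 := X.c1 hd (S := X.Qt ⊓ centralizer {y}) ((IsPGroup.of_card X.card_Qt).to_le inf_le_left)
    fun g hg => mem_centralizer_singleton_iff.1 hg.2
  rw [X.card_Qt, X.card_Vt] at h1
  omega

end ND

open ND

namespace Cc

variable (X : Cc G)

theorem nd {y : G} (hy : y ∈ X.Ut) : ¬ X.Dt y := fun hd => by
  obtain ⟨p, hp, q, hq, e⟩ := X.mem_Ut.1 hy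
  have cj : ∀ x ∈ X.Wt, y * x * y⁻¹ = q * x * q⁻¹ := fun x hx => by
    rw [← conj_eq_of_mem_centralizer (X.Pt_Wt hp) (conj_mem_of_mem_normalizer (X.Qt_nWt hq) hx), e]
    group
  have cc : ∀ {a b : G}, a ∈ centralizer ({b} : Set G) ↔ b * a * b⁻¹ = a := by
    intro a b
    rw [mem_centralizer_singleton_iff, mul_inv_eq_iff_eq_mul, eq_comm]
  have C : (X.Wt ⊓ centralizer {q} : Subgroup G) = X.Wt ⊓ centralizer {y} := by
    ext x
    exact and_congr_right fun hx => by
      change x ∈ centralizer ({q} : Set G) ↔ x ∈ centralizer ({y} : Set G)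
      rw [cc, cc, cj x hx]
  have yi : y⁻¹ = y := inv_eq_of_mul_eq_one_right hd.sq
  have δ : ∀ r ∈ X.R, y * r * y⁻¹ * r⁻¹ ∈ (X.Wt ⊓ centralizer {y} : Subgroup G) := fun r hr => by
    have m := X.Ut_R hy hr
    refine ⟨m, cc.2 ?_⟩
    rw [← inv_eq_of_mul_eq_one_right (X.Wt_sq m)]
    calc y * (y * r * y⁻¹ * r⁻¹)⁻¹ * y⁻¹ = y * r * y * r⁻¹ * (y * y)⁻¹ := by group
      _ = y * r * y⁻¹ * r⁻¹ := by rw [hd.sq, yi]; group
      _ = _ := (inv_eq_of_mul_eq_one_right (X.Wt_sq m)).symm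
  rcases X.Qt_tri hq with h | h | h
  · have x9 : X.x 9 1 ∈ X.R := X.R0_le_R (X.x_R0 (by decide) 1)
    have a := δ _ x9
    rw [← C, h, e] at a
    have b := conj_mem_of_mem_normalizer (centralizer_le_normalizer _ (X.Ut_Vt (mem_sup_left hp)))
      (X.dbl_Qt.comm q hq _ x9.1)
    have : p ∈ X.R := X.Pt_x9 hp (by
      convert mul_mem (inv_mem b) a using 1
      group)
    exact not_Qt X hd (e ▸ mul_mem this.1 hq)
  · rw [C] at h
    have h1 := UT.card_le_cm (H := X.R) (e := y) (C := X.Wt ⊓ centralizer {y}) fun r hr => by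
      convert inv_mem (δ r hr) using 1
      group
    have h2 := X.c3 hd (Y := X.R ⊓ centralizer {y}) (E := X.Wt ⊓ centralizer {y})
      ((IsPGroup.of_card X.card_R).to_le inf_le_left) (fun g hg => mem_centralizer_singleton_iff.1 hg.2)
      (fun k => not_Qt X hd k.1.1) (inf_le_inf_right _ X.Wt_le_R)
      (inf_le_left.trans (le_centralizer_iff.1 (inf_le_left.trans inf_le_right))) (fun _ k => X.Wt_sq k.1) h.ge
    rw [X.card_R, h] at h1
    omega
  · refine not_CW X hd (mem_centralizer_iff.2 fun x hx => ?_)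
    have : x ∈ (X.Wt ⊓ centralizer {y} : Subgroup G) := C ▸ ⟨hx, h hx⟩
    exact mem_centralizer_singleton_iff.1 this.2

end Cc

end H16.GC
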