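import Cfsg.Agent.Lib.G24C.UF
import Cfsg.Agent.Lib.G24C.ND

/-! If `f` is conjugate to `t`, then it is so in the normaliser of `Ṽ`. -/

set_option autoImplicit false

namespace H16.GC

open H30 H30.F4 H69 Subgroup Cfsg H79.AS

variable {G : Type*} [Group G] [Finite G]

namespace EA

theorem rel (H K : Subgroup G) : Nat.card (K ⊓ H : Subgroup G) * H.relIndex K = Nat.card K := by
  rw [← card_subgroupOf (inf_le_left : K ⊓ H ≤ K), inf_subgroupOf_left]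
  exact (H.subgroupOf K).card_mul_index

theorem le_two {H K : Subgroup G} (h : Nat.card K ≤ 2 * Nat.card (K ⊓ H : Subgroup G)) :
    H.relIndex K ≤ 2 :=
  Nat.le_of_mul_le_mul_left (by rw [rel, mul_comm]; exact h) (Nat.card_pos (α := (K ⊓ H : Subgroup G)))

theorem dbl {H K : Subgroup G} (h : H ≤ K) {a : G} (ha : a ∈ K) (k : a ∉ H) :
    2 * Nat.card H ≤ Nat.card K := by
  have := rel H K
  rw [inf_eq_right.2 h] at this
  have h1 : H.relIndex K ≠ 1 := fun e => k (relIndex_eq_one.1 e ha)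
  have h0 : H.relIndex K ≠ 0 := index_ne_zero_of_finite
  rw [← this, mul_comm]
  exact Nat.mul_le_mul_left _ (by omega)

theorem half {H K : Subgroup G} (h : H.relIndex K ≤ 2) {a b : G} (ha : a ∈ K) (hb : b ∈ K)
    (k : a ∈ H ↔ b ∈ H) : a * b ∈ H := by
  have h0 : H.relIndex K ≠ 0 := index_ne_zero_of_finite
  by_cases h1 : H.relIndex K = 1
  · exact relIndex_eq_one.1 h1 (mul_mem ha hb)
  · exact (mul_mem_iff_of_index_two (H := H.subgroupOf K) (by change H.relIndex K = 2; omega)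
      (a := ⟨a, ha⟩) (b := ⟨b, hb⟩)).2 k

end EA

namespace Cc

variable (X : Cc G)

open EA in
theorem norm_h {f : G} (ht : f * X.t = X.t * f) (hf : X.Phi f) (h2 : f * f = 1) (hD : X.Dt f) :
    ∃ h ∈ 𝐍(X.Vt), h * X.t * h⁻¹ = f := by
  obtain ⟨S, s1, s2, s3⟩ := X.exists_S0 ht hf h2
  have sU : X.U ≤ S := fun g hg => (s3 g).2 (.inl hg)
  have st : X.t ∈ S := (s3 _).2 (.inr (.inl (X.t_sq ▸ one_mem _)))
  have sf : f ∈ S := (s3 _).2 (.inr (.inr (.inl (h2 ▸ one_mem _))))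
  have sc : S ≤ centralizer {X.t} := fun g hg => by
    have k : X.U ≤ centralizer {X.t} := fun u hu =>
      mem_centralizer_singleton_iff.2 (X.t_A (X.U_le_A hu))
    have k1 : X.t ∈ centralizer {X.t} := mem_centralizer_singleton_iff.2 rfl
    have k2 : f ∈ centralizer {X.t} := mem_centralizer_singleton_iff.2 ht
    rcases (s3 g).1 hg with e | e | e | e
    exacts [k e, (mul_mem_cancel_left k1).1 (k e), (mul_mem_cancel_left k2).1 (k e),
      (mul_mem_cancel_left (mul_mem k1 k2)).1 (k e)]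
  have syl : IsSylowIn 2 S (centralizer {X.t}) := ⟨sc, s1, fun R r1 r2 r3 =>
    (eq_of_le_of_card_ge r1 (s2 ▸ X.c1 X.Dt_t r3 fun g hg =>
      mem_centralizer_singleton_iff.1 (r2 hg))).symm⟩
  obtain ⟨h, e, k⟩ : ∃ h, h⁻¹ * X.t * h = f ∧ (X.Ut ⊓ centralizer {f}) ^ᶜ h ≤ S := by
    obtain ⟨g, rfl⟩ := hD
    obtain ⟨c, c1, c2⟩ := syl.exists_cj_le (R := (X.Ut ⊓ centralizer {g * X.t * g⁻¹}) ^ᶜ g⁻¹)
      (isPGroup_cj (X.isP_Ut.to_le inf_le_left) _) (by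
        rw [cj_le_iff, cj_centralizer_singleton, inv_inv]; exact inf_le_right)
    refine ⟨c * g⁻¹, ?_, cj_cj _ g⁻¹ c ▸ c2⟩
    calc _ = g * (c⁻¹ * (X.t * c)) * g⁻¹ := by group
      _ = _ := by rw [← mem_centralizer_singleton_iff.1 c1, inv_mul_cancel_left]
  set U' := (X.Ut ⊓ centralizer {f}) ^ᶜ h
  have e' : h * f * h⁻¹ = X.t := by rw [← e]; group
  have cU : 4096 ≤ Nat.card U' := (X.card_phi ht hf h2).trans_eq (card_cj _ h).symm
  have nD : ∀ y, y ∈ X.Ut ^ᶜ h → ¬ X.Dt y := fun y hy k =>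
    X.nd (mem_cj.1 hy) (by simpa using k.conj h⁻¹)
  have le1 : U' ≤ X.Ut ^ᶜ h := cj_mono h inf_le_left
  have tU : X.t ∉ U' := fun k => nD _ (le1 k) X.Dt_t
  have cm : U' ≤ 𝐂(X.Vt ^ᶜ h) := le1.trans (cj_centralizer _ h ▸ cj_mono h X.Ut_Vt)
  have tV : X.t ∈ 𝐂(X.V) := centralizer_anti X.V_le_A X.t_K
  have fV : f ∉ 𝐂(X.V) := fun k => absurd (X.vv_inj ((hf 11 w).symm.trans
    (conj_eq_of_mem_centralizer k (X.vv_mem w)))) (by decide)
  have UV : X.U ≤ 𝐂(X.V) := X.U_le_B.trans X.B_le_CV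
  have cV : ∀ g ∈ S, g ∈ 𝐂(X.V) → g ∈ X.U ∨ X.t * g ∈ X.U := fun g hg k => by
    rcases (s3 g).1 hg with e | e | e | e
    exacts [.inl e, .inr e, absurd ((mul_mem_cancel_right k).1 (UV e)) fV,
      absurd ((mul_mem_cancel_left tV).1 ((mul_mem_cancel_right k).1 (UV e))) fV]
  have tD : ∀ y ∈ X.Ut ^ᶜ h, y * y = 1 → X.t * y ∉ X.Ut := fun y hy y2 k => by
    have := X.tU_D k
    rw [← mul_assoc X.t X.t, X.t_sq, one_mul] at this
    exact nD y hy (this y2)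
  have sq : ∀ y ∈ X.Vt ^ᶜ h, y * y = 1 := fun y hy => by
    obtain ⟨a, ha, rfl⟩ := mem_cj'.1 hy
    rw [← cj_mul, X.Vt_sq ha]; simp
  have le2 : (X.Vt ⊓ centralizer {f}) ^ᶜ h ≤ U' := cj_mono h (inf_le_inf_right _ X.Vt_le_Ut)
  have hZ : (X.Vt ⊓ centralizer {f}) ^ᶜ h = X.V := eq_of_le_of_card_ge (fun ζ hζ => by
    have z1 : ζ ∈ X.Vt ^ᶜ h := cj_mono h inf_le_left hζ
    have z2 := dbl (H := U') (K := S ⊓ centralizer {ζ}) (le_inf k fun y hy =>
      mem_centralizer_singleton_iff.2 (cm hy ζ z1).symm) ⟨st, mem_centralizer_singleton_iff.2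
        (mem_centralizer_singleton_iff.1 (sc (k (le2 hζ)))).symm⟩ tU
    have z3 : (centralizer {ζ}).relIndex S ≤ 2 := le_two (by omega)
    have z4 : ζ ∈ 𝐂(X.V) := X.mem_CV.2 fun s => by
      have a := sU (mul_mem (X.x_U (r := 6) le_rfl s) (X.x_U (r := 10) (by decide) 1))
      have := half z3 a a Iff.rfl
      rw [X.x6_x10_sq, mul_one] at this
      exact (mem_centralizer_singleton_iff.1 this).symm
    have z5 := (cV ζ (k (le2 hζ)) z4).resolve_right fun a =>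
      tD ζ (le1 (le2 hζ)) (sq ζ z1) (X.U_le_Ut a)
    by_contra z6
    have z7 := rel (centralizer {ζ}) X.U
    have z8 := (relIndex_le_of_le_right sU index_ne_zero_of_finite).trans z3
    have z9 := X.cent_inv' z5 (sq ζ z1) z6
    rw [X.card_U] at z7
    nlinarith) (by rw [card_cj, X.card_V]; exact X.card_phi_Vt ht hf h2)
  have u1 : U' ≤ S ⊓ 𝐂(X.V) := le_inf k (cm.trans (centralizer_anti (hZ ▸ cj_mono h inf_le_left)))
  have u2 := dbl (inf_le_left : S ⊓ 𝐂(X.V) ≤ S) sf fun a => fV a.2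
  have u3 : U'.relIndex (S ⊓ 𝐂(X.V)) ≤ 2 := le_two (by rw [inf_eq_right.2 u1]; omega)
  have u4 : X.U ≤ U' := (closure_le _).2 fun y ⟨r, s, hr, hy⟩ => by
    by_contra a
    have b : y ∈ X.U := hy ▸ X.x_U hr s
    have y2 : X.t * y * (X.t * y) = 1 := by
      rw [mul_assoc, ← mul_assoc y, X.t_A (X.U_le_A b), ← mul_assoc, ← mul_assoc, X.t_sq, one_mul,
        hy, X.x_sq]
    exact nD _ (le1 (half u3 ⟨st, tV⟩ ⟨sU b, UV b⟩ (iff_of_false tU a))) (X.tU_D (X.U_le_Ut b) y2)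
  refine ⟨h⁻¹, inv_mem (mem_normalizer_of_cj_le fun x hx => ?_), by rw [inv_inv, e]⟩
  obtain ⟨y, hy, rfl⟩ := mem_cj'.1 hx
  have y1 := conj_mem_of_mem_normalizer' (X.phi_Vt ht hf) hy
  have fi : f⁻¹ = f := inv_eq_of_mul_eq_one_right h2
  have yi : y⁻¹ = y := inv_eq_of_mul_eq_one_right (X.Vt_sq hy)
  obtain ⟨s, hs⟩ := X.mem_V.1 (hZ.le (cj_mem h (x := f⁻¹ * y * f * y⁻¹)
    ⟨X.Vt.mul_mem y1 (X.Vt.inv_mem hy), mem_centralizer_singleton_iff.2 (by
      have c := X.Vt_ab y1 y hy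
      rw [fi] at c ⊢
      rw [yi]
      calc _ = f * (y * (f * y * f)) := by group
        _ = _ := by rw [c])⟩))
  refine (X.can (s := s) (j := 1) (fun q hq => (cm (u4 (X.QA_le_U hq)) _ hx).symm)
    (by rw [← hs, ← e']; group) (by simpa [pow_two] using sq _ hx)).resolve_right fun a => ?_
  refine tD _ (cj_mono h X.Vt_le_Ut hx) (sq _ hx) (X.Vt_le_Ut ?_)
  simpa [mul_assoc] using conj_mem_of_mem_normalizer X.t_Vt a

end Cc

end H16.GC
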