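import Cfsg.Agent.Lib.G24C.EA

/-! The case of three fused cosets. -/

set_option autoImplicit false

namespace H16.GC

open H30 H30.F4 H69 Subgroup Cfsg H79.AS

variable {G : Type*} [Group G] [Finite G]

namespace Cc

variable (X : Cc G)

namespace EB

def l2 (p q : F4 × F4) : F4 → F4 × F4
  | .o => 0
  | .i => p
  | .w => q
  | .v => p + q

def lin (p q r s u : F4 × F4) : F4 × F4 := l2 p q u.1 + l2 r s u.2
def s0 (u : F4 × F4) : F4 × F4 := (u.1 * u.1, u.2 * u.2)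
def s1 (u : F4 × F4) : F4 × F4 := (u.1 * u.1, u.2 * u.2 + u.1 * u.1)
def tt (u : F4 × F4) : F4 × F4 := (u.1, u.2 + u.1)
def sc (u : F4 × F4) : F4 × F4 := (v * u.1, v * u.2)
def la (p q : F4 × F4) : F4 × F4 → F4 × F4 := lin (p + s0 p) p (q + s0 q) q
def lb (p q : F4 × F4) : F4 × F4 → F4 × F4 := lin (p + s1 p + s1 q) p (q + s1 q) q
abbrev Ok (s a : F4 × F4 → F4 × F4) : Prop := ∀ u, a u + a (a u) + u = 0 ∧ a (s u) = s (a u)
abbrev O4 (φ : F4 × F4 → F4 × F4) : Prop := (∀ u, φ (φ (φ (φ u))) = u) ∧ ¬ ∀ u, φ (φ u) = u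

theorem fin : ∀ p q, Ok s0 (la p q) → ∀ p' q', Ok s1 (lb p' q') → O4 (sc ∘ la p q ∘ s0) ∨
    O4 (tt ∘ sc ∘ lb p' q' ∘ s0) ∨ O4 (la p q ∘ lb p' q' ∘ s0) := by decide +kernel

theorem eq_lin {a : F4 × F4 → F4 × F4} (h : ∀ u u', a (u + u') = a u + a u') :
    a = lin (a (1, 0)) (a (w, 0)) (a (0, 1)) (a (0, w)) := by
  have h0 : a 0 = 0 := by simpa using h 0 0
  funext ⟨c, s⟩
  rw [show (c, s) = (c, 0) + (0, s) by simp, h, show (c, 0) + (0, s) = (c, s) by simp]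
  congr 1
  · cases c
    exacts [h0, rfl, rfl, h (1, 0) (w, 0)]
  · cases s
    exacts [h0, rfl, rfl, h (0, 1) (0, w)]

theorem self (u : F4 × F4) : u + u = 0 := by revert u; decide

theorem eq_la {a : F4 × F4 → F4 × F4} (h : ∀ u u', a (u + u') = a u + a u') (k : Ok s0 a) :
    ∃ p q, a = la p q := ⟨a (w, 0), a (0, w), (eq_lin h).trans (by
  rw [la, ← (k _).2, ← (k _).2, ← h, ← h]; rfl)⟩

theorem eq_lb {a : F4 × F4 → F4 × F4} (h : ∀ u u', a (u + u') = a u + a u') (k : Ok s1 a) :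
    ∃ p q, a = lb p q := ⟨a (w, 0), a (0, w), (eq_lin h).trans (by
  rw [lb, ← (k _).2, ← (k _).2, ← h, ← h, ← h]; rfl)⟩

/-- `g` acts on `Ṽ` as `φ` -/
def Ac (g : G) (φ : F4 × F4 → F4 × F4) : Prop :=
  g ∈ 𝐍(X.Vt) ∧ ∀ u, g * X.pv u * g⁻¹ = X.pv (φ u)

variable {X}

theorem Ac.mul {g g' : G} {φ φ' : F4 × F4 → F4 × F4} (h : Ac X g φ) (h' : Ac X g' φ') :
    Ac X (g * g') (φ ∘ φ') := ⟨mul_mem h.1 h'.1, fun u => by
  rw [Function.comp, ← h.2, ← h'.2]; group⟩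

theorem Ac.add {g : G} {φ : F4 × F4 → F4 × F4} (h : Ac X g φ) (u u' : F4 × F4) :
    φ (u + u') = φ u + φ u' := X.pv_inj (by rw [X.pv_add, ← h.2, ← h.2, ← h.2, X.pv_add, cj_mul])

theorem Ac.uq {g : G} {φ φ' : F4 × F4 → F4 × F4} (h : Ac X g φ) (h' : Ac X g φ') (u : F4 × F4) :
    φ u = φ' u := X.pv_inj ((h.2 u).symm.trans (h'.2 u))

theorem exists_ac {g : G} (h : g ∈ 𝐍(X.Vt)) : ∃ φ, Ac X g φ := by
  choose φ hφ using fun u => X.mem_Vt.1 (conj_mem_of_mem_normalizer h (X.pv_mem u))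
  exact ⟨φ, h, hφ⟩

theorem Ac.cen {g : G} {φ : F4 × F4 → F4 × F4} (h : Ac X g φ) : g ∈ 𝐂(X.Vt) ↔ ∀ u, φ u = u :=
  ⟨fun k u => X.pv_inj ((h.2 u).symm.trans (conj_eq_of_mem_centralizer k (X.pv_mem u))), fun k =>
    mem_centralizer_iff_commute.2 fun a ha => by
      obtain ⟨u, rfl⟩ := X.mem_Vt.1 ha
      exact (mul_inv_eq_iff_eq_mul.1 ((h.2 u).trans (by rw [k]))).symm⟩

theorem not_O4 {T : Subgroup G} (hS : IsSylowIn 2 T 𝐍(X.Vt)) (hT : ∀ g ∈ T, g * g ∈ X.Ut) {g : G}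
    {φ : F4 × F4 → F4 × F4} (h : Ac X g φ) : ¬ O4 φ := fun k => by
  have k4 := (h.mul (h.mul (h.mul h))).cen.2 k.1
  obtain ⟨n, m, ⟨j, rfl⟩, e⟩ := Nat.exists_eq_two_pow_mul_odd (orderOf_pos g).ne'
  obtain ⟨c, hc, k1⟩ := hS.exists_cj_le (R := zpowers (g ^ (2 * j + 1))) (IsPGroup.of_card_dvd_pow
    (n := n) (by rw [Nat.card_zpowers, orderOf_dvd_iff_pow_eq_one, ← pow_mul, mul_comm, ← e,
      pow_orderOf_eq_one])) (zpowers_le.2 (pow_mem h.1 _))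
  have k2 := conj_mem_of_mem_normalizer' (normalizer_le_normalizer_centralizer _ hc)
    (X.Ut_Vt (hT _ (k1 (cj_mem c (mem_zpowers _)))))
  refine k.2 ((h.mul h).cen.1 ((mul_mem_cancel_left (pow_mem k4 j)).1 ?_))
  convert k2 using 1
  rw [show g * (g * (g * g)) = g ^ 4 by simp only [pow_succ, pow_zero, one_mul, mul_assoc],
    ← pow_mul, ← sq, ← pow_add, ← sq, conj_pow, ← pow_mul]
  simp only [mul_assoc, inv_mul_cancel, inv_mul_cancel_left, mul_one]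
  congr 1
  ring

theorem exists_ok {f : G} (ht : f * X.t = X.t * f) (hf : X.Phi f) (h2 : f * f = 1) (hD : X.Dt f)
    {s : F4 × F4 → F4 × F4} (hs : Ac X f s) : ∃ g a, Ac X g a ∧ Ok s a := by
  obtain ⟨h, h1, e⟩ := X.norm_h ht hf h2 hD
  obtain ⟨a, ha⟩ := exists_ac (mul_mem (mul_mem h1 X.th_Vt) (inv_mem h1))
  refine ⟨_, a, ha, fun u => ⟨X.pv_inj ?_, (ha.mul hs).uq (φ' := s ∘ a) ?_ u⟩⟩
  · obtain ⟨y, hy⟩ := X.mem_Vt.1 (conj_mem_of_mem_normalizer' h1 (X.pv_mem u))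
    have e1 : X.pv u = h * X.pv y * h⁻¹ := by rw [← hy]; group
    have e2 : ∀ x, h * X.th * h⁻¹ * (h * x * h⁻¹) * (h * X.th * h⁻¹)⁻¹ =
      h * (X.th * x * X.th⁻¹) * h⁻¹ := fun x => by group
    have e3 : X.pv 0 = 1 := by simpa using X.pv_add 0 0
    rw [X.pv_add, X.pv_add, ← ha.2 (a u), ← ha.2 u, e1, e2, e2, ← cj_mul, ← cj_mul, X.th_pv, X.th_pv,
      ← X.pv_add, ← X.pv_add, e3, show _ + y = 0 by clear hy e1; revert y; decide, e3]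
    simp
  · convert hs.mul ha using 1
    rw [← e, ← cj_mul, ← cj_mul, X.t_A X.th_mem]

theorem two {T : Subgroup G} (hS : IsSylowIn 2 T 𝐍(X.Vt)) (hT : ∀ g ∈ T, g * g ∈ X.Ut) {f g g' : G}
    {a b : F4 × F4 → F4 × F4} (hf : Ac X f s0) (ha : Ac X g a) (hb : Ac X g' b) (ka : Ok s0 a)
    (kb : Ok s1 b) : False := by
  obtain ⟨p, q, rfl⟩ := eq_la ha.add ka
  obtain ⟨p', q', rfl⟩ := eq_lb hb.add kb
  have h1 : Ac X X.t tt := ⟨X.t_Vt, X.t_pv⟩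
  have h2 : Ac X X.th sc := ⟨X.th_Vt, X.th_pv⟩
  rcases fin p q ka p' q' kb with k | k | k
  exacts [not_O4 hS hT (h2.mul (ha.mul hf)) k, not_O4 hS hT (h1.mul (h2.mul (hb.mul hf))) k,
    not_O4 hS hT (ha.mul (hb.mul hf)) k]

end EB

open EB in
theorem e4 {T : Subgroup G} {f : G} (h : X.Top T f) (hf : X.Phi f) (h2 : f * f = 1)
    (hT : ∀ g ∈ T, g * g ∈ X.Ut) (h1 : X.Dt f) (h3 : X.Dt (X.t * f)) : False := by
  have ht := h.ff.1
  have hS := h.syl.mono h.nV le_top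
  obtain ⟨β, hβ⟩ := X.phi_pv ht hf
  have a1 : Ac X f _ := ⟨X.phi_Vt ht hf, hβ⟩
  have a2 := Ac.mul (φ := tt) ⟨X.t_Vt, X.t_pv⟩ a1
  obtain ⟨g, a, b1, b2⟩ := exists_ok ht hf h2 h1 a1
  obtain ⟨g', b, b3, b4⟩ := exists_ok (by rw [mul_assoc, ht]) (X.Phi_t hf) h3.sq h3 a2
  obtain rfl | rfl := (by decide : ∀ β : F4, 1 * 1 * (1 * 1) * (β * β) + β * (1 * 1 * (1 * 1)) = 0 →
    β = 0 ∨ β = 1) β (by
      simpa using congrArg Prod.snd ((a1.mul a1).cen.1 (h2 ▸ one_mem _) (1, 0)))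
  · exact two hS hT (by convert a1 using 1; decide) b1 b3 (by convert b2 using 1; decide)
      (by convert b4 using 1; decide)
  · exact two hS hT (by convert a2 using 1; decide) b3 b1 (by convert b4 using 1; decide)
      (by convert b2 using 1; decide)

end Cc

end H16.GC
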