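import Cfsg.Agent.Lib.G24C.Defs
import Cfsg.Agent.Lib.Thompson.Basic

/-! Involutions acting freely on a section. -/

set_option autoImplicit false

namespace H16.GC

open H30 H30.F4 H69 Subgroup Cfsg H79.AS

variable {G : Type*} [Group G] [Finite G]

variable {c t : G} {Y Z B : Subgroup G}

namespace FR

omit [Finite G]

theorem cj (h : Sec c Y Z) {y x : G} (hy : y ∈ Y) (hx : x ∈ Z) : y * x * y⁻¹ ∈ Z := by
  simpa using mul_mem (h.comm y hy x (h.le hx)) hx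
theorem cj' (h : Sec c Y Z) {y x : G} (hy : y ∈ Y) (hx : x ∈ Z) : y⁻¹ * x * y ∈ Z := by
  simpa using cj h (inv_mem hy) hx
theorem dl (h : Sec c Y Z) {y : G} (hy : y ∈ Y) : c⁻¹ * (y * c * y⁻¹) ∈ Y := by
  have := mul_mem ((mem_normalizer_iff.1 (inv_mem h.cY) y).1 hy) (inv_mem hy)
  simpa [mul_assoc] using this
theorem inv (h : Sec c Y Z) : c⁻¹ = c := inv_eq_of_mul_eq_one_right h.c_sq

end FR

open FR

theorem fr_bot (c : G) : Fr c (⊥ : Subgroup G) := fun y hy _ =>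
  ⟨1, one_mem _, by rw [mem_bot.1 hy]; simp⟩
theorem Sec.norm (h : Sec c Y Z) : Y ≤ 𝐍(Z) := fun y hy => mem_normalizer_iff.2 fun x =>
  ⟨cj h hy, fun e => by simpa [mul_assoc] using cj' h hy e⟩
theorem Sec.mono (h : Sec c Y Z) {Y' : Subgroup G} (h1 : Z ≤ Y') (h2 : Y' ≤ Y) (h3 : c ∈ 𝐍(Y')) :
    Sec c Y' Z :=
  ⟨h.c_sq, h1, h3, h.cZ, fun x hx y hy => h.comm x (h2 hx) y (h2 hy), fun y hy => h.sq y (h2 hy)⟩
theorem Sec.isP (h : Sec c Y Z) (hZ : IsPGroup 2 Z) : IsPGroup 2 Y := fun y => by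
  obtain ⟨k, e⟩ := hZ ⟨_, h.sq y y.2⟩
  exact ⟨k + 1, Subtype.ext (by
    have := congrArg Subtype.val e
    rw [pow_succ', pow_mul, pow_two]; exact this)⟩
/-- the elementwise form of `On.mul` -/
theorem Sec.mv_mul (h : Sec c Y Z) {y y' b b' x x' : G} (hy : y ∈ Y) (hy' : y' ∈ Y) (hb' : b' ∈ Y)
    (hx : x ∈ Z) (hx' : x' ∈ Z) (e : y * c * y⁻¹ = c * (b * x)) (e' : y' * c * y'⁻¹ = c * (b' * x')) :
    ∃ u ∈ Z, y * y' * c * (y * y')⁻¹ = c * (b * b' * u) :=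
  ⟨_, mul_mem (mul_mem (cj' h hb' hx) (h.comm _ (inv_mem hb') _ hy)) (cj h hy hx'), calc
    _ = y * (y' * c * y'⁻¹) * y⁻¹ := by group
    _ = y * c * y⁻¹ * (y * (b' * x') * y⁻¹) := by rw [e']; group
    _ = _ := by rw [e]; group⟩
/-- two elements which move `c` into the same coset of `Z` -/
theorem Sec.mv_div (h : Sec c Y Z) {y y' b x x' : G} (hy : y ∈ Y) (hy' : y' ∈ Y)
    (hx : x ∈ Z) (hx' : x' ∈ Z) (e : y * c * y⁻¹ = c * (b * x)) (e' : y' * c * y'⁻¹ = c * (b * x')) :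
    ∃ u ∈ Z, y⁻¹ * y' * c * (y⁻¹ * y')⁻¹ = c * u :=
  ⟨_, cj' h hy (mul_mem (inv_mem hx) hx'), calc
    _ = y⁻¹ * (y' * c * y'⁻¹) * y := by group
    _ = y⁻¹ * (c * (b * x) * (x⁻¹ * x')) * y := by rw [e']; group
    _ = _ := by rw [← e]; group⟩
theorem Sec.on_Z (h : Sec c Y Z) {b : G} (hb : b ∈ Z) : On c Y Z b :=
  ⟨1, one_mem _, _, inv_mem hb, by simp⟩
theorem Sec.on_mul (h : Sec c Y Z) {b b' : G} (hb' : b' ∈ Y) (e : On c Y Z b) (e' : On c Y Z b') :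
    On c Y Z (b * b') := by
  obtain ⟨y, hy, x, hx, e⟩ := e
  obtain ⟨y', hy', x', hx', e'⟩ := e'
  exact ⟨_, mul_mem hy hy', h.mv_mul hy hy' hb' hx hx' e e'⟩
theorem On.conj {b g : G} (h : On c Y Z b) (hc : g * c = c * g) (hY : g ∈ 𝐍(Y)) (hZ : g ∈ 𝐍(Z)) :
    On c Y Z (g * b * g⁻¹) := by
  obtain ⟨y, hy, x, hx, e⟩ := h
  refine ⟨_, (mem_normalizer_iff.1 hY y).1 hy, _, (mem_normalizer_iff.1 hZ x).1 hx, ?_⟩
  have k : c = g * c * g⁻¹ := by rw [hc, mul_inv_cancel_right]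
  calc _ = g * y * g⁻¹ * (g * c * g⁻¹) * (g * y * g⁻¹)⁻¹ := by rw [← k]
    _ = g * (y * c * y⁻¹) * g⁻¹ := by group
    _ = g * c * g⁻¹ * (g * b * g⁻¹ * (g * x * g⁻¹)) := by rw [e]; group
    _ = _ := by rw [← k]
theorem On.mono {b : G} {Y' Z' : Subgroup G} (h : On c Y Z b) (hY : Y ≤ Y') (hZ : Z ≤ Z') :
    On c Y' Z' b := by
  obtain ⟨y, hy, x, hx, e⟩ := h
  exact ⟨y, hY hy, x, hZ hx, e⟩
/-- the elements of `B` which are reached form a subgroup -/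
theorem Sec.exists_on (h : Sec c Y Z) (hB : B ≤ Y) :
    ∃ H : Subgroup G, ∀ b, b ∈ H ↔ b ∈ B ∧ On c Y Z b :=
  ⟨{ carrier := {b | b ∈ B ∧ On c Y Z b}
     one_mem' := ⟨one_mem _, h.on_Z (one_mem _)⟩
     mul_mem' := fun ha hb => ⟨mul_mem ha.1 hb.1, h.on_mul (hB hb.1) ha.2 hb.2⟩
     inv_mem' := fun {b} hb => ⟨inv_mem hb.1, by
      have k := inv_mem (h.sq b (hB hb.1))
      simpa using h.on_mul (h.le k) hb.2 (h.on_Z k)⟩ }, fun _ => Iff.rfl⟩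
theorem Dbl.im (h : Dbl t Y Z B) {y : G} (hy : y ∈ Y) :
    ∃ b ∈ B, ∃ x ∈ Z, y * t * y⁻¹ = t * (b * x) := by
  have k := dl h.toSec hy
  have e : t⁻¹ * (y * t * y⁻¹) * t = t * (t⁻¹ * (y * t * y⁻¹))⁻¹ := by
    simp only [mul_inv_rev, inv_inv, inv h.toSec, mul_assoc]
  obtain ⟨b, hb, x, hx, d⟩ := h.ker _ k _ (inv_mem (h.sq _ k)) (by rw [e, mul_assoc t, ← mul_inv_rev])
  exact ⟨b, hb, x, hx, by rw [← d, mul_inv_cancel_left]⟩
theorem Dbl.fr (h : Dbl t Y Z B) (hZ : Fr t Z) : Fr t Y := fun y hy e => by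
  have e1 : y * t = t * y⁻¹ := by
    rw [eq_mul_inv_iff_mul_eq, eq_inv_of_mul_eq_one_right (show t * (y * t * y) = 1 by rw [← e]; group),
      inv h.toSec]
  obtain ⟨b, hb, x', hx', rfl⟩ := h.ker y hy _ (inv_mem (h.sq y hy)) (by rw [e1]; group)
  obtain ⟨y1, hy1, x1, hx1, d⟩ := h.onto b hb
  have e2 : t * (y1⁻¹ * (x1⁻¹ * x') * y1) = y1⁻¹ * (t * (b * x')) * y1 := calc
    _ = y1⁻¹ * (y1 * t * y1⁻¹ * (x1⁻¹ * x')) * y1 := by group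
    _ = _ := by rw [d]; group
  obtain ⟨x, hx, d'⟩ := hZ _ (cj' h.toSec hy1 (mul_mem (inv_mem hx1) hx')) (by
    rw [e2]; generalize t * (b * x') = s at e
    calc _ = y1⁻¹ * (s * s) * y1 := by group
      _ = 1 := by rw [e]; group)
  exact ⟨_, mul_mem hy1 (h.le hx), calc
    _ = y1 * (x * t * x⁻¹) * y1⁻¹ := by group
    _ = _ := by rw [d', e2]; group⟩
theorem Dbl.cent (h : Dbl t Y Z B) {y : G} (hy : y ∈ Y) (e : y * t = t * y) :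
    ∃ b ∈ B, ∃ x ∈ Z, x * t = t * x ∧ y = b * x := by
  obtain ⟨b, hb, x, hx, rfl⟩ := h.ker y hy 1 (one_mem _) (by rw [e]; group)
  exact ⟨b, hb, x, hx, mul_left_cancel (a := b) (by
    rw [← mul_assoc, e, ← mul_assoc, ← h.B_t b hb, mul_assoc]), rfl⟩
theorem Dbl.card (h : Dbl t Y Z B) :
    Nat.card Y * Nat.card (B ⊓ Z : Subgroup G) ^ 2 = Nat.card B ^ 2 * Nat.card Z := by
  have s := h.toSec
  have : (Z.subgroupOf Y).Normal := (normal_subgroupOf_iff_le_normalizer h.le).2 s.norm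
  let π := QuotientGroup.mk' (Z.subgroupOf Y)
  have E : ∀ a b : Y, π a = π b ↔ (a : G)⁻¹ * b ∈ Z := fun a b => QuotientGroup.eq
  let δ : Y →* Y ⧸ Z.subgroupOf Y := MonoidHom.mk' (fun y => π ⟨_, dl s y.2⟩) fun y y' => by
    obtain ⟨u, hu, e⟩ := s.mv_mul y.2 y'.2 (dl s y'.2) (one_mem _) (one_mem _)
      (b := t⁻¹ * (y * t * (y : G)⁻¹)) (by group) (by group)
    rw [← map_mul, eq_comm, E]
    change (_ * _)⁻¹ * (t⁻¹ * ((y : G) * y' * t * ((y : G) * y')⁻¹)) ∈ Z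
    rwa [e, inv_mul_cancel_left, inv_mul_cancel_left]
  have hK : ∀ {x}, x ∈ B ⊔ Z ↔ ∃ a ∈ B, ∃ b ∈ Z, x = a * b :=
    mem_sup_of_le_normalizer_right (h.B_le.trans s.norm)
  have le : B ⊔ Z ≤ Y := sup_le h.B_le h.le
  have e1 : δ.ker = (B ⊔ Z).subgroupOf Y := by
    ext y
    rw [mem_subgroupOf, hK, MonoidHom.mem_ker]
    refine Iff.trans (QuotientGroup.eq_one_iff _) ⟨fun e => h.ker y y.2 _ e (mul_inv_cancel_left ..).symm, ?_⟩
    rintro ⟨b, hb, x, hx, e⟩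
    change t⁻¹ * ((y : G) * t * (y : G)⁻¹) ∈ Z
    have k := cj s (h.B_le hb) (mul_mem ((mem_normalizer_iff.1 (inv_mem h.cZ) x).1 hx) (inv_mem hx))
    refine (congrArg (· ∈ Z) ?_).mp k
    rw [e, show t⁻¹ * (b * x * t * (b * x)⁻¹) = t⁻¹ * (b * t) * (t⁻¹ * x * t * x⁻¹ * b⁻¹) by group, h.B_t b hb]
    group
  have e2 : δ.range = ((B ⊔ Z).subgroupOf Y).map π := by
    refine le_antisymm ?_ ?_
    · rintro _ ⟨y, rfl⟩
      obtain ⟨b, hb, x, hx, e⟩ := h.im y.2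
      exact ⟨⟨_, dl s y.2⟩, hK.2 ⟨b, hb, x, hx, by rw [← inv_mul_cancel_left t (b * x), ← e]; rfl⟩, rfl⟩
    · rintro _ ⟨g, hg, rfl⟩
      obtain ⟨b, hb, x, hx, e⟩ := hK.1 hg
      obtain ⟨y, hy, x', hx', d⟩ := h.onto b hb
      refine ⟨⟨y, hy⟩, (E _ _).2 ?_⟩
      change (t⁻¹ * (y * t * y⁻¹))⁻¹ * g ∈ Z
      rw [d, show (g : G) = _ from e]
      simpa [mul_assoc] using mul_mem (inv_mem hx') hx
  have e3 := δ.ker.card_mul_index
  rw [index_ker, e1, e2, ← relIndex_ker, QuotientGroup.ker_mk', relIndex_subgroupOf le,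
    Nat.card_congr (subgroupOfEquivOfLe le).toEquiv] at e3
  have e4 : Nat.card Z * Z.relIndex (B ⊔ Z) = Nat.card (B ⊔ Z : Subgroup G) := by
    rw [← Nat.card_congr (subgroupOfEquivOfLe (le_sup_right : Z ≤ B ⊔ Z)).toEquiv]
    exact card_mul_index _
  have e5 := H24.card_sup_mul_card_inf (h.B_le.trans s.norm)
  refine Nat.eq_of_mul_eq_mul_left (Nat.card_pos (α := Z)) ?_
  calc _ = Nat.card (B ⊔ Z : Subgroup G) * (Nat.card Z * Z.relIndex (B ⊔ Z)) *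
      Nat.card (B ⊓ Z : Subgroup G) ^ 2 := by rw [← e3]; ring
    _ = (Nat.card (B ⊔ Z : Subgroup G) * Nat.card (B ⊓ Z : Subgroup G)) ^ 2 := by rw [e4]; ring
    _ = _ := by rw [e5]; ring

end H16.GC
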