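import Cfsg.Agent.Lib.G24C.FR
import Cfsg.Agent.Lib.PGroup.MaxClass2

/-! A second involution; two lemmas on 2-groups. -/

set_option autoImplicit false

namespace H16.GC

open H30 H30.F4 H69 Subgroup Cfsg H79.AS

variable {G : Type*} [Group G] [Finite G]

variable {c t : G} {Y Z B : Subgroup G}

namespace FS

omit [Finite G] in
/-- the map from `N(Z)` to `N(Z) / Z` -/
theorem exists_bar.{u} {G : Type u} [Group G] (Z : Subgroup G) :
    ∃ (Q : Type u) (_ : Group Q) (π : G → Q), (∀ a ∈ 𝐍(Z), ∀ b ∈ 𝐍(Z), π (a * b) = π a * π b) ∧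
      (∀ a ∈ 𝐍(Z), π a⁻¹ = (π a)⁻¹) ∧ ∀ a ∈ 𝐍(Z), π a = 1 ↔ a ∈ Z := by
  classical
  let ρ := QuotientGroup.mk' (Z.subgroupOf 𝐍(Z))
  refine ⟨_, inferInstance, fun g => if h : g ∈ 𝐍(Z) then ρ ⟨g, h⟩ else 1, fun a ha b hb => ?_,
    fun a ha => ?_, fun a ha => ?_⟩
  · simp only [dif_pos ha, dif_pos hb, dif_pos (mul_mem ha hb), ← map_mul]; rfl
  · simp only [dif_pos ha, dif_pos (inv_mem ha), ← map_inv]; rfl
  · simp only [dif_pos ha]
    exact QuotientGroup.eq_one_iff _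

/-- the computation in the quotient -/
theorem core {Q : Type*} [Group Q] {T F y y' b b' : Q} (FT : F * T = T * F)
    (e1 : y * T * y⁻¹ = T * b) (e2 : b' * F * b'⁻¹ = F * b) (e3 : y' * T * y'⁻¹ = T * b')
    (e4 : y'⁻¹ = y') (c : y' * (F * b' * F⁻¹) = F * b' * F⁻¹ * y')
    (c' : b' * (F⁻¹ * b' * F) = F⁻¹ * b' * F * b') (e5 : b'⁻¹ = b') :
    (F⁻¹ * y' * F * y'⁻¹)⁻¹ * y * T * ((F⁻¹ * y' * F * y'⁻¹)⁻¹ * y)⁻¹ = T := by
  have a1 : y'⁻¹ * T * y' = T * b' := by rw [← e3, e4]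
  have a2 : F⁻¹ * y' * F * y'⁻¹ * T * (F⁻¹ * y' * F * y'⁻¹)⁻¹ = T * b := by
    calc _ = F⁻¹ * y' * F * (y'⁻¹ * T * y') * F⁻¹ * y'⁻¹ * F := by group
      _ = F⁻¹ * y' * (F * T) * b' * F⁻¹ * y'⁻¹ * F := by rw [a1]; group
      _ = F⁻¹ * (y' * T * y'⁻¹) * (y' * (F * b' * F⁻¹)) * y'⁻¹ * F := by rw [FT]; group
      _ = F⁻¹ * (T * F) * (F⁻¹ * b' * F * b') := by rw [c, e3]; group
      _ = T * F⁻¹ * (b' * F * b'⁻¹) := by
        rw [← FT, e5, mul_assoc T, show F⁻¹ * (b' * F * b') = F⁻¹ * b' * F * b' by group]; group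
      _ = _ := by rw [e2]; group
  calc _ = (F⁻¹ * y' * F * y'⁻¹)⁻¹ * (y * T * y⁻¹) * (F⁻¹ * y' * F * y'⁻¹) := by group
    _ = T := by rw [e1, ← a2]; group

theorem card_map {Y Q : Type*} [Group Y] [Group Q] (ρ : Y →* Q) (K : Subgroup Y) :
    Nat.card K = Nat.card (ρ.ker ⊓ K : Subgroup Y) * Nat.card (K.map ρ) := by
  rw [← relIndex_ker, relIndex, ← (ρ.ker.subgroupOf K).card_mul_index, ← inf_subgroupOf_right,
    Nat.card_congr (subgroupOfEquivOfLe (inf_le_right : ρ.ker ⊓ K ≤ K)).toEquiv,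
    inf_subgroupOf_right]

end FS

open FS

local macro "mem_n" : tactic =>
  `(tactic| repeat' first | assumption | apply mul_mem | apply inv_mem)

theorem Dbl.free2 (h : Dbl t Y Z B) {f : G} (f2 : f * f = 1) (ft : f * t = t * f) (fY : f ∈ 𝐍(Y))
    (fZ : f ∈ 𝐍(Z)) (fB : f ∈ 𝐍(B))
    (hB : ∀ b ∈ B, ∀ x ∈ Z, b * f * b⁻¹ = f * x → On f B Z b) (hZ : Fr f Z) : Fr f Y := by
  intro y hy e
  obtain ⟨Q, _, π, hm, hi, h1⟩ := exists_bar Z
  have hN : Y ≤ 𝐍(Z) := h.toSec.norm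
  have tN := h.cZ
  have cm : ∀ a ∈ Y, ∀ b ∈ Y, π a * π b = π b * π a := fun a ha b hb => by
    have := (h1 _ (le_normalizer (h.comm a ha b hb))).2 (h.comm a ha b hb)
    have ha' := hN ha
    have hb' := hN hb
    simp (disch := mem_n) only [hm, hi] at this
    rwa [mul_inv_eq_one, mul_inv_eq_iff_eq_mul] at this
  have iv : ∀ a ∈ Y, (π a)⁻¹ = π a := fun a ha => inv_eq_of_mul_eq_one_right (by
    rw [← hm a (hN ha) a (hN ha), h1 _ (le_normalizer (h.sq a ha))]; exact h.sq a ha)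
  have mv : ∀ c ∈ 𝐍(Z), ∀ a ∈ Y, ∀ b ∈ Y, ∀ x ∈ Z, a * c * a⁻¹ = c * (b * x) →
      π a * π c * (π a)⁻¹ = π c * π b := fun c hc a ha b hb x hx e => by
    have := congrArg π e
    have ha' := hN ha
    have hb' := hN hb
    have hx' := le_normalizer hx
    simp (disch := mem_n) only [hm, hi] at this
    rwa [(h1 x hx').2 hx, mul_one] at this
  have vm : ∀ c ∈ 𝐍(Z), ∀ a ∈ Y, ∀ b ∈ Y, π a * π c * (π a)⁻¹ = π c * π b →
      ∃ x ∈ Z, a * c * a⁻¹ = c * (b * x) := fun c hc a ha b hb e => by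
    have ha' := hN ha
    have hb' := hN hb
    refine ⟨b⁻¹ * (c⁻¹ * (a * c * a⁻¹)), (h1 _ (by mem_n)).1 ?_, by group⟩
    simp (disch := mem_n) only [hm, hi]
    rw [e]; group
  have p1 : π 1 = 1 := (h1 1 (one_mem _)).2 (one_mem _)
  have vB : ∀ b ∈ B, π b * π f = π f * π b → ∃ b' ∈ B, π b' * π f * (π b')⁻¹ = π f * π b :=
    fun b hb e => by
      obtain ⟨x, hx, e'⟩ := vm f fZ b (h.B_le hb) 1 (one_mem _) (by
        rw [e, p1, mul_one, mul_inv_cancel_right])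
      obtain ⟨b', hb', x', hx', e''⟩ := hB b hb x hx (by rw [e', one_mul])
      exact ⟨b', hb', mv f fZ b' (h.B_le hb') b (h.B_le hb) x' hx' e''⟩
  have FF : π f * π f = 1 := by rw [← hm f fZ f fZ, f2, p1]
  have Fi : (π f)⁻¹ = π f := inv_eq_of_mul_eq_one_right FF
  have FT : π f * π t = π t * π f := by rw [← hm f fZ t tN, ft, hm t tN f fZ]
  have yN := hN hy
  have Fy : π f * π y = π y * π f := by
    have := congrArg π e
    simp (disch := mem_n) only [hm, hi] at this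
    rw [p1] at this
    rw [eq_inv_of_mul_eq_one_left this, mul_inv_rev, Fi, iv y hy]
  have cf : ∀ a ∈ Y, π (f * a * f⁻¹) = π f * π a * (π f)⁻¹ := fun a ha => by
    have ha' := hN ha
    simp (disch := mem_n) only [hm, hi]
  have cf' : ∀ a ∈ Y, π (f⁻¹ * a * f) = (π f)⁻¹ * π a * π f := fun a ha => by
    have ha' := hN ha
    simp (disch := mem_n) only [hm, hi]
  obtain ⟨b, hb, x, hx, e1⟩ := h.im hy
  replace e1 := mv t tN y hy b (h.B_le hb) x hx e1
  obtain ⟨b', hb', e2⟩ := vB b hb (by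
    have a : π b = (π t)⁻¹ * (π y * π t * (π y)⁻¹) := by rw [e1, inv_mul_cancel_left]
    have c1 : Commute (π f) (π t) := FT
    have c2 : Commute (π f) (π y) := Fy
    exact a ▸ (c1.inv_right.mul_right ((c2.mul_right c1).mul_right c2.inv_right)).symm.eq)
  have b'Y := h.B_le hb'
  obtain ⟨y', hy', x', hx', e3⟩ := h.onto b' hb'
  replace e3 := mv t tN y' hy' b' b'Y x' hx' e3
  have y'N := hN hy'
  have mY : f⁻¹ * y' * f * y'⁻¹ ∈ Y := mul_mem (conj_mem_of_mem_normalizer' fY hy') (inv_mem hy')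
  have e4 := core FT e1 e2 e3 (iv y' hy')
    (cf b' b'Y ▸ cm y' hy' _ (conj_mem_of_mem_normalizer fY b'Y))
    (cf' b' b'Y ▸ cm b' b'Y _ (conj_mem_of_mem_normalizer' fY b'Y)) (iv b' b'Y)
  have pm : π (f⁻¹ * y' * f * y'⁻¹) = (π f)⁻¹ * π y' * π f * (π y')⁻¹ := by
    simp (disch := mem_n) only [hm, hi]
  have mi := iv _ mY
  rw [← pm] at e4
  generalize f⁻¹ * y' * f * y'⁻¹ = m at mY pm mi e4
  have mN := hN mY
  obtain ⟨x1, hx1, e5⟩ := vm t tN (m⁻¹ * y) (mul_mem (inv_mem mY) hy) 1 (one_mem _) (by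
    simp (disch := mem_n) only [hm, hi]
    rw [e4, p1, mul_one])
  obtain ⟨b1, hb1, x2, hx2, e6⟩ := h.ker _ (mul_mem (inv_mem mY) hy) x1 hx1 (by rw [e5, one_mul])
  have b1N := hN (h.B_le hb1)
  have x2N := le_normalizer hx2
  replace e6 := congrArg π e6
  simp (disch := mem_n) only [hm, hi] at e6
  rw [(h1 x2 x2N).2 hx2, mul_one] at e6
  have Fm : π f * π m = π m * π f := by
    calc _ = π y' * π f * (π y')⁻¹ := by rw [pm]; group
      _ = (π m)⁻¹ * π f := by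
        rw [pm, mul_inv_rev, mul_inv_rev, mul_inv_rev, inv_inv, inv_inv, Fi, mul_assoc _ _ (π f),
          mul_assoc _ _ (π f), mul_assoc _ _ (π f), FF, mul_one, mul_assoc]
      _ = _ := by rw [mi]
  obtain ⟨b2, hb2, e7⟩ := vB b1 hb1 (by
    have c1 : Commute (π f) (π m) := Fm
    have c2 : Commute (π f) (π y) := Fy
    exact e6 ▸ (c1.inv_right.mul_right c2).symm.eq)
  have b2N := hN (h.B_le hb2)
  have wY := mul_mem hy' (h.B_le hb2)
  obtain ⟨x3, hx3, e8⟩ := vm f fZ _ wY y hy (by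
    simp (disch := mem_n) only [hm, hi]
    calc _ = π y' * (π b2 * π f * (π b2)⁻¹) * (π y')⁻¹ := by group
      _ = π y' * π f * (π y')⁻¹ * (π y' * π b1) * (π y')⁻¹ := by rw [e7]; group
      _ = π f * ((π f)⁻¹ * π y' * π f * (π y')⁻¹) * π b1 := by
        rw [← cm b1 (h.B_le hb1) y' hy']; group
      _ = _ := by rw [← pm, ← e6]; group)
  generalize y' * b2 = w at wY e8
  have e9 : f * (w⁻¹ * x3⁻¹ * w) = w⁻¹ * (f * y) * w := by
    calc _ = w⁻¹ * (w * f * w⁻¹) * x3⁻¹ * w := by group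
      _ = _ := by rw [e8]; group
  obtain ⟨x4, hx4, e10⟩ := hZ _ (conj_mem_of_mem_normalizer' (hN wY) (inv_mem hx3)) (by
    rw [e9]
    calc _ = w⁻¹ * (f * y * (f * y)) * w := by group
      _ = 1 := by rw [e]; group)
  refine ⟨w * x4, mul_mem wY (h.le hx4), ?_⟩
  calc _ = w * (x4 * f * x4⁻¹) * w⁻¹ := by group
    _ = _ := by rw [e10, e9]; group

theorem Sec.card_cent (h : Sec c Y Z) (hZ : Fr c Z)
    (hc : Nat.card Z ≤ Nat.card (Z ⊓ centralizer {c} : Subgroup G) ^ 2) :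
    Nat.card Y ≤ Nat.card (Y ⊓ centralizer {c} : Subgroup G) ^ 2 := by
  obtain ⟨Q, _, π, hm, hi, h1⟩ := exists_bar Z
  have hN : Y ≤ 𝐍(Z) := h.norm
  have cN := h.cZ
  have cm : ∀ a ∈ Y, ∀ b ∈ Y, π a * π b = π b * π a := fun a ha b hb => by
    have := (h1 _ (le_normalizer (h.comm a ha b hb))).2 (h.comm a ha b hb)
    have ha' := hN ha
    have hb' := hN hb
    simp (disch := mem_n) only [hm, hi] at this
    rwa [mul_inv_eq_one, mul_inv_eq_iff_eq_mul] at this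
  have iv : ∀ a ∈ Y, (π a)⁻¹ = π a := fun a ha => inv_eq_of_mul_eq_one_right (by
    rw [← hm a (hN ha) a (hN ha), h1 _ (le_normalizer (h.sq a ha))]; exact h.sq a ha)
  have dY : ∀ a ∈ Y, c⁻¹ * a * c * a⁻¹ ∈ Y := fun a ha =>
    mul_mem (conj_mem_of_mem_normalizer' h.cY ha) (inv_mem ha)
  let ρ : Y →* Q := MonoidHom.mk' (fun a => π a) fun a b => hm a (hN a.2) b (hN b.2)
  let d : Y →* Q := MonoidHom.mk' (fun a => π (c⁻¹ * a * c * (a : G)⁻¹)) fun a b => by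
    have ha := hN a.2
    have hb := hN b.2
    have e := cm _ (dY b b.2) _ (inv_mem a.2)
    simp (disch := mem_n) only [hm, hi, coe_mul] at e ⊢
    rw [mul_assoc ((π c)⁻¹ * π a * π c), ← e]
    group
  have kr : ∀ a : Y, a ∈ ρ.ker ↔ (a : G) ∈ Z := fun a => h1 a (hN a.2)
  have kd : ∀ a : Y, a ∈ d.ker ↔ c⁻¹ * a * c * (a : G)⁻¹ ∈ Z := fun a => h1 _ (hN (dY a a.2))
  have ci : c⁻¹ = c := inv_eq_of_mul_eq_one_right h.c_sq
  have k1 : ρ.ker = Z.subgroupOf Y := by ext a; rw [kr, mem_subgroupOf]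
  have k2 : ρ.ker ≤ d.ker := fun a ha => (kd a).2
    (mul_mem (conj_mem_of_mem_normalizer' cN ((kr a).1 ha)) (inv_mem ((kr a).1 ha)))
  have k3 : d.range ≤ d.ker.map ρ := by
    rintro _ ⟨a, rfl⟩
    refine ⟨⟨_, dY a a.2⟩, (kd _).2 ?_, rfl⟩
    have := Z.inv_mem (h.sq _ (dY a a.2))
    convert this using 1
    calc _ = c⁻¹ * c⁻¹ * a * (c * c) * (c⁻¹ * (a : G)⁻¹ * c) * (c⁻¹ * a * c * (a : G)⁻¹)⁻¹ := by group
      _ = a * c⁻¹ * (a : G)⁻¹ * c * (c⁻¹ * a * c * (a : G)⁻¹)⁻¹ := by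
        rw [h.c_sq, ← mul_inv_rev, h.c_sq]; group
      _ = _ := by group
  have k4 : d.ker.map ρ ≤ ((Y ⊓ centralizer {c}).subgroupOf Y).map ρ := by
    rintro _ ⟨a, ha, rfl⟩
    obtain ⟨x, hx, e⟩ := hZ _ ((kd a).1 ha) (by
      calc _ = a * (c * c) * (a : G)⁻¹ := by group
        _ = 1 := by rw [h.c_sq]; group)
    have xY := h.le hx
    refine ⟨⟨x⁻¹ * a, mul_mem (inv_mem xY) a.2⟩, mem_subgroupOf.2 (mem_inf.2
      ⟨mul_mem (inv_mem xY) a.2, mem_centralizer_singleton_iff.2 ?_⟩), ?_⟩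
    · change x⁻¹ * a * c = c * (x⁻¹ * a)
      calc _ = x⁻¹ * (c * (c⁻¹ * a * c * (a : G)⁻¹)) * a := by group
        _ = _ := by rw [← e]; group
    · change π (x⁻¹ * a) = π a
      rw [hm _ (hN (inv_mem xY)) _ (hN a.2), (h1 _ (hN (inv_mem xY))).2 (inv_mem hx), one_mul]
  have n1 : Nat.card Y = Nat.card d.ker * Nat.card d.range := by
    rw [← index_ker, card_mul_index]
  have n2 := card_map ρ d.ker
  have n3 := card_map ρ ((Y ⊓ centralizer {c}).subgroupOf Y)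
  rw [inf_eq_left.2 k2, k1, Nat.card_congr (subgroupOfEquivOfLe h.le).toEquiv] at n2
  rw [k1, show Z.subgroupOf Y ⊓ (Y ⊓ centralizer {c}).subgroupOf Y =
    (Z ⊓ centralizer {c}).subgroupOf Y by
      ext a; simp [mem_subgroupOf],
    Nat.card_congr (subgroupOfEquivOfLe (inf_le_left : Y ⊓ centralizer {c} ≤ Y)).toEquiv,
    Nat.card_congr (subgroupOfEquivOfLe (inf_le_left.trans h.le : Z ⊓ centralizer {c} ≤ Y)).toEquiv]
    at n3
  have f1 : Finite (((Y ⊓ centralizer {c}).subgroupOf Y).map ρ) := by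
    refine Nat.finite_of_card_ne_zero fun e => ?_
    rw [e, mul_zero] at n3
    exact Nat.card_pos.ne' n3
  have l1 := card_le_of_le k4
  have l2 := card_le_of_le (k3.trans k4)
  rw [n1, n2, n3, mul_pow, pow_two (Nat.card (map ρ _)), mul_assoc]
  exact Nat.mul_le_mul hc (Nat.mul_le_mul l1 l2)

/-- a normal subgroup of a 2-group contains a central involution modulo `N` -/
theorem exists_cm {T N J : Subgroup G} (hT : IsPGroup 2 T) (hN : N ≤ T) (hTN : T ≤ 𝐍(N)) (hJ : J ≤ T)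
    (hTJ : T ≤ 𝐍(J)) (h : ¬ J ≤ N) :
    ∃ a ∈ J, a ∉ N ∧ a * a ∈ N ∧ ∀ g ∈ T, g * a * g⁻¹ * a⁻¹ ∈ N := by
  have _ := And.intro hN hTN
  obtain ⟨a, ha, n, h2, hc⟩ := H5.exists_step_of_le hT N hJ hTJ h
  refine ⟨a, ha, n, by rwa [← pow_two], fun g hg => ?_⟩
  simpa [commutatorElement_def, mul_assoc] using N.inv_mem (hc g hg)

/-- a 2-group with a non-central involution whose centraliser has order at most four -/
theorem cyc2 (hG : IsPGroup 2 G) {x : G} (h2 : x * x = 1) (hx : x ∉ center G)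
    (hc : Nat.card (centralizer {x} : Subgroup G) ≤ 4) : 8 ≤ Nat.card G ∧
    ∃ M : Subgroup G, M.index = 2 ∧ x ∉ M ∧ ∀ y ∈ M, y * y = 1 → y ∈ center G := by
  obtain ⟨n, hn⟩ := IsPGroup.iff_card.1 hG
  have nc : ¬ IsMulCommutative G := fun c => hx (mem_center_iff.2 fun g => c.is_comm.comm g x)
  obtain ⟨k, rfl⟩ : ∃ k, n = k + 3 := by
    refine ⟨n - 3, ?_⟩
    have h0 : n ≠ 0 := by
      rintro rfl
      have := (Nat.card_eq_one_iff_unique.1 hn).1
      exact hx (mem_center_iff.2 fun g => Subsingleton.elim _ _)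
    have h1 : n ≠ 1 := by
      rintro rfl
      have := isCyclic_of_prime_card (p := 2) (hn.trans (pow_one 2))
      exact nc inferInstance
    have h2 : n ≠ 2 := by
      rintro rfl
      exact nc (IsPGroup.isMulCommutative_of_card_eq_prime_sq hn)
    omega
  refine ⟨by rw [hn, pow_add]; exact Nat.le_mul_of_pos_left _ (by positivity), ?_⟩
  have hc' := H5.nilpotencyClass_eq_of_card_centralizer_le (k + 1) G hn x hc
  have := hG.isNilpotent
  obtain ⟨h1, h3⟩ := H5.index_commutator_of_maxClass hn hc'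
  obtain ⟨a, b, m, hm, ha, hi, hb, h⟩ := H5.exists_gens_of_index_four hG h1
    (fun x => by simpa [pow_two] using h3 x) (H5.commutator_ne_bot_of_class (by omega))
  have hz := H5.center_eq_zpowers_half ha
    (h.elim (fun h => Or.inl h.2) fun h => h.elim (fun h => Or.inl h.2) fun h => Or.inr ⟨h.1, h.2.2⟩)
    hm hi hb
  have A : ∀ y ∈ zpowers a, y * y = 1 → y ∈ center G := fun y hy e => by
    rcases H5.eq_one_or_half ha hy e with h | h <;> rw [h, hz]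
    exacts [one_mem _, mem_zpowers _]
  exact ⟨zpowers a, hi, fun e => hx (A x e h2), A⟩

end H16.GC
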