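import Cfsg.Agent.Lib.G24C.FR

/-! The doubling lemma. -/

set_option autoImplicit false
set_option linter.unusedSectionVars false

namespace H16.GC

open H30 H30.F4 H69 Subgroup Cfsg H79.AS

variable {G : Type*} [Group G] [Finite G]

variable {t : G} {O Z B : Subgroup G}

namespace GD

theorem conj {g y : G} (ht : g * t = t * g) (hO : g ∈ 𝐍(O)) (hZ : g ∈ 𝐍(Z)) (hB : g ∈ 𝐍(B))
    (h : DbS t O Z B y) : DbS t O Z B (g * y * g⁻¹) := by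
  obtain ⟨h1, h2, h3, ⟨b, hb, x, hx, h4⟩, h5⟩ := h
  refine ⟨conj_mem_of_mem_normalizer (normalizer_le_normalizer_centralizer _ hZ) h1,
    conj_mem_of_mem_normalizer (normalizer_le_normalizer_centralizer _ hO) h2, fun a ha => ?_,
    ⟨_, conj_mem_of_mem_normalizer hB hb, _, conj_mem_of_mem_normalizer hZ hx, ?_⟩, ?_⟩
  · convert conj_mem_of_mem_normalizer hZ (h3 _ (conj_mem_of_mem_normalizer' hB ha)) using 1
    group
  · calc _ = g * (y * (g⁻¹ * (t * g)) * y⁻¹) * g⁻¹ := by group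
      _ = g * t * (b * x) * g⁻¹ := by rw [← ht, inv_mul_cancel_left, h4, ← mul_assoc g]
      _ = _ := by rw [ht]; group
  · convert conj_mem_of_mem_normalizer hZ h5 using 1
    group

theorem cz {y x : G} (hy : y ∈ 𝐂(Z)) (hx : x ∈ Z) : y * x * y⁻¹ = x := by
  rw [← hy x hx, mul_inv_cancel_right]

/-- the elements which act trivially on `B Z / Z` and move `t` into `t B Z` -/
def hat (h : Pre t O Z B) : Subgroup G where
  carrier := {y | y ∈ 𝐂(Z) ∧ y ∈ 𝐂(O) ∧ (∀ b ∈ B, y * b * y⁻¹ * b⁻¹ ∈ Z) ∧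
    ∃ b ∈ B, ∃ x ∈ Z, y * t * y⁻¹ = t * (b * x)}
  one_mem' := ⟨one_mem _, one_mem _, fun b _ => by simp, 1, one_mem _, 1, one_mem _, by simp⟩
  mul_mem' := by
    rintro y y' ⟨h1, h2, h3, b, hb, x, hx, h4⟩ ⟨k1, k2, k3, b', hb', x', hx', k4⟩
    refine ⟨mul_mem h1 k1, mul_mem h2 k2, fun a ha => ?_, _, mul_mem hb hb', _,
      mul_mem (mul_mem hx (h3 _ hb')) hx', ?_⟩
    · have := mul_mem (k3 a ha) (h3 a ha)
      rw [← cz h1 (k3 a ha)] at this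
      convert this using 1
      group
    · calc _ = y * (y' * t * y'⁻¹) * y⁻¹ := by group
        _ = y * t * y⁻¹ * (y * b' * y⁻¹ * b'⁻¹) * b' * (y * x' * y⁻¹) := by rw [k4]; group
        _ = t * b * (x * (y * b' * y⁻¹ * b'⁻¹) * b') * x' := by rw [h4, cz h1 hx']; group
        _ = _ := by rw [h.B_Z hb' _ (mul_mem hx (h3 _ hb'))]; group
  inv_mem' := by
    rintro y ⟨h1, h2, h3, b, hb, x, hx, h4⟩
    have k : ∀ a ∈ B, y⁻¹ * a * y⁻¹⁻¹ * a⁻¹ ∈ Z := fun a ha => by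
      have := inv_mem (h3 a ha)
      rw [← cz (inv_mem h1) this] at this
      convert this using 1
      group
    refine ⟨inv_mem h1, inv_mem h2, k, _, inv_mem hb, _, mul_mem (inv_mem hx) (k _ (inv_mem hb)), ?_⟩
    calc _ = y⁻¹ * (y * t * y⁻¹ * (b * x)⁻¹) * y := by rw [h4]; group
      _ = t * (y⁻¹ * x⁻¹ * y⁻¹⁻¹ * (y⁻¹ * b⁻¹ * y⁻¹⁻¹ * b⁻¹⁻¹) * b⁻¹) := by group
      _ = _ := by
        rw [cz (inv_mem h1) (inv_mem hx),
          h.B_Z (inv_mem hb) _ (mul_mem (inv_mem hx) (k _ (inv_mem hb)))]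

variable (h : Pre t O Z B)

theorem Z_le : Z ≤ hat h := fun x hx => ⟨h.Z_ab hx, h.Z_O hx, fun b hb => by
    rw [h.B_Z hb x hx]; simp, 1, one_mem _, _,
  mul_mem (conj_mem_of_mem_normalizer' h.t_Z hx) (inv_mem hx), by group⟩

theorem split {y x : G} (hy : y ∈ hat h) (hx : x ∈ Z) (e : y * t * y⁻¹ = t * x) :
    ∃ x1 ∈ Z, ∃ o ∈ O, ∃ b ∈ B, y = x1 * (o * b) := by
  obtain ⟨x1, h1, h2⟩ := h.fr x hx (by rw [← e, ← cj_mul, h.t_sq, mul_one, mul_inv_cancel])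
  have h3 := mul_mem (inv_mem (Z_le h h1)) hy
  obtain ⟨o, ho, b, hb, h4⟩ := h.cen _ h3.1 (by
    rw [← mul_inv_eq_iff_eq_mul]
    calc _ = x1⁻¹ * (y * t * y⁻¹) * x1 := by group
      _ = t := by rw [e, ← h2]; group) h3.2.2.1
  exact ⟨x1, h1, o, ho, b, hb, by rw [← h4, mul_inv_cancel_left]⟩

theorem comm_B {y y' b : G} (hy : y ∈ hat h) (hy' : y' ∈ hat h) (hb : b ∈ B) :
    y * y' * b * (y * y')⁻¹ = y' * y * b * (y' * y)⁻¹ := by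
  have k : ∀ {y y' : G}, y ∈ hat h → y' ∈ hat h → y * y' * b * (y * y')⁻¹ =
      y' * b * y'⁻¹ * b⁻¹ * (y * b * y⁻¹ * b⁻¹) * b := fun {y y'} hy hy' => by
    rw [← cz hy.1 (hy'.2.2.1 b hb)]
    group
  rw [k hy hy', k hy' hy, h.Z_ab (hy.2.2.1 b hb) _ (hy'.2.2.1 b hb)]

theorem move {y y' b b' x x' : G} (hy : y ∈ hat h) (hb' : b' ∈ B) (hx : x ∈ Z) (hx' : x' ∈ Z)
    (e : y * t * y⁻¹ = t * (b * x)) (e' : y' * t * y'⁻¹ = t * (b' * x')) :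
    ∃ u ∈ Z, y * y' * t * (y * y')⁻¹ = t * (b * b' * u) := by
  refine ⟨_, mul_mem (mul_mem hx (hy.2.2.1 _ hb')) hx', ?_⟩
  calc _ = y * (y' * t * y'⁻¹) * y⁻¹ := by group
    _ = y * t * y⁻¹ * (y * b' * y⁻¹ * b'⁻¹) * b' * (y * x' * y⁻¹) := by rw [e']; group
    _ = t * b * (x * (y * b' * y⁻¹ * b'⁻¹) * b') * x' := by rw [e, cz hy.1 hx']; group
    _ = _ := by rw [h.B_Z hb' _ (mul_mem hx (hy.2.2.1 _ hb'))]; group

theorem comm_OZ {y y' : G} (hy : y ∈ hat h) (hy' : y' ∈ hat h) :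
    ∃ o ∈ O, ∃ z ∈ Z, (y' * y)⁻¹ * (y * y') = o * z := by
  obtain ⟨b, hb, x, hx, e⟩ := hy.2.2.2
  obtain ⟨b', hb', x', hx', e'⟩ := hy'.2.2.2
  obtain ⟨u, hu, k1⟩ := move h hy hb' hx hx' e e'
  obtain ⟨u', hu', k2⟩ := move h hy' hb hx' hx e' e
  have hc := h.B_comm _ (inv_mem hb) _ (inv_mem hb')
  have hz := mul_mem (mul_mem (inv_mem hu') hc) hu
  have hm := mul_mem hy' hy
  have hk := mul_mem (inv_mem hm) (mul_mem hy hy')
  obtain ⟨x1, h1, o, ho, a, ha, k3⟩ := split h hk hz (by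
    calc _ = (y' * y)⁻¹ * (y * y' * t * (y * y')⁻¹) * (y' * y) := by group
      _ = (y' * y)⁻¹ * (y' * y * t * (y' * y)⁻¹ * (u'⁻¹ * (b⁻¹ * b'⁻¹ * b⁻¹⁻¹ * b'⁻¹⁻¹) * u)) *
          (y' * y) := by rw [k1, k2]; group
      _ = t * ((y' * y)⁻¹ * (u'⁻¹ * (b⁻¹ * b'⁻¹ * b⁻¹⁻¹ * b'⁻¹⁻¹) * u) * (y' * y)⁻¹⁻¹) := by group
      _ = _ := by rw [cz (inv_mem hm).1 hz])
  have k4 : (y' * y)⁻¹ * (y * y') ∈ 𝐂(B) := fun c hc => by
    rw [eq_comm, ← mul_inv_eq_iff_eq_mul]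
    calc _ = (y' * y)⁻¹ * (y * y' * c * (y * y')⁻¹) * (y' * y) := by group
      _ = c := by rw [comm_B h hy hy' hc]; group
  have k5 := mul_mem (inv_mem (le_centralizer_iff.1 h.B_O ho))
    (mul_mem (inv_mem (le_centralizer_iff.1 h.B_Z h1)) k4)
  rw [k3, inv_mul_cancel_left, inv_mul_cancel_left] at k5
  exact ⟨o, ho, _, mul_mem h1 (h.zb a ha k5), by rw [k3, ← mul_assoc, ← h.Z_O h1 o ho, mul_assoc]⟩

theorem comm_Z {y y' : G} (hy : y ∈ hat h) (hy' : y' ∈ hat h) (h2 : y * y ∈ Z) :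
    y * y' * y⁻¹ * y'⁻¹ ∈ Z := by
  obtain ⟨o, ho, z, hz, e⟩ := comm_OZ h (inv_mem hy) (inv_mem hy')
  have e1 : y * y' * y⁻¹ * y'⁻¹ = o * z := by rw [← e]; group
  have e2 : y * (o * z) * y⁻¹ = o * z := by rw [cj_mul, cz hy.2.1 ho, cz hy.1 hz]
  have e3 : o * z * (o * z) = 1 := by
    nth_rw 2 [← e2]
    rw [← e1]
    calc _ = y * (y' * y⁻¹ * y'⁻¹ * (y * y) * (y' * y⁻¹ * y'⁻¹)) * y⁻¹ := by group
      _ = y * (y' * y⁻¹ * (y'⁻¹ * (y * y) * y'⁻¹⁻¹) * (y⁻¹ * y'⁻¹)) * y⁻¹ := by group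
      _ = 1 := by rw [cz (inv_mem hy').1 h2]; group
  rw [mul_assoc, ← mul_assoc z, ← h.Z_O hz o ho, mul_assoc, h.Z_sq z hz, mul_one] at e3
  rw [e1, eq_one_of_odd h.O_odd ho (j := 1) (by rw [pow_one, sq, e3]), one_mul]
  exact hz

/-- the doubled group -/
def dbs : Subgroup G where
  carrier := {y | y ∈ hat h ∧ y * y ∈ Z}
  one_mem' := ⟨one_mem _, by simp⟩
  mul_mem' := by
    rintro y y' ⟨h1, h2⟩ ⟨k1, k2⟩
    refine ⟨mul_mem h1 k1, ?_⟩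
    convert mul_mem (mul_mem h2 (comm_Z h (inv_mem h1) k1 (by
      rw [← mul_inv_rev]; exact inv_mem h2))) k2 using 1
    group
  inv_mem' := by
    rintro y ⟨h1, h2⟩
    exact ⟨inv_mem h1, by rw [← mul_inv_rev]; exact inv_mem h2⟩

theorem mem_dbs {y : G} : y ∈ dbs h ↔ DbS t O Z B y :=
  ⟨fun k => ⟨k.1.1, k.1.2.1, k.1.2.2.1, k.1.2.2.2, k.2⟩,
    fun k => ⟨⟨k.1, k.2.1, k.2.2.1, k.2.2.2.1⟩, k.2.2.2.2⟩⟩

end GD

theorem Db_norm {g : G} (ht : g * t = t * g) (hO : g ∈ 𝐍(O)) (hZ : g ∈ 𝐍(Z)) (hB : g ∈ 𝐍(B)) :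
    g ∈ 𝐍(Db t O Z B) := by
  refine mem_normalizer_of_cj_le ?_
  rintro _ ⟨a, ha, rfl⟩
  exact cj_closure (fun s hs => subset_closure (GD.conj ht hO hZ hB hs)) ha
theorem DbS.mem {y : G} (h : DbS t O Z B y) : y ∈ Db t O Z B := subset_closure h
theorem Pre.mem_iff (h : Pre t O Z B) {y : G} : y ∈ Db t O Z B ↔ DbS t O Z B y :=
  ⟨fun k => (GD.mem_dbs h).1 ((closure_le (GD.dbs h)).2 (fun _ k => (GD.mem_dbs h).2 k) k), DbS.mem⟩
theorem Pre.B_le (h : Pre t O Z B) : B ≤ Db t O Z B := fun b hb =>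
  DbS.mem ⟨h.B_Z hb, h.B_O hb, h.B_comm b hb, ⟨1, one_mem _, 1, one_mem _, by
    rw [h.B_t b hb]; group⟩, h.B_sq b hb⟩
theorem Pre.sec (h : Pre t O Z B) : Sec t (Db t O Z B) Z where
  c_sq := h.t_sq
  le x hx := ((GD.mem_dbs h).1 ⟨GD.Z_le h hx, mul_mem hx hx⟩).mem
  cY := Db_norm rfl (centralizer_le_normalizer _ h.t_O) h.t_Z
    (centralizer_le_normalizer _ fun b hb => h.B_t b hb)
  cZ := h.t_Z
  comm _ hx _ hy := GD.comm_Z h ((GD.mem_dbs h).2 (h.mem_iff.1 hx)).1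
    ((GD.mem_dbs h).2 (h.mem_iff.1 hy)).1 (h.mem_iff.1 hx).2.2.2.2
  sq _ hy := (h.mem_iff.1 hy).2.2.2.2
theorem Pre.dbl (h : Pre t O Z B) (ho : ∀ b ∈ B, On t (Db t O Z B) Z b) :
    Dbl t (Db t O Z B) Z B where
  toSec := h.sec
  B_le := h.B_le
  B_t := h.B_t
  onto := ho
  ker y hy x hx e := by
    obtain ⟨h1, h2⟩ := (GD.mem_dbs h).2 (h.mem_iff.1 hy)
    obtain ⟨x1, k1, o, ho, b, hb, rfl⟩ := GD.split h h1 hx e
    have c1 : Commute x1 (o * b) := Commute.mul_right (h.Z_O k1 o ho).symm (h.B_Z hb x1 k1)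
    have c2 : Commute o b := h.B_O hb o ho
    rw [← sq, c1.mul_pow, c2.mul_pow, sq, h.Z_sq _ k1, one_mul, sq b,
      mul_mem_cancel_right (h.B_sq b hb)] at h2
    have := eq_one_of_odd h.O_odd ho (j := 2) (by
      rw [show 2 ^ 2 = 2 + 2 from rfl, pow_add, h.Z_sq _ h2])
    exact ⟨b, hb, x1, k1, by rw [this, one_mul, h.B_Z hb x1 k1]⟩

end H16.GC
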