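import Cfsg.Agent.Lib.G24C.Bas

/-! The subgroups `U ≥ P ≥ R₀ ≥ W ≥ V` of `G₂(4)`: normal forms, orders, normalisers. -/

set_option autoImplicit false

namespace H16.GC

open H30 H30.F4 H69 Subgroup Cfsg H79.AS

variable {G : Type*} [Group G] [Finite G]

theorem ma_card {H : Subgroup G} {α : Type*} (f : α → G) (hf : ∀ a, f a ∈ H)
    (inj : Function.Injective f) (surj : ∀ g ∈ H, ∃ a, g = f a) : Nat.card H = Nat.card α :=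
  (Nat.card_congr (Equiv.ofBijective (fun a => (⟨f a, hf a⟩ : H))
    ⟨fun _ _ h => inj (congrArg Subtype.val h), fun g =>
      (surj g g.2).imp fun _ e => Subtype.ext e.symm⟩)).symm

theorem ma_norm {H K : Subgroup G} {u : G} (h : K ≤ H) (c : ∀ b ∈ H, u * b * u⁻¹ * b⁻¹ ∈ K) :
    u ∈ 𝐍(H) := mem_normalizer_fintype fun b hb => by
  have := mul_mem (h (c b hb)) hb
  rwa [inv_mul_cancel_right] at this

namespace Cy

variable (X : Cy G)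

theorem x_U {r : Fin 12} (h : 6 ≤ r) (s : F4) : X.x r s ∈ X.U := subset_closure ⟨r, s, h, rfl⟩
theorem x_P {r : Fin 12} (h : 7 ≤ r) (s : F4) : X.x r s ∈ X.P := subset_closure ⟨r, s, h, rfl⟩
theorem x_R0 {r : Fin 12} (h : 8 ≤ r) (s : F4) : X.x r s ∈ X.R0 := subset_closure ⟨r, s, h, rfl⟩
theorem x_W {r : Fin 12} (h : 10 ≤ r) (s : F4) : X.x r s ∈ X.W := subset_closure ⟨r, s, h, rfl⟩

/-- the normal form of an element of `U`, modulo `V` -/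
def MaNf (g : G) (y : V6) (c : F4) : Prop := ∃ s, g = X.qa y * X.vv s * X.x 7 c

theorem ma_qv (y : V6) (s : F4) : X.qa y * X.vv s ∈ X.QA := X.mem_QA.2 ⟨y, s, rfl⟩

theorem ma_cv {g : G} (hg : g ∈ X.B) (s : F4) : g * X.vv s * g⁻¹ = X.vv s :=
  mul_inv_eq_iff_eq_mul.2 (X.mem_CV.1 (X.B_le_CV hg) s)

theorem ma_x7 (c : F4) (y : V6) (s : F4) :
    ∃ u, X.x 7 c * (X.qa y * X.vv s) * (X.x 7 c)⁻¹ = X.qa (xav c y) * X.vv u := by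
  obtain ⟨u, e⟩ := X.xa_qa c y
  exact ⟨u + s, by rw [cj_mul, e, X.ma_cv (X.x_B (by decide) c), mul_assoc, X.vv_add]⟩

theorem ma_conj (y : V6) (s : F4) (t : V6) :
    X.qa y * X.vv s * X.qa t * (X.qa y * X.vv s)⁻¹ = X.qa t * X.vv (b4 y t) := by
  rw [← X.qa_conj, mul_assoc (X.qa y), ← X.qa_v]
  group

theorem MaNf.mul {X : Cy G} {g k : G} {y y' : V6} {c c' : F4} (a : X.MaNf g y c) (b : X.MaNf k y' c') :
    X.MaNf (g * k) (y + xav c y') (c + c') := by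
  obtain ⟨s, rfl⟩ := a
  obtain ⟨s', rfl⟩ := b
  obtain ⟨u, e⟩ := X.ma_x7 c y' s'
  exact ⟨_, by rw [← X.qv_mul y _ s u, ← e, X.x_add]; group⟩

theorem ma_xm {k r : Fin 12} {t : F4} (h : r < k → t = 0) : X.x r t ∈ Ur X.toRt k := by
  by_cases e : r < k
  · rw [h e, X.x_zero]; exact one_mem _
  · exact subset_closure ⟨r, t, not_lt.1 e, rfl⟩

theorem ma_Ur {k : Fin 12} (hk : 6 ≤ k) (hk' : k ≤ 10) {g : G} : g ∈ Ur X.toRt k ↔ ∃ y c,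
    ((6 < k → y 2 = 0) ∧ (7 < k → c = 0) ∧ (8 < k → y 3 = 0) ∧ (9 < k → y 4 = 0)) ∧ X.MaNf g y c := by
  refine ⟨fun h => ?_, ?_⟩
  · have q : ∀ {g y}, X.Qe g y → X.MaNf g y 0 := fun ⟨s, e⟩ => ⟨s, by rw [X.x_zero, mul_one, e]⟩
    have gen : ∀ r t, k ≤ r → ∃ y c, ((6 < k → y 2 = 0) ∧ (7 < k → c = 0) ∧ (8 < k → y 3 = 0) ∧
        (9 < k → y 4 = 0)) ∧ X.MaNf (X.x r t) y c := fun r t h => by
      have e : ∀ r : Fin 12, 6 ≤ r → r = 6 ∨ r = 7 ∨ r = 8 ∨ r = 9 ∨ r = 10 ∨ r = 11 := by decide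
      have n := not_lt.2 h
      rcases e r (hk.trans h) with rfl | rfl | rfl | rfl | rfl | rfl
      · exact ⟨_, _, ⟨fun a => (n a).elim, fun _ => rfl, fun _ => rfl, fun _ => rfl⟩, q (X.qe6 t)⟩
      · exact ⟨0, t, ⟨fun _ => rfl, fun a => (n a).elim, fun _ => rfl, fun _ => rfl⟩, 0, by
          rw [X.qa_zero, X.vv_zero, one_mul, one_mul]⟩
      · exact ⟨_, _, ⟨fun _ => rfl, fun _ => rfl, fun a => (n a).elim, fun _ => rfl⟩, q (X.qe8 t)⟩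
      · exact ⟨_, _, ⟨fun _ => rfl, fun _ => rfl, fun _ => rfl, fun a => (n a).elim⟩, q (X.qe9 t)⟩
      · exact ⟨_, _, ⟨fun _ => rfl, fun _ => rfl, fun _ => rfl, fun _ => rfl⟩, q (X.qe10 t)⟩
      · exact ⟨_, _, ⟨fun _ => rfl, fun _ => rfl, fun _ => rfl, fun _ => rfl⟩, q (X.qe11 t)⟩
    induction h using closure_induction'' with
    | mem x h => obtain ⟨r, t, h, rfl⟩ := h; exact gen r t h
    | inv_mem x h => obtain ⟨r, t, h, rfl⟩ := h; exact (X.x_inv r t).symm ▸ gen r t h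
    | one => exact X.x_zero 11 ▸ gen 11 0 (hk'.trans (by decide))
    | mul x y _ _ a b =>
      obtain ⟨y, c, ⟨a2, a7, a3, a4⟩, a⟩ := a
      obtain ⟨y', c', ⟨b2, b7, b3, b4⟩, b⟩ := b
      refine ⟨_, _, ⟨fun h => ?_, fun h => ?_, fun h => ?_, fun h => ?_⟩, a.mul b⟩
      · exact (show y 2 + y' 2 = 0 by rw [a2 h, b2 h, add_zero])
      · rw [a7 h, b7 h, add_zero]
      · exact (show y 3 + (y' 3 + c * y' 2) = 0 by
          rw [a3 h, b3 h, b2 (lt_trans (by decide) h), mul_zero, add_zero, add_zero])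
      · exact (show y 4 + (y' 4 + c * c * y' 2) = 0 by
          rw [a4 h, b4 h, b2 (lt_trans (by decide) h), mul_zero, add_zero, add_zero])
  · rintro ⟨y, c, ⟨h2, h7, h3, h4⟩, s, rfl⟩
    exact mul_mem (mul_mem (mul_mem (mul_mem (mul_mem (X.ma_xm h2) (X.ma_xm h3)) (X.ma_xm h4))
      (X.ma_xm fun h => (not_lt.2 hk' h).elim))
      (X.ma_xm fun h => (not_lt.2 hk' (lt_trans (by decide) h)).elim)) (X.ma_xm h7)

theorem mem_U {g : G} : g ∈ X.U ↔ ∃ y s c, g = X.qa y * X.vv s * X.x 7 c := by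
  rw [U, X.ma_Ur (by decide) (by decide)]
  exact ⟨fun ⟨y, c, _, s, e⟩ => ⟨y, s, c, e⟩, fun ⟨y, s, c, e⟩ => ⟨y, c, by simp, s, e⟩⟩
theorem mem_P {g : G} : g ∈ X.P ↔ ∃ y s c, y 2 = 0 ∧ g = X.qa y * X.vv s * X.x 7 c := by
  rw [P, X.ma_Ur (by decide) (by decide)]
  exact ⟨fun ⟨y, c, h, s, e⟩ => ⟨y, s, c, h.1 (by decide), e⟩,
    fun ⟨y, s, c, h, e⟩ => ⟨y, c, by simp [h], s, e⟩⟩
theorem mem_R0 {g : G} : g ∈ X.R0 ↔ ∃ y s, y 2 = 0 ∧ g = X.qa y * X.vv s := by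
  rw [R0, X.ma_Ur (by decide) (by decide)]
  exact ⟨fun ⟨y, c, h, s, e⟩ => ⟨y, s, h.1 (by decide), by
    rw [e, h.2.1 (by decide), X.x_zero, mul_one]⟩,
    fun ⟨y, s, h, e⟩ => ⟨y, 0, by simp [h], s, by rw [e, X.x_zero, mul_one]⟩⟩
theorem ma_W {g : G} : g ∈ X.W ↔ ∃ y, (y 2 = 0 ∧ y 3 = 0 ∧ y 4 = 0) ∧ X.MaNf g y 0 := by
  rw [W, X.ma_Ur (by decide) (by decide)]
  exact ⟨fun ⟨y, c, h, e⟩ => ⟨y, ⟨h.1 (by decide), h.2.2.1 (by decide), h.2.2.2 (by decide)⟩,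
    h.2.1 (by decide) ▸ e⟩, fun ⟨y, h, e⟩ => ⟨y, 0, by simp [h], e⟩⟩
theorem mem_W {g : G} : g ∈ X.W ↔ ∃ a s, g = X.x 10 a * X.vv s := by
  refine ⟨fun h => ?_, fun ⟨a, s, e⟩ => e ▸ mul_mem (X.x_W (by decide) a) (X.x_W (by decide) s)⟩
  obtain ⟨y, ⟨h2, h3, h4⟩, s, rfl⟩ := X.ma_W.1 h
  exact ⟨y 5, s, by rw [X.x_zero, mul_one, ← X.qa_10 0 0, X.qa_congr (t := ![0, 0, 0, 0, 0, y 5]) h2 h3 h4 rfl]⟩
theorem x7_QA {c : F4} (h : X.x 7 c ∈ X.QA) : c = 0 := by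
  obtain ⟨y, s, e⟩ := X.mem_QA.1 h
  obtain ⟨u, e'⟩ := X.xa_qa c ![0, 0, 1, 0, 0, 0]
  rw [e, X.ma_conj] at e'
  have : (0 : F4) = 0 + c * 1 := (X.qa_inj e').2.1
  rwa [zero_add, mul_one, eq_comm] at this
theorem qx_inj {y y' : V6} {s s' c c' : F4}
    (h : X.qa y * X.vv s * X.x 7 c = X.qa y' * X.vv s' * X.x 7 c') :
    y 2 = y' 2 ∧ y 3 = y' 3 ∧ y 4 = y' 4 ∧ y 5 = y' 5 ∧ s = s' ∧ c = c' := by
  have e : ∀ a b : F4, a + b = 0 → a = b := by decide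
  obtain rfl : c = c' := e _ _ (X.x7_QA (by
    convert mul_mem (inv_mem (X.ma_qv y s)) (X.ma_qv y' s') using 1
    rw [X.x_add, ← X.x_inv 7 c', eq_inv_mul_iff_mul_eq, ← mul_assoc, h, mul_inv_cancel_right]))
  obtain ⟨a, b, d, e, f⟩ := X.qa_inj (mul_right_cancel h)
  exact ⟨a, b, d, e, f, rfl⟩
theorem w_inj {a a' s s' : F4} (h : X.x 10 a * X.vv s = X.x 10 a' * X.vv s') : a = a' ∧ s = s' := by
  rw [← X.qa_10 0 0, ← X.qa_10 0 0] at h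
  exact (X.qa_inj h).2.2.2
theorem card_U : Nat.card X.U = 4096 := by
  rw [ma_card (fun s : F4 × F4 × F4 × F4 × F4 × F4 =>
    X.qa ![0, 0, s.1, s.2.1, s.2.2.1, s.2.2.2.1] * X.vv s.2.2.2.2.1 * X.x 7 s.2.2.2.2.2)
    (fun s => X.mem_U.2 ⟨_, _, _, rfl⟩) (fun s t h => ?_) fun g hg => ?_]
  · simp only [Nat.card_prod, natCard_eq]
  · obtain ⟨a, b, c, d, e, f⟩ := X.qx_inj h
    exact Prod.ext a (Prod.ext b (Prod.ext c (Prod.ext d (Prod.ext e f))))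
  · obtain ⟨t, s, c, e⟩ := X.mem_U.1 hg
    exact ⟨(t 2, t 3, t 4, t 5, s, c), e⟩
theorem card_P : Nat.card X.P = 1024 := by
  rw [ma_card (fun s : F4 × F4 × F4 × F4 × F4 =>
    X.qa ![0, 0, 0, s.1, s.2.1, s.2.2.1] * X.vv s.2.2.2.1 * X.x 7 s.2.2.2.2)
    (fun s => X.mem_P.2 ⟨_, _, _, rfl, rfl⟩) (fun s t h => ?_) fun g hg => ?_]
  · simp only [Nat.card_prod, natCard_eq]
  · obtain ⟨-, b, c, d, e, f⟩ := X.qx_inj h
    exact Prod.ext b (Prod.ext c (Prod.ext d (Prod.ext e f)))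
  · obtain ⟨t, s, c, h, e⟩ := X.mem_P.1 hg
    exact ⟨(t 3, t 4, t 5, s, c), by rw [e, X.qa_congr (t := ![0, 0, 0, t 3, t 4, t 5]) h rfl rfl rfl]⟩
theorem card_R0 : Nat.card X.R0 = 256 := by
  rw [ma_card (fun s : F4 × F4 × F4 × F4 => X.qa ![0, 0, 0, s.1, s.2.1, s.2.2.1] * X.vv s.2.2.2)
    (fun s => X.mem_R0.2 ⟨_, _, rfl, rfl⟩) (fun s t h => ?_) fun g hg => ?_]
  · simp only [Nat.card_prod, natCard_eq]
  · obtain ⟨-, b, c, d, e⟩ := X.qa_inj h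
    exact Prod.ext b (Prod.ext c (Prod.ext d e))
  · obtain ⟨t, s, h, e⟩ := X.mem_R0.1 hg
    exact ⟨(t 3, t 4, t 5, s), by rw [e, X.qa_congr (t := ![0, 0, 0, t 3, t 4, t 5]) h rfl rfl rfl]⟩
theorem card_W : Nat.card X.W = 16 := by
  rw [ma_card (fun s : F4 × F4 => X.x 10 s.1 * X.vv s.2)
    (fun s => X.mem_W.2 ⟨_, _, rfl⟩) (fun s t h => Prod.ext (X.w_inj h).1 (X.w_inj h).2) fun g hg => ?_]
  · simp only [Nat.card_prod, natCard_eq]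
  · obtain ⟨t, s, e⟩ := X.mem_W.1 hg
    exact ⟨(t, s), e⟩
theorem isP_U : IsPGroup 2 X.U := IsPGroup.of_card (n := 12) X.card_U
theorem ma_mono {k l : Fin 12} (h : k ≤ l) : Ur X.toRt l ≤ Ur X.toRt k :=
  closure_mono fun _ ⟨r, t, a, e⟩ => ⟨r, t, h.trans a, e⟩
theorem V_le_W : X.V ≤ X.W := fun g h => by
  obtain ⟨s, rfl⟩ := X.mem_V.1 h
  exact X.x_W (by decide) s
theorem W_le_R0 : X.W ≤ X.R0 := X.ma_mono (by decide)
theorem R0_le_P : X.R0 ≤ X.P := X.ma_mono (by decide)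
theorem R0_le_QA : X.R0 ≤ X.QA := fun g h => by
  obtain ⟨y, s, -, rfl⟩ := X.mem_R0.1 h
  exact X.ma_qv y s
theorem P_le_U : X.P ≤ X.U := X.ma_mono (by decide)
theorem QA_le_U : X.QA ≤ X.U := fun g h => by
  obtain ⟨y, s, rfl⟩ := X.mem_QA.1 h
  exact X.mem_U.2 ⟨y, s, 0, by rw [X.x_zero, mul_one]⟩
theorem U_le_B : X.U ≤ X.B := (closure_le _).2 fun _ ⟨_, t, a, e⟩ => e ▸ X.x_B (Or.inr a) t
theorem U_le_A : X.U ≤ X.A := X.U_le_B.trans X.B_le_A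
theorem P_inf_QA : X.P ⊓ X.QA = X.R0 := by
  refine le_antisymm (fun g ⟨h, h'⟩ => ?_) (le_inf X.R0_le_P X.R0_le_QA)
  obtain ⟨y, s, c, h2, rfl⟩ := X.mem_P.1 h
  rw [X.x7_QA ((X.QA.mul_mem_cancel_left (X.ma_qv y s)).1 h'), X.x_zero, mul_one]
  exact X.mem_R0.2 ⟨y, s, h2, rfl⟩
theorem ma_split (y : V6) (s : F4) : ∃ b ∈ X.R0, X.qa y * X.vv s = X.x 6 (y 2) * b :=
  ⟨_, mul_mem (mul_mem (mul_mem (X.x_R0 (r := 8) (by decide) (y 3)) (X.x_R0 (r := 9) (by decide) (y 4)))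
    (X.x_R0 (r := 10) (by decide) (y 5))) (X.x_R0 (r := 11) (by decide) s), by
    simp only [Rt.qa, Rt.vv, mul_assoc]⟩
theorem U_split {u : G} (h : u ∈ X.U) : ∃ s, ∃ b ∈ X.P, u = X.x 6 s * b := by
  obtain ⟨y, s, c, rfl⟩ := X.mem_U.1 h
  obtain ⟨b, hb, e⟩ := X.ma_split y s
  exact ⟨_, _, mul_mem (X.R0_le_P hb) (X.x_P le_rfl c), by rw [e, mul_assoc]⟩
theorem QA_split {q : G} (h : q ∈ X.QA) : ∃ s, ∃ b ∈ X.R0, q = X.x 6 s * b := by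
  obtain ⟨y, s, rfl⟩ := X.mem_QA.1 h
  exact ⟨_, X.ma_split y s⟩
theorem P_split {b : G} (h : b ∈ X.P) : ∃ r ∈ X.R0, ∃ c, b = r * X.x 7 c := by
  obtain ⟨y, s, c, h2, rfl⟩ := X.mem_P.1 h
  exact ⟨_, X.mem_R0.2 ⟨y, s, h2, rfl⟩, c, rfl⟩
theorem x6_x10 (s a : F4) : X.x 6 s * X.x 10 a * (X.x 6 s)⁻¹ = X.x 10 a * X.vv (s * a) := by
  rw [← X.qa_6 0 0, ← X.qa_10 0 0, X.qa_conj]
  simp [b4]
theorem x6_x9 (s a : F4) : X.x 6 s * X.x 9 a = X.x 9 a * X.x 6 s := by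
  rw [← X.qa_6 0 0, ← X.qa_9 0 0, X.qa_comm]
  simp [b4, X.vv_zero]
theorem x6_x10_sq (s a : F4) : X.x 6 s * X.x 10 a * (X.x 6 s * X.x 10 a) = X.vv (s * a) := by
  have := X.qa_sq ![0, 0, s, 0, 0, a]
  simpa [Rt.qa, X.x_zero] using this
theorem ma_nUr {k : Fin 12} {g : G} (h : ∀ r t, k ≤ r → g * X.x r t * g⁻¹ ∈ Ur X.toRt k) :
    g ∈ 𝐍(Ur X.toRt k) :=
  mem_normalizer_fintype fun _ => cj_closure fun _ ⟨r, t, a, e⟩ => e ▸ h r t a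
theorem nb_P : X.nb ∈ 𝐍(X.P) := X.ma_nUr fun r t h => by
  rw [X.nb_x]
  exact X.x_P (by revert r; decide) t
theorem nb_W : X.nb ∈ 𝐍(X.W) := X.ma_nUr fun r t h => by
  rw [X.nb_x]
  exact X.x_W (by revert r; decide) t

theorem MaNf.mem {X : Cy G} {g : G} {y : V6} {c : F4} (a : X.MaNf g y c) : g ∈ X.U :=
  X.mem_U.2 ⟨y, a.imp fun _ e => ⟨c, e⟩⟩
theorem ma_nf {g : G} (h : g ∈ X.U) : ∃ y c, X.MaNf g y c := by
  obtain ⟨y, s, c, e⟩ := X.mem_U.1 h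
  exact ⟨y, c, s, e⟩
theorem MaNf.uq {X : Cy G} {g : G} {y y' : V6} {c c' : F4} (a : X.MaNf g y c) (b : X.MaNf g y' c') :
    y 2 = y' 2 ∧ y 3 = y' 3 ∧ y 4 = y' 4 ∧ y 5 = y' 5 ∧ c = c' := by
  obtain ⟨s, rfl⟩ := a
  obtain ⟨s', e⟩ := b
  obtain ⟨a, b, d, e, -, f⟩ := X.qx_inj e
  exact ⟨a, b, d, e, f⟩
/-- the commutator of two elements of `U` -/
theorem MaNf.comm {X : Cy G} {g k : G} {y u : V6} {c d : F4} (a : X.MaNf g y c) (b : X.MaNf k u d) :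
    X.Qe (g * k * g⁻¹ * k⁻¹) ![0, 0, 0, c * u 2 + d * y 2, c * c * u 2 + d * d * y 2,
      c * c * u 3 + c * u 4 + c * c * c * u 2 + (d * d * y 3 + d * y 4 + d * d * d * y 2)] := by
  obtain ⟨m, e, h⟩ := X.ma_nf (mul_mem (mul_mem (mul_mem a.mem b.mem) (inv_mem a.mem)) (inv_mem b.mem))
  have k1 := h.mul (b.mul a)
  rw [show g * k * g⁻¹ * k⁻¹ * (k * g) = g * k by group] at k1
  obtain ⟨h2, h3, h4, h5, h7⟩ := k1.uq (a.mul b)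
  obtain rfl : e = 0 := by linear_combination h7
  replace h2 : m 2 + (u 2 + y 2) = y 2 + u 2 := h2
  replace h3 : m 3 + (u 3 + (y 3 + d * y 2) + 0 * _) = y 3 + (u 3 + c * u 2) := h3
  replace h4 : m 4 + (u 4 + (y 4 + d * d * y 2) + 0 * 0 * _) = y 4 + (u 4 + c * c * u 2) := h4
  replace h5 : m 5 + (u 5 + (y 5 + d * d * y 3 + d * y 4 + d * d * d * y 2) + 0 * 0 * _ + 0 * _ +
    0 * 0 * 0 * _) = y 5 + (u 5 + c * c * u 3 + c * u 4 + c * c * c * u 2) := h5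
  obtain ⟨s, h⟩ := h
  refine Rt.Qe.congr ⟨s, by rw [h, X.x_zero, mul_one]⟩ (show m 2 = 0 from ?_)
    (show m 3 = _ + _ from ?_) (show m 4 = _ + _ from ?_) (show m 5 = _ + _ from ?_)
  · linear_combination h2
  · linear_combination h3 - d * y 2 * two_eq_zero
  · linear_combination h4 - d * d * y 2 * two_eq_zero
  · linear_combination h5 - (d * d * y 3 + d * y 4 + d * d * d * y 2) * two_eq_zero
theorem ma_comm {a b : G} (ha : a ∈ X.U) (hb : b ∈ X.U) : a * b * a⁻¹ * b⁻¹ ∈ X.R0 := by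
  obtain ⟨y, c, h⟩ := X.ma_nf ha
  obtain ⟨u, d, k⟩ := X.ma_nf hb
  obtain ⟨s, e⟩ := h.comm k
  exact X.mem_R0.2 ⟨_, s, rfl, e⟩
theorem ma_V {g : G} {y : V6} (h : X.Qe g y) : g ∈ X.V ↔ y 2 = 0 ∧ y 3 = 0 ∧ y 4 = 0 ∧ y 5 = 0 := by
  obtain ⟨s, rfl⟩ := h
  refine ⟨fun h => ?_, fun ⟨a, b, c, d⟩ => ?_⟩
  · obtain ⟨t, e⟩ := X.mem_V.1 h
    rw [← one_mul (X.vv t), ← X.qa_zero] at e
    obtain ⟨a, b, c, d, -⟩ := X.qa_inj e
    exact ⟨a, b, c, d⟩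
  · rw [X.qa_congr (t := 0) a b c d, X.qa_zero, one_mul]
    exact X.vv_mem s
theorem ma_UW {u e : G} (hu : u ∈ X.U) (he : e ∈ X.W) : u * e * u⁻¹ * e⁻¹ ∈ X.V := by
  obtain ⟨y, c, h⟩ := X.ma_nf hu
  obtain ⟨m, ⟨h2, h3, h4⟩, k⟩ := X.ma_W.1 he
  exact (X.ma_V (h.comm k)).2 (by simp [h2, h3, h4])
theorem U_nP : X.U ≤ 𝐍(X.P) := fun _ h => ma_norm X.R0_le_P fun _ hb => X.ma_comm h (X.P_le_U hb)
theorem U_nR0 : X.U ≤ 𝐍(X.R0) := fun _ h =>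
  ma_norm le_rfl fun _ hb => X.ma_comm h (X.P_le_U (X.R0_le_P hb))
theorem U_nW : X.U ≤ 𝐍(X.W) := fun _ h => ma_norm X.V_le_W fun _ hb => X.ma_UW h hb
theorem th_QA : X.th ∈ 𝐍(X.QA) := mem_normalizer_fintype fun g hg => by
  obtain ⟨y, s, rfl⟩ := X.mem_QA.1 hg
  rw [cj_mul, X.th_qa, X.th_vv]
  exact X.ma_qv _ _
theorem th_V : X.th ∈ 𝐍(X.V) := mem_normalizer_fintype fun g hg => by
  obtain ⟨s, rfl⟩ := X.mem_V.1 hg
  exact X.th_vv s ▸ X.vv_mem _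
theorem th_B : X.th ∈ 𝐍(X.B) := mem_normalizer_fintype fun g hg => by
  obtain ⟨y, s, l, hl, rfl⟩ := (X.p1.mem_B g).1 hg
  rw [cj_mul, X.th_L hl, mul_inv_cancel_right]
  exact mul_mem (X.QA_le_B ((mem_normalizer_iff.1 X.th_QA _).1 (X.ma_qv y s))) (X.L_le_B hl)
theorem Phi_U {f : G} (h : X.Phi f) : f ∈ 𝐍(X.U) := X.ma_nUr fun r t a => h r t ▸ X.x_U a _
theorem Phi_P {f : G} (h : X.Phi f) : f ∈ 𝐍(X.P) := X.ma_nUr fun r t a => h r t ▸ X.x_P a _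
theorem Phi_QA {f : G} (h : X.Phi f) : f ∈ 𝐍(X.QA) := mem_normalizer_fintype fun g hg => by
  obtain ⟨y, s, rfl⟩ := X.mem_QA.1 hg
  rw [cj_mul, h.qa, Rt.vv, h]
  exact X.ma_qv _ _
theorem Phi_V {f : G} (h : X.Phi f) : f ∈ 𝐍(X.V) := mem_normalizer_fintype fun g hg => by
  obtain ⟨s, rfl⟩ := X.mem_V.1 hg
  exact h 11 s ▸ X.vv_mem _
theorem Phi_nb {f : G} (h : X.Phi f) : f * X.nb = X.nb * f := by
  rw [← mul_inv_eq_iff_eq_mul, X.nb_eq, cj_mul, cj_mul, h, h, mul_one]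
theorem Phi_na {f : G} (h : X.Phi f) : f * X.na = X.na * f := by
  rw [← mul_inv_eq_iff_eq_mul, X.na_eq, cj_mul, cj_mul, h, h, mul_one]
theorem Phi_th {f : G} (h : X.Phi f) : f * X.th * f⁻¹ = X.th * X.th := by
  refine (inv_mul_eq_one.1 (X.ak (mul_mem (inv_mem (mul_mem X.th_mem X.th_mem))
    ((mem_normalizer_iff.1 (X.Phi_N h) _).1 X.th_mem)) (cent_closure ?_))).symm
  rintro _ ⟨r, t, rfl⟩
  have e : ∀ a t : F4, t * t * (t * t) = t ∧ a * (t * t) * (a * (t * t)) = a * (a * t) := by decide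
  have h1 := h r (t * t)
  have h2 := h r (![w, v, v, v, 1, v, w, 1, w, w, w, v] r * (t * t))
  rw [(e 0 t).1] at h1
  rw [(e _ t).2, ← X.th_x, ← X.th_x, ← X.th_x] at h2
  calc _ = (X.th * X.th)⁻¹ * (X.th * (X.th * X.x r t * X.th⁻¹) * X.th⁻¹) * (f * X.th * f⁻¹) := by group
    _ = _ := by rw [← h2, ← h1]; group
theorem QA_gen {H : Subgroup G} (h1 : X.W ≤ H) (h2 : ∀ b ∈ X.B, ∀ g ∈ H, b * g * b⁻¹ ∈ H) :
    X.QA ≤ H := by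
  have h10 := fun s => h1 (X.x_W le_rfl s)
  have h11 := fun s => h1 (X.x_W (r := 11) (by decide) s)
  have h6 : ∀ s, X.x 6 s ∈ H := fun s => (X.na_x 10 s : _ = X.x 6 s) ▸ h2 _ (X.L_le_B X.na_mem) _ (h10 s)
  have h89 : ∀ c s, X.x 8 (c * s) * X.x 9 (c * c * s) ∈ H := fun c s => by
    have := h2 _ (X.x_B (r := 7) (by decide) c) _ (h6 s)
    rwa [X.a6, H.mul_mem_cancel_right (h11 _), H.mul_mem_cancel_right (h10 _), mul_assoc,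
      H.mul_mem_cancel_left (h6 s)] at this
  have h9 : ∀ s, X.x 9 s ∈ H := fun s => by
    have e : ∀ s : F4, w * (v * (w * s)) = 1 * (w * s) ∧
      w * w * (v * (w * s)) = 1 * 1 * (w * s) + s := by decide
    have := h89 w (v * (w * s))
    rwa [(e s).1, (e s).2, X.x_add, ← mul_assoc, H.mul_mem_cancel_left (h89 1 _)] at this
  have h8 : ∀ s, X.x 8 s ∈ H := fun s => by
    have := h89 1 s
    rwa [H.mul_mem_cancel_right (h9 _), one_mul] at this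
  intro g hg
  obtain ⟨y, s, rfl⟩ := X.mem_QA.1 hg
  exact mul_mem (mul_mem (mul_mem (mul_mem (h6 _) (h8 _)) (h9 _)) (h10 _)) (h11 s)
theorem P_gen {H : Subgroup G} (h1 : X.R0 ≤ H) (h2 : ∀ g ∈ H, X.nb * g * X.nb⁻¹ ∈ H) : X.P ≤ H :=
  fun g hg => by
    obtain ⟨r, hr, c, rfl⟩ := X.P_split hg
    exact mul_mem (h1 hr) ((X.nb_x 8 c : _ = X.x 7 c) ▸ h2 _ (h1 (X.x_R0 le_rfl c)))

end Cy

end H16.GC
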