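import Cfsg.Agent.Lib.G24C.MC

/-! The Sylow 2-subgroup of `G₂(4)`: involutions and elementary abelian subgroups. -/

set_option autoImplicit false

namespace H16.GC

open H30 H30.F4 H69 Subgroup Cfsg H79.AS

variable {G : Type*} [Group G] [Finite G]

namespace Cy

variable (X : Cy G)

theorem syl_U : IsSylowIn 2 X.U X.A := by
  haveI : Fact (Nat.Prime 2) := ⟨Nat.prime_two⟩
  refine ⟨X.U_le_A, X.isP_U, fun R hU hA hR => ?_⟩
  have zU : X.z ∈ X.U := X.x_U (by decide) 1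
  have h0 : R ≠ ⊥ := fun h => X.z_ne (mem_bot.1 (h ▸ hU zU))
  obtain ⟨⟨ζ, hζ, hc⟩, h1⟩ := (ne_bot_iff_exists_ne_one).1 (center_ne_bot hR h0)
  have hB : ζ ∈ X.B := X.p2.cV ζ (hA hζ) 1 one_ne_zero (hc _ (hU zU)).symm
  obtain ⟨s, rfl⟩ := X.mem_V.1 (X.p1.B_cent ζ hB fun q hq => hc q (hU (X.QA_le_U hq)))
  have s0 : s ≠ 0 := fun h => h1 (Subtype.ext (by simp only [h, Rt.vv_zero, OneMemClass.coe_one]))
  have hRB : R ≤ X.B := fun r hr => X.p2.cV r (hA hr) s s0 (hc r hr)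
  obtain ⟨k, hk⟩ := IsPGroup.iff_card.1 hR
  have hd := card_dvd_of_le hRB
  rw [hk, X.p1.card_B, show 61440 = 2 ^ 12 * 15 by norm_num] at hd
  have hle := Nat.le_of_dvd (by norm_num) (Nat.Coprime.dvd_of_dvd_mul_right (Nat.Coprime.pow_left k (by norm_num)) hd)
  exact (eq_of_le_of_card_ge hU (by rw [hk, X.card_U]; exact hle)).symm

omit [Finite G] in
theorem mb_vv {s : F4} (h : s ≠ 0) : ∃ a ∈ X.A, a * X.vv s * a⁻¹ = X.z := by
  rcases (by revert s; decide : s = 1 ∨ s = w ∨ s = v) with rfl | rfl | rfl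
  · exact ⟨1, one_mem _, by rw [X.z_eq]; group⟩
  · exact ⟨X.th, X.th_mem, by rw [X.th_vv, X.z_eq]; rfl⟩
  · refine ⟨X.th * X.th, mul_mem X.th_mem X.th_mem, ?_⟩
    rw [show X.th * X.th * X.vv v * (X.th * X.th)⁻¹ = X.th * (X.th * X.vv v * X.th⁻¹) * X.th⁻¹ by group, X.th_vv,
      X.th_vv, X.z_eq]; rfl

theorem mb_x6 (r a s : F4) : X.x 6 r * (X.x 10 a * X.vv s) * (X.x 6 r)⁻¹ = X.x 10 a * X.vv (r * a + s) := by
  rw [cj_mul, X.x6_x10, (X.x_v (r := 6) (by decide) r s).eq, mul_inv_cancel_right, mul_assoc, X.vv_add]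

theorem long_W {e : G} (he : e ∈ X.W) (h : e ≠ 1) : ∃ a ∈ X.A, a * e * a⁻¹ = X.z := by
  obtain ⟨a, s, rfl⟩ := X.mem_W.1 he
  by_cases a0 : a = 0
  · rw [a0, X.x_zero, one_mul] at h ⊢
    exact X.mb_vv fun h0 => h (by rw [h0, X.vv_zero])
  obtain ⟨c, hc, e⟩ := X.mb_vv a0
  refine ⟨c * X.nb * X.x 6 (s / a), mul_mem (mul_mem hc X.nb_mem) (X.x_mem _ _), ?_⟩
  have h1 := X.mb_x6 (s / a) a s
  rw [div_mul_cancel₀ s a0, f4_self, X.vv_zero, mul_one] at h1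
  have h2 : X.nb * X.x 10 a * X.nb⁻¹ = X.vv a := X.nb_x 10 a
  calc _ = c * (X.nb * (X.x 6 (s / a) * (X.x 10 a * X.vv s) * (X.x 6 (s / a))⁻¹) * X.nb⁻¹) * c⁻¹ := by
        simp only [mul_inv_rev, mul_assoc]
    _ = _ := by rw [h1, h2, e]

omit [Finite G] in
theorem mb_one {t : V6} (h : X.Qe 1 t) : t 2 = 0 ∧ t 3 = 0 ∧ t 4 = 0 ∧ t 5 = 0 := by
  obtain ⟨s, hs⟩ := h
  have := X.qa_inj (s := t) (t := 0) (a := s) (b := 0) (by rw [← hs, X.qa_zero, X.vv_zero, one_mul])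
  exact ⟨this.1, this.2.1, this.2.2.1, this.2.2.2.1⟩

theorem mb_nf1 : X.MaNf 1 0 0 := ⟨0, by rw [X.qa_zero, X.vv_zero, X.x_zero, one_mul, one_mul]⟩

/-- the coordinates of an involution -/
theorem mb_inv {g : G} {y : V6} {c : F4} (a : X.MaNf g y c) (h : g * g = 1) : c * y 2 = 0 ∧ (c ≠ 0 → y 4 = c * y 3) := by
  obtain ⟨-, h3, -, h5, -⟩ := (h ▸ a.mul a).uq X.mb_nf1
  simp only [xav, Pi.add_apply, Pi.zero_apply, Matrix.cons_val] at h3 h5
  exact (by decide : ∀ c p q r s : F4, q + (q + c * p) = 0 → s + (s + c * c * q + c * r + c * c * c * p) = 0 →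
    c * p = 0 ∧ (c ≠ 0 → r = c * q)) _ _ _ _ _ h3 h5

theorem mb_comm {g k : G} {y u : V6} {c d : F4} (a : X.MaNf g y c) (b : X.MaNf k u d) (h : g * k = k * g) :
    c * u 2 + d * y 2 = 0 ∧
      c * c * u 3 + c * u 4 + c * c * c * u 2 + (d * d * y 3 + d * y 4 + d * d * d * y 2) = 0 := by
  have := a.comm b
  rw [h, mul_inv_cancel_right, mul_inv_cancel] at this
  obtain ⟨-, h3, -, h5⟩ := X.mb_one this
  exact ⟨h3, h5⟩

omit [Finite G] in
theorem mb_q {y : V6} {s : F4} (h : X.qa y * X.vv s * (X.qa y * X.vv s) = 1) : y 2 * y 5 + y 3 * y 4 = 0 := by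
  rw [X.qv_mul] at h
  have := (X.qa_inj (t := 0) (b := 0) (h.trans (by rw [X.qa_zero, X.vv_zero, one_mul]))).2.2.2.2
  rw [f4_self, add_zero] at this
  rw [← this]; ring

omit [Finite G] in
theorem mb_b {y u : V6} {s r : F4} (h : X.qa y * X.vv s * (X.qa u * X.vv r) = X.qa u * X.vv r * (X.qa y * X.vv s)) :
    b4 y u = 0 := by
  rw [X.qv_mul, X.qv_mul] at h
  have := (X.qa_inj h).2.2.2.2
  have h2 : (2 : F4) = 0 := two_eq_zero
  unfold b4
  linear_combination this + (u 5 * y 2 + u 4 * y 3) * h2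

/-- an involution of `Q_A` commuting with an element of `U \\ Q_A` lies in `W` -/
theorem mb_W {y u : V6} {s d : F4} {k : G} (h : X.qa y * X.vv s * (X.qa y * X.vv s) = 1) (b : X.MaNf k u d)
    (hc : X.qa y * X.vv s * k = k * (X.qa y * X.vv s)) (d0 : d ≠ 0) : y 2 = 0 ∧ y 3 = 0 ∧ y 4 = 0 := by
  have h1 := X.mb_q h
  obtain ⟨h2, h3⟩ := X.mb_comm (y := y) (c := 0) ⟨s, by rw [X.x_zero, mul_one]⟩ b hc
  simp only [zero_mul, zero_add, mul_zero, add_zero] at h2 h3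
  exact (by decide : ∀ d p q r s : F4, d ≠ 0 → p * s + q * r = 0 → d * p = 0 → d * d * q + d * r + d * d * d * p = 0 →
    p = 0 ∧ q = 0 ∧ r = 0) _ _ _ _ _ d0 h1 h2 h3

theorem mb_card {H : Subgroup G} (hH : H ≤ X.U) {α : Type} [Finite α] (φ : V6 → F4 → F4 → α)
    (h : ∀ y s c y' s' c', X.qa y * X.vv s * X.x 7 c ∈ H → X.qa y' * X.vv s' * X.x 7 c' ∈ H → φ y s c = φ y' s' c' →
      y 2 = y' 2 ∧ y 3 = y' 3 ∧ y 4 = y' 4 ∧ y 5 = y' 5 ∧ s = s' ∧ c = c') : Nat.card H ≤ Nat.card α := by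
  choose y s c e using fun g : H => X.mem_U.1 (hH g.2)
  refine Nat.card_le_card_of_injective (fun g => φ (y g) (s g) (c g)) fun g k hgk => Subtype.ext ?_
  obtain ⟨h2, h3, h4, h5, h6, h7⟩ := h _ _ _ _ _ _ (e g ▸ g.2) (e k ▸ k.2) hgk
  rw [e g, e k, X.qa_congr h2 h3 h4 h5, h6, h7]

theorem sq_long {a : G} (ha : a ∈ X.A) (h4 : a * a * (a * a) = 1) (h2 : a * a ≠ 1) :
    ∃ c ∈ X.A, c * (a * a) * c⁻¹ = X.z := by
  haveI : Fact (Nat.Prime 2) := ⟨Nat.prime_two⟩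
  have hp : IsPGroup 2 (zpowers a) := fun g => by
    obtain ⟨k, hk⟩ := mem_zpowers_iff.1 g.2
    refine ⟨2, Subtype.ext ?_⟩
    rw [Subgroup.coe_pow, ← hk, ← zpow_natCast, ← zpow_mul, mul_comm, zpow_mul, zpow_natCast,
      show a ^ 2 ^ 2 = a * a * (a * a) by simp only [pow_succ, pow_zero, one_mul, mul_assoc, Nat.reduceMul], h4, one_zpow]
    rfl
  obtain ⟨g, hg, hle⟩ := X.syl_U.exists_cj_le hp (zpowers_le.2 ha)
  obtain ⟨y, c, n⟩ := X.ma_nf (hle (cj_mem g (mem_zpowers a)))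
  have n2 := n.mul n
  rw [← cj_mul, f4_self] at n2
  have hW : g * (a * a) * g⁻¹ ∈ X.W := by
    obtain ⟨s, hs⟩ := id n2
    rw [X.x_zero, mul_one] at hs
    have := X.mb_q (y := y + xav c y) (s := s) (by rw [← hs, ← cj_mul, h4]; group)
    refine X.ma_W.2 ⟨_, ?_, n2⟩
    simp only [xav, Pi.add_apply, Matrix.cons_val] at this ⊢
    exact (by decide : ∀ c p q r s : F4, (p + p) * s + (q + (q + c * p)) * (r + (r + c * c * p)) = 0 →
      p + p = 0 ∧ q + (q + c * p) = 0 ∧ r + (r + c * c * p) = 0) _ _ _ _ _ this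
  obtain ⟨b, hb, e⟩ := X.long_W hW (fun h => h2 (by
    calc a * a = g⁻¹ * (g * (a * a) * g⁻¹) * g := by group
      _ = 1 := by rw [h]; group))
  exact ⟨b * g, mul_mem hb hg, by rw [← e]; group⟩

theorem cent_inv {e : G} (he : e ∈ X.U) (h2 : e * e = 1) (hW : e ∉ X.W) :
    Nat.card (X.U ⊓ centralizer {e} : Subgroup G) ≤ 256 := by
  obtain ⟨y, c, n⟩ := X.ma_nf he
  have c4 : Nat.card (F4 × F4 × F4 × F4) = 256 := by simp only [Nat.card_prod, natCard_eq]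
  have cm : ∀ g ∈ X.U ⊓ centralizer {e}, e * g = g * e := fun g hg => (mem_centralizer_singleton_iff.1 hg.2).symm
  rw [← c4]
  by_cases c0 : c = 0
  · obtain ⟨s, hs⟩ := id n
    rw [c0, X.x_zero, mul_one] at hs
    have y0 : ¬ (y 2 = 0 ∧ y 3 = 0 ∧ y 4 = 0) := fun h => hW (X.ma_W.2 ⟨y, h, c0 ▸ n⟩)
    have key : ∀ u r d, X.qa u * X.vv r * X.x 7 d ∈ X.U ⊓ centralizer {e} → d = 0 ∧ b4 y u = 0 := fun u r d hg => by
      have d0 : d = 0 := by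
        by_contra d0
        exact y0 (X.mb_W (hs ▸ h2) ⟨r, rfl⟩ (hs ▸ cm _ hg) d0)
      have := cm _ hg
      rw [d0, X.x_zero, mul_one, hs] at this
      exact ⟨d0, X.mb_b this⟩
    refine X.mb_card inf_le_left (fun u r _ => if y 2 ≠ 0 then (u 2, u 3, u 4, r) else if y 3 ≠ 0 then (u 2, u 3, u 5, r)
      else (u 2, u 4, u 5, r)) fun u r d u' r' d' hg hg' h => ?_
    obtain ⟨d0, b⟩ := key _ _ _ hg
    obtain ⟨d0', b'⟩ := key _ _ _ hg'
    unfold b4 at b b'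
    split_ifs at h with h2 h3 <;> simp only [Prod.mk.injEq] at h <;> obtain ⟨e1, e2, e3, e4⟩ := h
    · refine ⟨e1, e2, e3, mul_left_cancel₀ h2 ?_, e4, d0.trans d0'.symm⟩
      rw [e1, e2, e3] at b
      linear_combination b - b'
    · refine ⟨e1, e2, mul_left_cancel₀ h3 ?_, e3, e4, d0.trans d0'.symm⟩
      rw [e1, e2, e3] at b
      linear_combination b - b'
    · refine ⟨e1, mul_left_cancel₀ (fun h4 => y0 ⟨not_not.1 h2, not_not.1 h3, h4⟩) ?_, e2, e3, e4, d0.trans d0'.symm⟩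
      rw [e1, e2, e3] at b
      linear_combination b - b'
  · have y2 : y 2 = 0 := (mul_eq_zero.1 (X.mb_inv n h2).1).resolve_left c0
    refine X.mb_card inf_le_left (fun u r d => (u 3, u 5, r, d)) fun u r d u' r' d' hg hg' h => ?_
    simp only [Prod.mk.injEq] at h
    obtain ⟨e1, e2, e3, e4⟩ := h
    obtain ⟨a1, a2⟩ := X.mb_comm n ⟨r, rfl⟩ (cm _ hg)
    obtain ⟨b1, b2⟩ := X.mb_comm n ⟨r', rfl⟩ (cm _ hg')
    rw [y2, mul_zero, add_zero] at a1 b1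
    have u2 := (mul_eq_zero.1 a1).resolve_left c0
    have u2' := (mul_eq_zero.1 b1).resolve_left c0
    refine ⟨u2.trans u2'.symm, e1, mul_left_cancel₀ c0 ?_, e2, e3, e4⟩
    rw [e1, e4, u2] at a2
    rw [u2'] at b2
    linear_combination a2 - b2

theorem cent_inv' {e : G} (he : e ∈ X.U) (h2 : e * e = 1) (hV : e ∉ X.V) :
    Nat.card (X.U ⊓ centralizer {e} : Subgroup G) ≤ 1024 := by
  by_cases hW : e ∈ X.W
  swap
  · exact (X.cent_inv he h2 hW).trans (by norm_num)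
  rw [← X.card_P]
  refine card_le_of_le fun u hu => ?_
  obtain ⟨r, b, hb, rfl⟩ := X.U_split hu.1
  have h1 := mem_centralizer_singleton_iff.1 hu.2
  rw [mul_assoc, ← X.P_W hb e hW, ← mul_assoc, ← mul_assoc, mul_left_inj] at h1
  obtain ⟨a, s, rfl⟩ := X.mem_W.1 hW
  have h3 := X.mb_x6 r a s
  rw [h1, mul_inv_cancel_right] at h3
  have h4 := (X.w_inj h3).2
  have a0 : a ≠ 0 := fun h => hV (by rw [h, X.x_zero, one_mul]; exact X.vv_mem s)
  have r0 : r = 0 := (mul_eq_zero.1 (by linear_combination -h4)).resolve_right a0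
  rwa [r0, X.x_zero, one_mul]

theorem ea_U {E : Subgroup G} (hE : E ≤ X.U) (h2 : ∀ e ∈ E, e * e = 1) : Nat.card E ≤ 64 := by
  have c3 : Nat.card (F4 × F4 × F4) = 64 := by simp only [Nat.card_prod, natCard_eq]
  have cm : ∀ a ∈ E, ∀ b ∈ E, a * b = b * a := fun a ha b hb => by
    rw [← inv_eq_of_mul_eq_one_right (h2 _ (mul_mem ha hb)), mul_inv_rev, inv_eq_of_mul_eq_one_right (h2 a ha),
      inv_eq_of_mul_eq_one_right (h2 b hb)]
  have t2 : (2 : F4) = 0 := two_eq_zero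
  rw [← c3]
  by_cases hc : ∃ k ∈ E, ∃ u d, X.MaNf k u d ∧ d ≠ 0
  · obtain ⟨k, hk, u, d, n, d0⟩ := hc
    refine X.mb_card hE (fun y s c => (y 5, s, c)) fun y s c y' s' c' hg hg' h => ?_
    simp only [Prod.mk.injEq] at h
    obtain ⟨e1, e2, rfl⟩ := h
    obtain ⟨r, hr⟩ := MaNf.mul (X := X) (y := y) (y' := y') (c := c) (c' := c) ⟨s, rfl⟩ ⟨s', rfl⟩
    rw [f4_self, X.x_zero, mul_one] at hr
    have hm := mul_mem hg hg'
    rw [hr] at hm
    obtain ⟨a2, a3, a4⟩ := X.mb_W (h2 _ hm) n (cm _ hm _ hk) d0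
    have a1 := (X.mb_inv (y := y') (c := c) ⟨s', rfl⟩ (h2 _ hg')).1
    simp only [xav, Pi.add_apply, Matrix.cons_val] at a2 a3 a4
    refine ⟨?_, ?_, ?_, e1, e2, rfl⟩
    · linear_combination a2 - y' 2 * t2
    · linear_combination a3 - a1 - y' 3 * t2
    · linear_combination a4 - c * a1 - y' 4 * t2
  have c0 : ∀ y s c, X.qa y * X.vv s * X.x 7 c ∈ E → c = 0 ∧ X.qa y * X.vv s ∈ E := fun y s c h => by
    have : c = 0 := by
      by_contra h0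
      exact hc ⟨_, h, y, c, ⟨s, rfl⟩, h0⟩
    exact ⟨this, by rwa [this, X.x_zero, mul_one] at h⟩
  let S : V6 → Prop := fun y => ∃ s, X.qa y * X.vv s ∈ E
  have add : ∀ y u, S y → S u → S (y + u) := fun y u ⟨s, hs⟩ ⟨r, hr⟩ => ⟨_, X.qv_mul y u s r ▸ mul_mem hs hr⟩
  have hq : ∀ y, S y → y 2 * y 5 + y 3 * y 4 = 0 := fun y ⟨s, hs⟩ => X.mb_q (h2 _ hs)
  have hb : ∀ y u, S y → S u → b4 y u = 0 := fun y u ⟨s, hs⟩ ⟨r, hr⟩ => X.mb_b (cm _ hs _ hr)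
  obtain ⟨i, hi⟩ : ∃ i, ∀ y, S y → y 2 = 0 → y i = 0 → y 3 = 0 ∧ y 4 = 0 := by
    by_cases h3 : ∀ y, S y → y 2 = 0 → y 3 = 0
    · exact ⟨4, fun y hy a b => ⟨h3 y hy a, b⟩⟩
    push Not at h3
    obtain ⟨u, hu, u2, u3⟩ := h3
    refine ⟨3, fun y hy a b => ⟨b, ?_⟩⟩
    have q1 := hq u hu
    have q2 := hb u y hu hy
    unfold b4 at q2
    rw [u2, a, b] at q2
    exact (mul_eq_zero.1 (by linear_combination q2)).resolve_left u3
  obtain ⟨j, hj⟩ : ∃ j, ∀ y, S y → y j = 0 → y 2 = 0 ∧ (y 3 = 0 → y 4 = 0 → y 5 = 0) := by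
    by_cases h3 : ∀ y, S y → y 2 = 0
    · exact ⟨5, fun y hy a => ⟨h3 y hy, fun _ _ => a⟩⟩
    push Not at h3
    obtain ⟨u, hu, u2⟩ := h3
    refine ⟨2, fun y hy a => ⟨a, fun b c => ?_⟩⟩
    have q2 := hb u y hu hy
    unfold b4 at q2
    rw [a, b, c] at q2
    exact (mul_eq_zero.1 (by linear_combination q2)).resolve_left u2
  refine X.mb_card hE (fun y s _ => (y i, y j, s)) fun y s c y' s' c' hg hg' h => ?_
  simp only [Prod.mk.injEq] at h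
  obtain ⟨e1, e2, e3⟩ := h
  obtain ⟨a, ha⟩ := c0 _ _ _ hg
  obtain ⟨a', ha'⟩ := c0 _ _ _ hg'
  have hS := add y y' ⟨s, ha⟩ ⟨s', ha'⟩
  obtain ⟨b2, b5⟩ := hj _ hS (by rw [Pi.add_apply, e2, f4_self])
  obtain ⟨b3, b4⟩ := hi _ hS b2 (by rw [Pi.add_apply, e1, f4_self])
  have b5 := b5 b3 b4
  simp only [Pi.add_apply] at b2 b3 b4 b5
  exact ⟨by linear_combination b2 - y' 2 * t2, by linear_combination b3 - y' 3 * t2, by linear_combination b4 - y' 4 * t2,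
    by linear_combination b5 - y' 5 * t2, e3, a.trans a'.symm⟩

end Cy

end H16.GC
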