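import Cfsg.Agent.Lib.G24C.MA
import Cfsg.Agent.Lib.ASG.GL

/-! Commutators and centralisers in the Sylow 2-subgroup of `G₂(4)`. -/

set_option autoImplicit false

namespace H16.GC

open H30 H30.F4 H69 Subgroup Cfsg H79.AS

variable {G : Type*} [Group G] [Finite G]

namespace Cy

variable (X : Cy G)

theorem mc_nf {g : G} {y : V6} : X.MaNf g y 0 ↔ X.Qe g y := by
  rw [MaNf, X.x_zero]
  simp only [mul_one, Rt.Qe]
theorem mc_P {g : G} (h : g ∈ X.P) : ∃ y c, y 2 = 0 ∧ X.MaNf g y c := by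
  obtain ⟨y, s, c, a, e⟩ := X.mem_P.1 h
  exact ⟨y, c, a, s, e⟩
theorem mc_W {g : G} {y : V6} (h : X.Qe g y) (h2 : y 2 = 0) (h3 : y 3 = 0) (h4 : y 4 = 0) :
    g ∈ X.W := X.ma_W.2 ⟨y, ⟨h2, h3, h4⟩, X.mc_nf.2 h⟩
theorem mc_inv {g : G} {y : V6} (h : X.Qe g y) : X.Qe g⁻¹ y := by
  obtain ⟨s, rfl⟩ := h
  exact ⟨_, X.qv_inv y s⟩
theorem mc_x7 (c : F4) : X.MaNf (X.x 7 c) 0 c := ⟨0, by rw [X.qa_zero, X.vv_zero, one_mul, one_mul]⟩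
theorem mc_th {g : G} {y : V6} (h : X.Qe g y) : X.Qe (X.th * g * X.th⁻¹) (w • y) := by
  obtain ⟨s, rfl⟩ := h
  exact ⟨_, by rw [cj_mul, X.th_qa, X.th_vv]⟩
theorem mc_u10 {u : G} {y : V6} {c : F4} (h : X.MaNf u y c) (a : F4) :
    u * X.x 10 a * u⁻¹ = X.x 10 a * X.vv (y 2 * a) := by
  obtain ⟨s, rfl⟩ := h
  have := X.ma_conj y s ![0, 0, 0, 0, 0, a]
  rw [X.qa_10, show b4 y ![0, 0, 0, 0, 0, a] = y 2 * a by simp [b4]] at this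
  rw [← this, mul_assoc _ _ (X.x 10 a), X.a10]
  group
theorem mc_phi {f : G} (h : X.Phi f) : X.Phi f⁻¹ := fun r t => by
  have e : ∀ t : F4, t * t * (t * t) = t := by decide
  rw [← congrArg (X.x r) (e t), ← h]
  group
theorem mc_phiq {f g : G} (hf : X.Phi f) {y : V6} (h : X.Qe g y) : X.Qe (f * g * f⁻¹) (frob y) := by
  obtain ⟨s, rfl⟩ := h
  exact ⟨s * s, by rw [cj_mul, hf.qa, Rt.vv, hf, Rt.vv]⟩

theorem QA_comm {a b : G} (ha : a ∈ X.QA) (hb : b ∈ X.QA) : a * b * a⁻¹ * b⁻¹ ∈ X.V := by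
  obtain ⟨y, h⟩ := X.mem_QA.1 ha
  obtain ⟨u, k⟩ := X.mem_QA.1 hb
  exact (X.ma_V ((X.mc_nf.2 h).comm (X.mc_nf.2 k))).2 (by simp)
theorem QA_sq {a : G} (ha : a ∈ X.QA) : a * a ∈ X.V := by
  obtain ⟨y, s, rfl⟩ := X.mem_QA.1 ha
  rw [X.qv_mul, add_self6, X.qa_zero, one_mul]
  exact X.vv_mem _
theorem P_comm {a b : G} (ha : a ∈ X.P) (hb : b ∈ X.P) : a * b * a⁻¹ * b⁻¹ ∈ X.W := by
  obtain ⟨y, c, h2, h⟩ := X.mc_P ha
  obtain ⟨u, d, k2, k⟩ := X.mc_P hb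
  exact X.mc_W (h.comm k) rfl (by simp [h2, k2]) (by simp [h2, k2])
theorem P_sq {a : G} (ha : a ∈ X.P) : a * a ∈ X.W := by
  obtain ⟨y, c, h2, h⟩ := X.mc_P ha
  have := h.mul h
  rw [f4_self, X.mc_nf] at this
  refine X.mc_W this (f4_self _) (show y 3 + (y 3 + c * y 2) = 0 from ?_)
    (show y 4 + (y 4 + c * c * y 2) = 0 from ?_) <;> rw [h2, mul_zero, add_zero, f4_self]
theorem U_comm {a b : G} (ha : a ∈ X.U) (hb : b ∈ X.U) : a * b * a⁻¹ * b⁻¹ ∈ X.R0 := X.ma_comm ha hb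
theorem U_sq {a : G} (ha : a ∈ X.U) : a * a ∈ X.R0 := by
  obtain ⟨y, c, h⟩ := X.ma_nf ha
  have := h.mul h
  rw [f4_self, X.mc_nf] at this
  exact X.mem_R0.2 ⟨_, this.imp fun _ e => ⟨f4_self _, e⟩⟩
theorem U_W {u e : G} (hu : u ∈ X.U) (he : e ∈ X.W) : u * e * u⁻¹ * e⁻¹ ∈ X.V := X.ma_UW hu he
theorem P_W : X.P ≤ 𝐂(X.W) := fun b hb e he => by
  obtain ⟨y, c, h2, h⟩ := X.mc_P hb
  obtain ⟨a, s, rfl⟩ := X.mem_W.1 he
  symm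
  rw [← mul_inv_eq_iff_eq_mul, cj_mul, X.mc_u10 h, h2, zero_mul, X.vv_zero, mul_one,
    X.ma_cv (X.U_le_B h.mem)]
theorem W_sq {e : G} (he : e ∈ X.W) : e * e = 1 := by
  obtain ⟨a, s, rfl⟩ := X.mem_W.1 he
  rw [(X.x_v (by decide) a s).symm.mul_mul_mul_comm, X.x_sq, X.vv_sq, mul_one]
theorem P_x9 {b : G} (hb : b ∈ X.P) (h : b * X.x 9 1 * b⁻¹ * (X.x 9 1)⁻¹ ∈ X.V) : b ∈ X.R0 := by
  obtain ⟨y, c, h2, k⟩ := X.mc_P hb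
  have := ((X.ma_V (k.comm (X.mc_nf.2 (X.qe9 1)))).1 h).2.2.2
  obtain rfl : c = 0 := by simpa using this
  exact X.mem_R0.2 ⟨y, (X.mc_nf.1 k).imp fun _ e => ⟨h2, e⟩⟩
theorem x7_fix {q : G} (hq : q ∈ X.QA) (h : ∀ c, X.x 7 c * q * (X.x 7 c)⁻¹ * q⁻¹ ∈ X.V) :
    q ∈ X.W := by
  obtain ⟨y, k⟩ := X.mem_QA.1 hq
  have a := fun c => (X.ma_V ((X.mc_x7 c).comm (X.mc_nf.2 k))).1 (h c)
  have e : ∀ a b c : F4, 1 * a + 0 * 0 = 0 →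
      1 * 1 * b + 1 * c + 1 * 1 * 1 * a + (0 * 0 * 0 + 0 * 0 + 0 * 0 * 0 * 0) = 0 →
      w * w * b + w * c + w * w * w * a + (0 * 0 * 0 + 0 * 0 + 0 * 0 * 0 * 0) = 0 →
      a = 0 ∧ b = 0 ∧ c = 0 := by decide
  obtain ⟨h2, h3, h4⟩ := e _ _ _ (a 1).2.1 (a 1).2.2.2 (a w).2.2.2
  exact X.mc_W k h2 h3 h4
theorem cent_P {b : G} (hb : b ∈ X.P) (h : b ∈ 𝐂(X.P)) : b ∈ X.W :=
  X.x7_fix (X.R0_le_QA (X.P_x9 hb (by
    rw [← h _ (X.x_P (by decide) 1), mul_inv_cancel_right, mul_inv_cancel]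
    exact one_mem _))) fun c => by
    rw [h _ (X.x_P le_rfl c), mul_inv_cancel_right, mul_inv_cancel]
    exact one_mem _
theorem cent_W {u : G} (hu : u ∈ X.U) (h : u * X.x 10 1 = X.x 10 1 * u) : u ∈ X.P := by
  obtain ⟨y, c, k⟩ := X.ma_nf hu
  have := X.mc_u10 k 1
  rw [h, mul_inv_cancel_right, left_eq_mul, ← X.vv_zero, mul_one] at this
  exact X.mem_P.2 ⟨y, k.imp fun _ e => ⟨c, X.vv_inj this, e⟩⟩
theorem mem_U_of {b : G} (hb : b ∈ X.B) (h : ∀ c, b * X.x 7 c * b⁻¹ * (X.x 7 c)⁻¹ ∈ X.QA) :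
    b ∈ X.U := by
  obtain ⟨y, s, l, hl, rfl⟩ := (X.p1.mem_B b).1 hb
  obtain ⟨a, k, hk, e⟩ := X.gl_nf hl
  have u0 : X.qa y * X.vv s * X.x 7 a ∈ X.U := X.mem_U.2 ⟨_, _, _, rfl⟩
  have h1 := h 1
  rcases e with rfl | ⟨d, rfl⟩
  · obtain ⟨i, rfl⟩ := X.gl_H hk
    have e : ∀ n : ℕ, X.ha ^ n * X.x 7 1 * (X.ha ^ n)⁻¹ = X.x 7 (v ^ n) := fun n => by
      induction n with
      | zero => simp
      | succ n ih => rw [pow_succ' v, ← show _ = X.x 7 (v * v ^ n) from X.ha_x 7 _, ← ih]; group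
    have h2 := mul_mem (inv_mem (X.R0_le_QA (X.U_comm u0 (X.x_U (r := 7) (by decide) (v ^ (i : ℕ)))))) h1
    have h3 : v ^ (i : ℕ) + 1 = 0 := X.x7_QA (by
      convert h2 using 1
      calc _ = X.x 7 (v ^ (i : ℕ)) * (X.x 7 1)⁻¹ := by rw [X.x_inv, X.x_add]
        _ = _ := by rw [← e]; group)
    obtain rfl : i = 0 := by revert h3; fin_cases i <;> decide
    simpa [← mul_assoc] using u0
  · have hn : k ∈ 𝐍(X.U) := zpowers_le.2 (X.ma_nUr fun r t a => X.ha_x r t ▸ X.x_U a _) hk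
    have x7 := fun c => X.x_U (r := 7) (by decide) c
    have h4 : X.x 4 1 ∈ X.U := (mem_normalizer_iff.1 hn _).2 (by
      convert mul_mem (mul_mem (inv_mem u0) (mul_mem (X.QA_le_U h1) (x7 1))) u0 using 1
      rw [← show _ = X.x 4 1 from X.na_x 7 1]
      nth_rw 1 [← mul_inv_eq_iff_eq_mul.2 (X.x_comm 7 d 1)]
      group)
    have h5 := (mem_normalizer_iff.1 (X.U_nW (X.na_eq ▸ mul_mem (mul_mem (x7 1) h4) (x7 1))) _).1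
      (X.x_W le_rfl 1)
    rw [show _ = X.x 6 1 from X.na_x 10 1] at h5
    obtain ⟨u, ⟨h6, -⟩, h7⟩ := X.ma_W.1 h5
    exact absurd ((h7.uq (X.mc_nf.2 (X.qe6 1))).1.symm.trans h6) (by decide)
theorem mem_QA_of {b : G} (hb : b ∈ X.B) (h : ∀ q ∈ X.QA, b * q * b⁻¹ * q⁻¹ ∈ X.V) :
    b ∈ X.QA := by
  obtain ⟨y, s, l, hl, rfl⟩ := (X.p1.mem_B b).1 hb
  have q0 := X.ma_qv y s
  generalize X.qa y * X.vv s = q at *
  rw [X.p1.L_faith l hl fun t => ?_, mul_one]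
  · exact q0
  obtain ⟨a, e⟩ := X.mem_V.1 (h _ (X.qa_mem t))
  obtain ⟨c, e'⟩ := X.mem_V.1 (X.QA_comm (inv_mem q0) (X.qa_mem t))
  refine ⟨a + c, ?_⟩
  rw [X.qa_v, ← X.vv_add, ← X.ma_cv (inv_mem (X.QA_le_B q0)) a, ← e, ← e']
  group
theorem R0_ha {r : G} (hr : r ∈ X.R0) :
    ∃ q ∈ X.QA, ∃ e ∈ X.W, r = q⁻¹ * (X.ha * q * X.ha⁻¹) * e := by
  obtain ⟨y, s, h2, k⟩ := X.mem_R0.1 hr
  have q : ∀ u, X.Qe (X.qa u) u := fun u => ⟨0, by rw [X.vv_zero, mul_one]⟩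
  refine ⟨X.qa ![0, 0, 0, v * y 3, w * y 4, 0], X.qa_mem _, _, ?_, (mul_inv_cancel_left _ _).symm⟩
  rw [X.ha_qa]
  have e : ∀ a : F4, v * a + v * (v * a) + a = 0 ∧ w * a + w * (w * a) + a = 0 := by decide
  exact X.mc_W ((X.mc_inv ((X.mc_inv (q _)).mul (q _))).mul ⟨s, k⟩)
    (show 0 + 0 + y 2 = 0 by simp [h2]) (e _).1 (e _).2
theorem th_q {q : G} (hq : q ∈ X.QA) :
    q * (X.th * q * X.th⁻¹) * (X.th * X.th * q * (X.th * X.th)⁻¹) ∈ X.V := by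
  obtain ⟨y, k⟩ := X.mem_QA.1 hq
  have e : ∀ a : F4, a + w * a + w * (w * a) = 0 := by decide
  rw [show X.th * X.th * q * (X.th * X.th)⁻¹ = X.th * (X.th * q * X.th⁻¹) * X.th⁻¹ by group]
  exact (X.ma_V ((Rt.Qe.mul k (X.mc_th k)).mul (X.mc_th (X.mc_th k)))).2 ⟨e _, e _, e _, e _⟩
theorem th_fix {q : G} (hq : q ∈ X.QA) (h : X.th * q * X.th⁻¹ * q⁻¹ ∈ X.V) : q ∈ X.V := by
  obtain ⟨y, k⟩ := X.mem_QA.1 hq
  have e : ∀ a : F4, w * a + a = 0 → a = 0 := by decide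
  obtain ⟨a, b, c, d⟩ := (X.ma_V ((X.mc_th k).mul (X.mc_inv k))).1 h
  exact (X.ma_V k).2 ⟨e _ a, e _ b, e _ c, e _ d⟩
/-- every element of `V` is a commutator of `e` with an element of `Q_A` -/
theorem W_cls {e : G} (he : e ∈ X.W) (h : e ∉ X.V) (s : F4) :
    ∃ q ∈ X.QA, q * e * q⁻¹ = e * X.vv s := by
  obtain ⟨a, t, rfl⟩ := X.mem_W.1 he
  have ha : a ≠ 0 := by
    rintro rfl
    exact h (by rw [X.x_zero, one_mul]; exact X.vv_mem t)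
  refine ⟨X.x 6 (s * a⁻¹), X.qa_6 0 0 _ ▸ X.qa_mem _, ?_⟩
  rw [cj_mul, X.x6_x10, X.ma_cv (X.x_B (by decide) _), inv_mul_cancel_right₀ ha, mul_assoc,
    X.vv_comm, mul_assoc]
theorem phi_V {f : G} (hf : X.Phi f) {e : G} (he : e ∈ X.V) (h : e * f = f * e) :
    ∃ y ∈ X.V, y * f * y⁻¹ = f * e := by
  obtain ⟨s, rfl⟩ := X.mem_V.1 he
  have e : ∀ s : F4, s * s = s → s = w * s * (w * s) + w * s := by decide
  refine ⟨_, X.vv_mem (w * s), ?_⟩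
  rw [congrArg X.vv (e s (X.vv_inj ((hf 11 s).symm.trans (mul_inv_eq_iff_eq_mul.2 h.symm)))),
    ← X.vv_add, ← show _ = X.vv (w * s * (w * s)) from X.mc_phi hf 11 _, X.vv_inv, Rt.vv]
  group
theorem phi_QA {f : G} (hf : X.Phi f) {q x : G} (hq : q ∈ X.QA) (hx : x ∈ X.V)
    (h : q * f * q⁻¹ = f * x) : On f X.QA X.V q := by
  obtain ⟨y, k⟩ := X.mem_QA.1 hq
  have e : ∀ s : F4, s * s + s = 0 → s + (w * s * (w * s) + w * s) = 0 := by decide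
  obtain ⟨a, b, c, d⟩ := (X.ma_V ((X.mc_phiq (X.mc_phi hf) k).mul (X.mc_inv k))).1 (by
    rwa [show f⁻¹ * q * f⁻¹⁻¹ * q⁻¹ = f⁻¹ * (q * f * q⁻¹) by group, h, inv_mul_cancel_left])
  have q' : X.Qe (X.qa (w • y)) (w • y) := ⟨0, by rw [X.vv_zero, mul_one]⟩
  exact ⟨_, X.qa_mem (w • y), _, (X.ma_V ((X.mc_inv k).mul ((X.mc_phiq (X.mc_phi hf) q').mul
    (X.mc_inv q')))).2 ⟨e _ a, e _ b, e _ c, e _ d⟩, by group⟩
theorem phi_U {f : G} (hf : X.Phi f) {u x : G} (hu : u ∈ X.U) (hx : x ∈ X.QA)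
    (h : u * f * u⁻¹ = f * x) : On f X.U X.QA u := by
  obtain ⟨y, s, c, rfl⟩ := X.mem_U.1 hu
  have q0 := X.ma_qv y s
  generalize X.qa y * X.vv s = q at *
  have e : ∀ s : F4, s * s + s = 0 → s = w * s * (w * s) + w * s := by decide
  have h1 := e c (X.x7_QA (by
    convert mul_mem (mul_mem (inv_mem ((mem_normalizer_iff.1 (X.Phi_QA (X.mc_phi hf)) _).1 q0)) hx)
      q0 using 1
    calc _ = X.x 7 (c * c) * (X.x 7 c)⁻¹ := by rw [X.x_inv, X.x_add]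
      _ = _ := by rw [← inv_mul_eq_iff_eq_mul.2 h, ← X.mc_phi hf]; group))
  refine ⟨X.x 7 (w * c), X.x_U (by decide) _, _,
    (mem_normalizer_iff.1 (inv_mem (X.L_norm (X.x7_mem c))) _).1 (inv_mem q0), ?_⟩
  calc _ = f * (f⁻¹ * X.x 7 (w * c) * f⁻¹⁻¹ * (X.x 7 (w * c))⁻¹) := by group
    _ = _ := by rw [X.mc_phi hf, X.x_inv, ← X.x_add, ← h1]; group

end Cy

end H16.GC
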