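import Cfsg.Agent.Lib.G24C.MB
import Cfsg.Agent.Lib.Inv73.ZStar

/-! The opening: `t` is conjugate to `t z`. -/

set_option autoImplicit false

namespace H16.GC

open H30 H30.F4 H69 Subgroup Cfsg H79.AS

variable {G : Type*} [Group G] [Finite G]

namespace Cy

variable (X : Cy G)

theorem oa_kap {g : G} (hg : g ∈ 𝐂(X.A) ⊔ X.A) (h2 : g * g = 1) (ht : g * X.t = X.t * g) :
    g ∈ X.A ∨ X.t * g ∈ X.A := by
  obtain ⟨k, hk, a, ha, rfl⟩ := X.mem_KA.1 hg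
  have k2 : k * k = 1 := sq k ▸ (X.pr_pow hk ha (n := 2) (by rw [sq, h2])).1
  have kt := (X.pr_comm hk ha X.t_K (one_mem _) (by rw [mul_one, ht])).1
  rcases X.r1 k hk k2 kt with rfl | rfl
  · exact Or.inl (by rwa [one_mul])
  · exact Or.inr (by rwa [← mul_assoc, X.t_sq, one_mul])

theorem oa_KA {n g : G} (hn : n ∈ 𝐍(X.A)) (hg : g ∈ 𝐂(X.A) ⊔ X.A) : n * g * n⁻¹ ∈ 𝐂(X.A) ⊔ X.A := by
  obtain ⟨k, hk, a, ha, rfl⟩ := X.mem_KA.1 hg
  rw [cj_mul]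
  exact mul_mem (mem_sup_left (X.KN hn hk)) (mem_sup_right ((mem_normalizer_iff.1 hn a).1 ha))

theorem a4 {y d : G} (hy : y * y = 1) (yt : y * X.t = X.t * y) (dt : d * X.t = X.t * d)
    (h : y * (d * y * d⁻¹) * (d * d * y * (d * d)⁻¹) = 1) : y ∈ X.A := by
  have yN := X.ct_N yt
  have dN := X.ct_N dt
  have hK : y ∈ 𝐂(X.A) ⊔ X.A := by
    by_contra hK
    have back : ∀ n ∈ 𝐍(X.A), n * y * n⁻¹ ∉ 𝐂(X.A) ⊔ X.A := fun n hn c => hK (by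
      have := X.oa_KA (inv_mem hn) c
      rwa [show n⁻¹ * (n * y * n⁻¹) * n⁻¹⁻¹ = y by group] at this)
    have := X.mul_KA yN (mul_mem (mul_mem dN yN) (inv_mem dN)) hK (back d dN)
    rw [eq_inv_of_mul_eq_one_left h] at this
    exact back _ (mul_mem dN dN) (inv_mem_iff.1 this)
  refine (X.oa_kap hK hy yt).resolve_right fun ha => X.t_not_A ?_
  have cj : ∀ n : G, n * X.t = X.t * n → X.t * (n * y * n⁻¹) ∈ X.A := fun n hn => by
    have := (mem_normalizer_iff.1 (X.ct_N hn) _).1 ha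
    rwa [← mul_assoc, hn, mul_assoc, mul_assoc, ← mul_assoc n] at this
  have h1 := cj d dt
  have h2 := cj (d * d) (by rw [mul_assoc, dt, ← mul_assoc, dt, mul_assoc])
  have := mul_mem (mul_mem ha h1) h2
  have e1 := X.t_A h1
  rwa [show X.t * y * (X.t * (d * y * d⁻¹)) * (X.t * (d * d * y * (d * d)⁻¹)) =
    X.t * y * (X.t * (d * y * d⁻¹) * X.t) * (d * d * y * (d * d)⁻¹) by simp only [mul_assoc], e1, ← mul_assoc X.t X.t,
    X.t_sq, one_mul, mul_assoc X.t, mul_assoc X.t, h, mul_one] at this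

omit [Finite G] in
theorem oa_back {g b : G} (h : b * (g * X.t * g⁻¹) = g * X.t * g⁻¹ * b) : g⁻¹ * b * g * X.t = X.t * (g⁻¹ * b * g) := by
  calc g⁻¹ * b * g * X.t = g⁻¹ * (b * (g * X.t * g⁻¹)) * g := by group
    _ = _ := by rw [h]; group

omit [Finite G] in
theorem oa_pow (g b : G) (n : ℕ) : (g⁻¹ * b * g) ^ n = g⁻¹ * b ^ n * g := by
  have := conj_pow (i := n) (a := g⁻¹) (b := b)
  rwa [inv_inv] at this

theorem B_le {g : G} (h : ∀ b ∈ X.B, b * (g * X.t * g⁻¹) = g * X.t * g⁻¹ * b) : X.B ≤ X.A ^ᶜ g := by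
  have bK : X.B ≤ (𝐂(X.A) ⊔ X.A) ^ᶜ g := X.p1.B_five.le.trans (F5_le fun b hb h5 =>
    mem_cj.2 (X.five_KA (X.ct_N (X.oa_back (h b hb))) (by rw [oa_pow, h5]; group)))
  have hx : ∀ r s, r = 4 ∨ 6 ≤ r → X.x r s ∈ (X.A ⊔ zpowers X.t) ^ᶜ g := fun r s hr => by
    have hb := X.x_B hr s
    rcases X.oa_kap (mem_cj.1 (bK hb)) (by rw [← sq, oa_pow, sq, X.x_sq]; group) (X.oa_back (h _ hb)) with c | c
    · exact mem_cj.2 (mem_sup_left c)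
    · exact mem_cj.2 ((mul_mem_cancel_left (mem_sup_right (mem_zpowers X.t))).1 (mem_sup_left c))
  have hJ : X.B ≤ (X.A ⊔ zpowers X.t) ^ᶜ g := by
    refine sup_le (fun q hq => ?_) ((closure_le _).2 ?_)
    · obtain ⟨y, s, rfl⟩ := X.mem_QA.1 hq
      exact mul_mem (mul_mem (mul_mem (mul_mem (hx 6 _ (by decide)) (hx 8 _ (by decide))) (hx 9 _ (by decide)))
        (hx 10 _ (by decide))) (hx 11 _ (by decide))
    · rintro _ ⟨s, rfl | rfl⟩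
      exacts [hx 7 _ (by decide), hx 4 _ (by decide)]
  refine X.p1.B_five.le.trans (F5_le fun b hb h5 => mem_cj.2 ?_)
  have h1 := mem_cj.1 (hJ hb)
  rw [← SetLike.mem_coe, coe_mul_of_right_le_normalizer_left _ _ (zpowers_le.2 (X.ct_N rfl))] at h1
  obtain ⟨a, ha, u, hu, e⟩ := h1
  obtain ⟨k, rfl⟩ := mem_zpowers_iff.1 hu
  have c : Commute a X.t := X.t_A ha
  have e2 : (g⁻¹ * b * g) ^ 2 = a ^ 2 := by
    rw [← e, (c.zpow_right k).mul_pow, ← zpow_natCast (X.t ^ k), ← zpow_mul, mul_comm k, zpow_mul, zpow_natCast, sq X.t,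
      X.t_sq, one_zpow, mul_one]
  have e3 : g⁻¹ * b * g = (a ^ 2) ^ 3 := by
    rw [← e2, ← pow_mul, show 2 * 3 = 5 + 1 from rfl, pow_succ, oa_pow, h5]; group
  exact e3 ▸ pow_mem (pow_mem ha 2) 3

theorem notD : ¬ X.Dt X.z := by
  rintro ⟨g, e⟩
  have := mem_cj.1 (X.B_le (g := g) (fun b hb => e ▸ X.mem_CV.1 (X.B_le_CV hb) 1) (X.V_le_B (X.vv_mem 1)))
  rw [← X.z_eq, e, show g⁻¹ * (g * X.t * g⁻¹) * g = X.t by group] at this
  exact X.t_not_A this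

theorem oa_a4 {g s y d : G} (hs : s = g * X.t * g⁻¹) (hy : y * y = 1) (yt : y * s = s * y) (dt : d * s = s * d)
    (h : y * (d * y * d⁻¹) * (d * d * y * (d * d)⁻¹) = 1) : g⁻¹ * y * g ∈ X.A := by
  subst hs
  refine X.a4 (d := g⁻¹ * d * g) (by rw [← sq, oa_pow, sq, hy]; group) (X.oa_back yt) (X.oa_back dt) ?_
  calc _ = g⁻¹ * (y * (d * y * d⁻¹) * (d * d * y * (d * d)⁻¹)) * g := by group
    _ = 1 := by rw [h]; group

theorem oa_star {g s q : G} (hs : s = g * X.t * g⁻¹) (h1 : g⁻¹ * X.x 6 1 * g ∈ X.A) (h2 : g⁻¹ * X.x 10 1 * g ∈ X.A)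
    (hq : q * s * q⁻¹ = s * X.z) : ∃ g, g * X.t * g⁻¹ = X.t * X.z := by
  have e : g⁻¹ * X.x 6 1 * g * (g⁻¹ * X.x 10 1 * g) * (g⁻¹ * X.x 6 1 * g * (g⁻¹ * X.x 10 1 * g)) = g⁻¹ * X.z * g := by
    rw [X.z_eq, ← mul_one (1 : F4), ← X.x6_x10_sq]; simp only [mul_assoc, mul_inv_cancel_left, mul_one]
  obtain ⟨c, hc, ec⟩ := X.sq_long (mul_mem h1 h2) (by rw [e, ← sq, oa_pow, sq, X.z_sq]; group) (by
    rw [e]
    intro c
    exact X.z_ne (by rw [show X.z = g * (g⁻¹ * X.z * g) * g⁻¹ by group, c]; group))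
  rw [e] at ec
  refine ⟨c * g⁻¹ * q * g, ?_⟩
  calc c * g⁻¹ * q * g * X.t * (c * g⁻¹ * q * g)⁻¹ = c * g⁻¹ * (q * (g * X.t * g⁻¹) * q⁻¹) * g * c⁻¹ := by group
    _ = c * X.t * (g⁻¹ * X.z * g) * c⁻¹ := by rw [← hs, hq, hs]; group
    _ = X.t * (c * (g⁻¹ * X.z * g) * c⁻¹) := by rw [X.t_A hc]; group
    _ = _ := by rw [ec]

theorem oa_short {g κ : G} (hκ : κ ∈ 𝐂(X.A)) (hs : κ * X.x 9 1 = g * X.t * g⁻¹) : ∃ g, g * X.t * g⁻¹ = X.t * X.z := by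
  have cm : ∀ a ∈ X.A, a * X.x 9 1 = X.x 9 1 * a → a * (κ * X.x 9 1) = κ * X.x 9 1 * a := fun a ha h => by
    rw [← mul_assoc, hκ a ha, mul_assoc, h, mul_assoc]
  have act : ∀ r s, X.th * X.ha * X.ha * X.x r s * (X.th * X.ha * X.ha)⁻¹ = X.x r (![w, v, v, v, 1, v, w, 1, w, w, w, v] r *
      (![1, 1, v, w, w, 1, 1, v, v, w, 1, 1] r * (![1, 1, v, w, w, 1, 1, v, v, w, 1, 1] r * s))) := fun r s => by
    rw [← X.th_x, ← X.ha_x, ← X.ha_x]; simp only [mul_inv_rev, mul_assoc]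
  have dA : X.th * X.ha * X.ha ∈ X.A := mul_mem (mul_mem X.th_mem (X.L_le_A X.ha_mem)) (X.L_le_A X.ha_mem)
  set d := X.th * X.ha * X.ha
  have ds := cm d dA (mul_inv_eq_iff_eq_mul.1 (act 9 1))
  have one : ∀ r, (∀ s, d * X.x r s * d⁻¹ = X.x r (w * s)) → X.x r 1 * X.x 9 1 = X.x 9 1 * X.x r 1 →
      g⁻¹ * X.x r 1 * g ∈ X.A := fun r hr hc => X.oa_a4 hs (X.x_sq r 1) (cm _ (X.x_mem r 1) hc) ds (by
    rw [show d * d * X.x r 1 * (d * d)⁻¹ = d * (d * X.x r 1 * d⁻¹) * d⁻¹ by group, hr, hr, ← X.x_add, ← X.x_add]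
    exact X.x_zero r)
  refine X.oa_star (q := X.x 8 1) hs (one 6 (fun s => (act 6 s).trans (by simp)) (X.x6_x9 1 1))
    (one 10 (fun s => (act 10 s).trans (by simp)) ?_) ?_
  · have := X.qa_comm ![0, 0, 0, 0, 0, 1] ![0, 0, 0, 0, 1, 0]
    rwa [X.qa_10, X.qa_9, show b4 ![0, 0, 0, 0, 0, 1] ![0, 0, 0, 0, 1, 0] = 0 by decide, X.vv_zero, mul_one] at this
  · have := X.qa_conj ![0, 0, 0, 1, 0, 0] ![0, 0, 0, 0, 1, 0]
    rw [X.qa_8, X.qa_9, show b4 ![0, 0, 0, 1, 0, 0] ![0, 0, 0, 0, 1, 0] = 1 by decide] at this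
    rw [← mul_assoc, hκ _ (X.x_mem 8 1), mul_assoc κ, mul_assoc κ, this, mul_assoc]; rfl

theorem oa_phi {g s : G} (hs : s = g * X.t * g⁻¹) (h : X.Phi s) : ∃ g, g * X.t * g⁻¹ = X.t * X.z := by
  have s2 : s * s = 1 := Dt.sq ⟨g, hs⟩
  have cx : ∀ r, X.x r 1 * s = s * X.x r 1 := fun r => by
    have := h r 1
    rw [mul_one] at this
    exact (mul_inv_eq_iff_eq_mul.1 this).symm
  have ds : X.x 6 1 * X.nb * s = s * (X.x 6 1 * X.nb) := by rw [mul_assoc, ← X.Phi_nb h, ← mul_assoc, cx, mul_assoc]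
  set d := X.x 6 1 * X.nb with hd
  have e1 : d * X.x 10 1 * d⁻¹ = X.vv 1 := by
    have h1 : X.nb * X.x 10 1 * X.nb⁻¹ = X.vv 1 := X.nb_x 10 1
    calc d * X.x 10 1 * d⁻¹ = X.x 6 1 * (X.nb * X.x 10 1 * X.nb⁻¹) * (X.x 6 1)⁻¹ := by
          simp only [hd, mul_inv_rev, mul_assoc]
      _ = _ := by rw [h1, (X.x_v (r := 6) (by decide) 1 1).eq, mul_inv_cancel_right]
  have e2 : d * X.vv 1 * d⁻¹ = X.x 10 1 * X.vv 1 := by
    have h1 : X.nb * X.vv 1 * X.nb⁻¹ = X.x 10 1 := X.nb_x 11 1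
    calc d * X.vv 1 * d⁻¹ = X.x 6 1 * (X.nb * X.vv 1 * X.nb⁻¹) * (X.x 6 1)⁻¹ := by
          simp only [hd, mul_inv_rev, mul_assoc]
      _ = _ := by rw [h1, X.x6_x10, mul_one]
  have rel : X.x 10 1 * (d * X.x 10 1 * d⁻¹) * (d * d * X.x 10 1 * (d * d)⁻¹) = 1 := by
    rw [show d * d * X.x 10 1 * (d * d)⁻¹ = d * (d * X.x 10 1 * d⁻¹) * d⁻¹ by group, e1, e2, ← sq,
      (X.x_v (r := 10) (by decide) 1 1).mul_pow, sq, sq, X.x_sq, X.vv_sq, one_mul]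
  have e3 : X.na * X.x 10 1 * X.na⁻¹ = X.x 6 1 := X.na_x 10 1
  refine X.oa_star (q := X.vv w) hs (X.oa_a4 (d := X.na * d * X.na⁻¹) hs (X.x_sq 6 1) (cx 6) ?_ ?_)
    (X.oa_a4 hs (X.x_sq 10 1) (cx 10) ds rel) ?_
  · have c1 : Commute X.na s := (X.Phi_na h).symm
    exact ((c1.mul_left ds).mul_left c1.inv_left).eq
  · rw [← e3]
    calc _ = X.na * (X.x 10 1 * (d * X.x 10 1 * d⁻¹) * (d * d * X.x 10 1 * (d * d)⁻¹)) * X.na⁻¹ := by group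
      _ = 1 := by rw [rel]; group
  · have h1 : s * X.vv w * s⁻¹ = X.vv (w * w) := h 11 w
    rw [inv_eq_of_mul_eq_one_right s2] at h1
    calc X.vv w * s * (X.vv w)⁻¹ = s * s * (X.vv w * s * X.vv w) := by rw [s2, one_mul, X.vv_inv]
      _ = s * (s * X.vv w * s * X.vv w) := by simp only [mul_assoc]
      _ = _ := by rw [h1, X.vv_add]; rfl

theorem exists_tz [IsSimpleGroup G] (hG : ¬ IsMulCommutative G) :
    ∃ g, g * X.t * g⁻¹ = X.t * X.z := by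
  haveI : Fact (Nat.Prime 2) := ⟨Nat.prime_two⟩
  have o2 : orderOf X.t = 2 := orderOf_eq_prime (by rw [sq, X.t_sq]) X.t_ne
  obtain ⟨g, hc, hne⟩ : ∃ g : G, Commute (g * X.t * g⁻¹) X.t ∧ g * X.t * g⁻¹ ≠ X.t := by
    by_contra hh
    push Not at hh
    have h1 := H73.centralizer_sup_oddCore_eq_top' o2 hh
    rcases (inferInstance : (oddCore G).Normal).eq_bot_or_eq_top with h | h
    · rw [h, sup_bot_eq] at h1
      have hz : X.t ∈ center G := mem_center_iff.2 fun g => mem_centralizer_singleton_iff.1 (h1 ▸ mem_top g)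
      rcases (inferInstance : (center G).Normal).eq_bot_or_eq_top with h | h
      · exact X.t_ne (mem_bot.1 (h ▸ hz))
      · exact hG ⟨⟨fun a b => mem_center_iff.1 (h ▸ mem_top b) a⟩⟩
    · have h2 : (Nat.card (oddCore G)).Coprime 2 := H1.coprime_card_pPrimeCore
      have h3 := orderOf_dvd_natCard (⟨X.t, h ▸ mem_top _⟩ : oddCore G)
      rw [← orderOf_coe, o2] at h3
      exact absurd (Nat.Coprime.eq_one_of_dvd h2.symm h3) (by norm_num)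
  have hd : X.Dt (g * X.t * g⁻¹) := ⟨g, rfl⟩
  rcases X.p3.aut2 _ (X.ct_N hc.eq) (hd.sq ▸ one_mem _) with ⟨a, ha, hk⟩ | ⟨a, ha, hp⟩
  swap
  · exact X.oa_phi (g := a * g) (by group) hp
  have hKA : g * X.t * g⁻¹ ∈ 𝐂(X.A) ⊔ X.A := (mul_mem_cancel_left (mem_sup_right ha)).1 (mem_sup_left hk)
  obtain ⟨κ, hκ, b, hb, e⟩ : ∃ κ, (κ = 1 ∨ κ = X.t) ∧ ∃ b ∈ X.A, g * X.t * g⁻¹ = κ * b := by
    rcases X.oa_kap hKA hd.sq hc.eq with h | h
    · exact ⟨1, Or.inl rfl, _, h, (one_mul _).symm⟩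
    · exact ⟨X.t, Or.inr rfl, _, h, by rw [← mul_assoc, X.t_sq, one_mul]⟩
  have κK : κ ∈ 𝐂(X.A) := by
    rcases hκ with rfl | rfl
    exacts [one_mem _, X.t_K]
  have b2 : b * b = 1 := sq b ▸ (X.pr_pow κK hb (n := 2) (by rw [← e, sq, hd.sq])).2
  have b1 : b ≠ 1 := by
    rintro rfl
    rw [mul_one] at e
    rcases hκ with h | h
    exacts [hd.ne (e.trans h), hne (e.trans h)]
  obtain ⟨c, hc', ec⟩ := X.p2.cls b hb b2 b1
  have e' : κ * (c * b * c⁻¹) = c * g * X.t * (c * g)⁻¹ := by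
    calc κ * (c * b * c⁻¹) = c * (κ * b) * c⁻¹ := by rw [← mul_assoc, ← mul_assoc, ← κK c hc', mul_assoc c]
      _ = _ := by rw [← e]; group
  rcases ec with ec | ec <;> rw [ec] at e'
  · rcases hκ with rfl | rfl
    · exact absurd ⟨c * g, by rw [← e', one_mul]⟩ X.notD
    · exact ⟨c * g, e'.symm⟩
  · exact X.oa_short κK e'

end Cy

end H16.GC
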