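import Cfsg.Agent.Lib.G24C.OA

/-! The centraliser of `t` and the element `n`. -/

set_option autoImplicit false
set_option linter.unusedSectionVars false

namespace H16.GC

open H30 H30.F4 H69 Subgroup Cfsg H79.AS
open scoped commutatorElement

variable {G : Type*} [Group G] [Finite G]

namespace OB

theorem cm {g a b : G} (h : a * b = b * a) : g⁻¹ * a * g * (g⁻¹ * b * g) = g⁻¹ * b * g * (g⁻¹ * a * g) := by
  calc _ = g⁻¹ * (a * b) * g := by group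
    _ = _ := by rw [h]; group

theorem cm' {g a b : G} (h : a * b = b * a) : g * a * g⁻¹ * (g * b * g⁻¹) = g * b * g⁻¹ * (g * a * g⁻¹) := by
  rw [conj_mul, conj_mul, h]

variable (X : Cy G) {g : G}

theorem Bz {b : G} (hb : b ∈ X.B) (s : F4) : b * X.vv s = X.vv s * b := X.mem_CV.1 (X.B_le_CV hb) s

theorem NV (hg : g ∈ 𝐍(X.B)) : g ∈ 𝐍(X.V) := mem_normalizer_of_cj_le fun y hy => by
  have m := cj_le_of_mem_normalizer X.V_le_B hg hy
  refine X.cent_B (X.B_le_A m) fun b hb => ?_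
  obtain ⟨u, hu, rfl⟩ := mem_cj'.1 hy
  have := cm' (g := g) (X.B_le_CV (conj_mem_of_mem_normalizer' hg hb) u hu)
  simpa [mul_assoc] using this.symm

theorem NQ (hg : g ∈ 𝐍(X.B)) : g ∈ 𝐍(X.QA) := mem_normalizer_of_cj_le
  (X.p1.B_core _ (cj_le_of_mem_normalizer X.QA_le_B hg) (by
    rw [← cj_normalizer, ← cj_eq_of_mem_normalizer hg]
    exact cj_mono g X.B_norm_QA) (isPGroup_cj X.isP_QA g))

theorem cq (s t : V6) (a b : F4) : ⁅X.qa s * X.vv a, X.qa t * X.vv b⁆ = X.vv (b4 s t) := by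
  have m : X.qa t * X.vv b ∈ X.B := mul_mem (X.QA_le_B (X.qa_mem t)) (X.V_le_B (X.vv_mem b))
  calc _ = X.qa s * (X.vv a * (X.qa t * X.vv b)) * (X.vv a)⁻¹ * (X.qa s)⁻¹ * (X.qa t * X.vv b)⁻¹ := by
        rw [commutatorElement_def]; group
    _ = X.qa s * X.qa t * (X.vv b * (X.qa s)⁻¹) * (X.qa t * X.vv b)⁻¹ := by rw [← Bz X m]; group
    _ = X.qa s * X.qa t * (X.qa s)⁻¹ * (X.qa t)⁻¹ := by
        rw [← Bz X (inv_mem (X.QA_le_B (X.qa_mem s)))]; group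
    _ = _ := by rw [X.qa_conj, X.qa_v, mul_inv_cancel_right]

theorem cqV {x y : G} (hx : x ∈ X.QA) (hy : y ∈ X.QA) : ∃ s, ⁅x, y⁆ = X.vv s := by
  obtain ⟨s, a, rfl⟩ := X.mem_QA.1 hx
  obtain ⟨t, b, rfl⟩ := X.mem_QA.1 hy
  exact ⟨_, cq X s t a b⟩

theorem key {η : G} {c c' : F4} (hη : η ∈ X.A) (cc : c' * c = 1) (h1 : ∀ s, η * X.vv s * η⁻¹ = X.vv (c * s))
    (h2 : ∀ t, η * X.qa t * η⁻¹ = X.qa (c' • t)) :
    η ∈ 𝐍(X.B) ∧ ∀ x ∈ X.QA, ∀ y ∈ X.QA, ⁅η * x * η⁻¹, y⁆ = η⁻¹ * ⁅x, y⁆ * η := by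
  refine ⟨mem_normalizer_of_cj_le fun y hy => ?_, fun x hx y hy => ?_⟩
  · obtain ⟨b, hb, rfl⟩ := mem_cj'.1 hy
    refine X.p2.cV _ (mul_mem (mul_mem hη (X.B_le_A hb)) (inv_mem hη)) (c * 1) (fun e => ?_) ?_
    · rw [mul_one] at e
      rw [e, mul_zero] at cc
      exact absurd cc (by decide)
    · rw [← h1]; exact cm' (Bz X hb 1)
  obtain ⟨s, a, rfl⟩ := X.mem_QA.1 hx
  obtain ⟨t, b, rfl⟩ := X.mem_QA.1 hy
  rw [← conj_mul, h1, h2, cq, cq, eq_comm, mul_assoc, inv_mul_eq_iff_eq_mul, ← eq_mul_inv_iff_mul_eq, h1]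
  congr 1
  simp only [b4, Pi.smul_apply, smul_eq_mul]
  linear_combination (-(s 2 * t 5 + s 5 * t 2 + (s 3 * t 4 + s 4 * t 3))) * cc

/-- the torus element of `A^g` -/
theorem theta (hg : g ∈ 𝐍(X.B)) : ∃ η ∈ X.A, η ∈ 𝐍(X.B) ∧
    (∀ s, g * η * g⁻¹ * X.vv s * (g * η * g⁻¹)⁻¹ = X.vv (v * s)) ∧
    ∀ x ∈ X.QA, ∀ y ∈ X.QA, ⁅η * x * η⁻¹, y⁆ = η⁻¹ * ⁅x, y⁆ * η := by
  choose φ hφ using fun s => X.mem_V.1 (conj_mem_of_mem_normalizer' (NV X hg) (X.vv_mem s))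
  have act : ∀ {η c}, (∀ s, η * X.vv s * η⁻¹ = X.vv (c * s)) → (∀ s, φ (v * s) = c * φ s) → ∀ s,
      g * η * g⁻¹ * X.vv s * (g * η * g⁻¹)⁻¹ = X.vv (v * s) := fun {η c} h1 h2 s => by
    calc _ = g * (η * (g⁻¹ * X.vv s * g) * η⁻¹) * g⁻¹ := by group
      _ = _ := by rw [hφ, h1, ← h2, ← hφ]; group
  rcases (by decide +kernel : ∀ φ : F4 → F4, (∀ a b, φ (a + b) = φ a + φ b) → (∀ a, φ a = 0 → a = 0) →
    (∀ s, φ (v * s) = v * φ s) ∨ ∀ s, φ (v * s) = w * φ s) φ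
    (fun a b => X.vv_inj (by rw [← X.vv_add, ← hφ, ← hφ, ← hφ, ← X.vv_add]; group))
    (fun a e => X.vv_inj (by
      have := hφ a
      rw [e, X.vv_zero] at this
      rw [X.vv_zero]
      simpa using (conj_eq_one_iff (a := g⁻¹) (b := X.vv a)).1 (by simpa using this))) with e | e
  · obtain ⟨k1, k2⟩ := key X X.th_mem (c := v) (c' := w) (by decide) X.th_vv X.th_qa
    exact ⟨_, X.th_mem, k1, act X.th_vv e, k2⟩
  · have h1 : ∀ s, X.th * X.th * X.vv s * (X.th * X.th)⁻¹ = X.vv (w * s) := fun s => by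
      rw [show w * s = v * (v * s) by revert s; decide, ← X.th_vv, ← X.th_vv]; group
    obtain ⟨k1, k2⟩ := key X (mul_mem X.th_mem X.th_mem) (c := w) (c' := v) (by decide) h1 fun t => by
      rw [show v • t = w • w • t by rw [smul_smul]; rfl, ← X.th_qa, ← X.th_qa]; group
    exact ⟨_, mul_mem X.th_mem X.th_mem, k1, act h1 e, k2⟩

/-- the elements which act trivially on `V` and on `Q_A / V` -/
def Tq : Subgroup G where
  carrier := {g | g ∈ 𝐂(X.V) ∧ ∀ y ∈ X.QA, y⁻¹ * (g * y * g⁻¹) ∈ X.V}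
  one_mem' := ⟨one_mem _, fun y _ => by simp⟩
  mul_mem' := by
    rintro g g' ⟨c, m⟩ ⟨c', m'⟩
    refine ⟨mul_mem c c', fun y hy => ?_⟩
    convert mul_mem (m y hy) (m' y hy) using 1
    conv_rhs => rw [← conj_eq_of_mem_centralizer c (m' y hy)]
    group
  inv_mem' := by
    rintro g ⟨c, m⟩
    refine ⟨inv_mem c, fun y hy => ?_⟩
    convert inv_mem (m y hy) using 1
    conv_rhs => rw [← conj_eq_of_mem_centralizer (inv_mem c) (m y hy)]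
    group

theorem eqns_OB : True := by
  have := @Tq.eq_1.{0}
  trivial

theorem nN (h : g * X.t * g⁻¹ = X.t * X.z) : g ∉ 𝐍(X.A) := fun m => by
  have h1 := X.KN m X.t_K
  rw [h] at h1
  exact X.z_ne (X.ak X.z_A (by simpa using mul_mem (inv_mem X.t_K) h1))

theorem BA (h : g * X.t * g⁻¹ = X.t * X.z) : X.B ≤ X.A ^ᶜ g := X.B_le fun b hb => by
  rw [h, ← mul_assoc, X.t_A (X.B_le_A hb), mul_assoc, X.z_eq, Bz X hb, mul_assoc]

/-- the conjugating element may be taken in `N(B)` -/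
theorem exists_g (h : g * X.t * g⁻¹ = X.t * X.z) : ∃ g, g * X.t * g⁻¹ = X.t * X.z ∧ g ∈ 𝐍(X.B) := by
  have zB : X.z ∈ X.B := X.V_le_B (X.vv_mem 1)
  have ha : g⁻¹ * X.z * g ∈ X.A := mem_cj.1 (BA X h zB)
  obtain ⟨c, hc, e⟩ := X.p2.cls _ ha (by
    rw [show g⁻¹ * X.z * g * (g⁻¹ * X.z * g) = g⁻¹ * (X.z * X.z) * g by group, X.z_sq]; group)
    (fun e => X.z_ne (by simpa using (conj_eq_one_iff (a := g⁻¹) (b := X.z)).1 (by simpa using e)))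
  have le : X.B ^ᶜ (c * g⁻¹) ≤ X.A ⊓ centralizer {c * (g⁻¹ * X.z * g) * c⁻¹} := by
    refine le_inf ?_ fun y hy => ?_
    · rw [← cj_cj]
      exact cj_le_of_mem (le_cj_iff.1 (BA X h)) hc
    · obtain ⟨b, hb, rfl⟩ := mem_cj'.1 hy
      rw [mem_centralizer_singleton_iff,
        show c * (g⁻¹ * X.z * g) * c⁻¹ = c * g⁻¹ * X.z * (c * g⁻¹)⁻¹ by group]
      exact cm' (Bz X hb 1)
  rcases e with e | e <;> rw [e] at le
  · rw [X.cent_z] at le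
    refine ⟨(c * g⁻¹)⁻¹, ?_, inv_mem (mem_normalizer_of_cj_le le)⟩
    rw [← h, show (c * g⁻¹)⁻¹ * X.t * (c * g⁻¹)⁻¹⁻¹ = g * (c⁻¹ * X.t) * c * g⁻¹ by group,
      X.t_A (inv_mem hc)]
    group
  · have := card_le_of_le le
    rw [card_cj, X.p1.card_B, X.p2.card_cS] at this
    omega

variable (h : g * X.t * g⁻¹ = X.t * X.z) (hg : g ∈ 𝐍(X.B))
include h hg

theorem lam {k : G} (hk : k ∈ 𝐂(X.A)) (hc : k * X.t = X.t * k) : ∃ s, k * X.vv s ∈ 𝐂(X.A) ^ᶜ g := by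
  have c : ∀ b ∈ X.B, b * (g⁻¹ * k * g) = g⁻¹ * k * g * b := fun b hb => by
    simpa [mul_assoc] using cm (g := g) (hk _ (X.B_le_A (conj_mem_of_mem_normalizer hg hb)))
  have c1 : k * (g * X.t * g⁻¹) = g * X.t * g⁻¹ * k := by
    rw [h, ← mul_assoc, hc, mul_assoc, ← hk _ X.z_A, mul_assoc]
  obtain ⟨κ, m1, b, m2, e⟩ := X.cV_KB (X.ct_N (g := g⁻¹ * k * g) (by
    simpa [mul_assoc] using cm (g := g) c1)) fun u hu => c u (X.V_le_B hu)
  have m3 := X.cent_B (X.B_le_A m2) fun b' hb => by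
    have := c b' hb
    rw [e, ← one_mul b'] at this
    exact (X.pr_comm (one_mem _) (X.B_le_A hb) m1 (X.B_le_A m2) this).2
  obtain ⟨s, hs⟩ := X.mem_V.1 (conj_mem_of_mem_normalizer (NV X hg) m3)
  refine ⟨s, mem_cj.2 ?_⟩
  rw [← X.vv_inv, ← hs, show g⁻¹ * (k * (g * b * g⁻¹)⁻¹) * g = g⁻¹ * k * g * b⁻¹ by group, e]
  simpa using m1

omit hg in
theorem vv_one {s : F4} (e : X.vv s ∈ 𝐂(X.A) ^ᶜ g) : X.vv s = 1 := by
  have := X.ak (mem_cj.1 (BA X h (X.V_le_B (X.vv_mem s)))) (mem_cj.1 e)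
  simpa using (conj_eq_one_iff (a := g⁻¹) (b := X.vv s)).1 (by simpa using this)

theorem cK {k : G} (hk : k ∈ 𝐂(X.A)) (hc : k * X.t = X.t * k) :
    k ∈ 𝐂(X.A) ^ᶜ g ∨ k * X.t ∈ 𝐂(X.A) ^ᶜ g := by
  obtain ⟨s, hs⟩ := lam X h hg hk hc
  have tz : X.t * X.z ∈ 𝐂(X.A) ^ᶜ g := h ▸ cj_mem g X.t_K
  have cv : Commute k (X.vv s) := (hk _ (X.vv_A s)).symm
  have k2 : k * k ∈ 𝐂(X.A) ⊓ 𝐂(X.A) ^ᶜ g := ⟨mul_mem hk hk, by
    have := mul_mem hs hs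
    rwa [X.pr_mul (X.vv_A s) hk, X.vv_sq, mul_one] at this⟩
  obtain ⟨m, hm⟩ := X.odd_inf (nN X h)
  have k3 := pow_card_one k2
  generalize Nat.card (𝐂(X.A) ⊓ 𝐂(X.A) ^ᶜ g : Subgroup G) = n at hm k3
  have k4 : k ^ n * X.vv s ∈ 𝐂(X.A) ^ᶜ g := by
    have := pow_mem hs n
    rwa [cv.mul_pow, show X.vv s ^ n = X.vv s by
      rw [hm, pow_succ, pow_mul, pow_two, X.vv_sq, one_pow, one_mul]] at this
  rcases X.r1 (k ^ n) (pow_mem hk n) (by rw [← (Commute.refl k).mul_pow, k3])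
    ((show Commute k X.t from hc).pow_left n) with e | e <;> rw [e] at k4
  · rw [one_mul] at k4
    rw [vv_one X h k4, mul_one] at hs
    exact .inl hs
  · have h1 := mul_mem (inv_mem tz) k4
    rw [show (X.t * X.z)⁻¹ * (X.t * X.vv s) = X.z⁻¹ * X.vv s by group, X.z_eq, X.vv_inv, X.vv_add] at h1
    have h2 := vv_one X h h1
    rw [← X.vv_add, ← X.vv_inv 1, inv_mul_eq_one] at h2
    have h3 := mul_mem hs (inv_mem tz)
    rw [← h2, X.z_eq, show k * X.vv 1 * (X.t * X.vv 1)⁻¹ = k * X.t⁻¹ by group, X.t_inv] at h3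
    exact .inr h3

end OB

open OB

theorem Cy.ca (X : Cy G) {g : G} (h : g * X.t * g⁻¹ = X.t * X.z) : Nonempty (Ca G) := by
  obtain ⟨g, h, hg⟩ := exists_g X h
  have tz : X.t * X.z ∈ 𝐂(X.A) ^ᶜ g := h ▸ cj_mem g X.t_K
  obtain ⟨η, ηA, ηB, ηv, ηq⟩ := theta X hg
  obtain ⟨thB, thq⟩ := key X X.th_mem (c := v) (c' := w) (by decide) X.th_vv X.th_qa
  have c1 : ∀ o ∈ 𝐂(X.A) ^ᶜ g, g * η * g⁻¹ * o * (g * η * g⁻¹)⁻¹ = o := fun o ho => by
    obtain ⟨o, ho', rfl⟩ := mem_cj'.1 ho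
    rw [cm' (ho' η ηA), mul_inv_cancel_right]
  have θB := mul_mem (mul_mem hg ηB) (inv_mem hg)
  have θq : ∀ x ∈ X.QA, ∀ y ∈ X.QA, ⁅g * η * g⁻¹ * x * (g * η * g⁻¹)⁻¹, y⁆ =
      (g * η * g⁻¹)⁻¹ * ⁅x, y⁆ * (g * η * g⁻¹) := fun x hx y hy => by
    have := congrArg (fun u => g * u * g⁻¹) (ηq _ (conj_mem_of_mem_normalizer' (NQ X hg) hx) _
      (conj_mem_of_mem_normalizer' (NQ X hg) hy))
    simp only [commutatorElement_def] at this ⊢
    convert this using 1 <;> group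
  generalize g * η * g⁻¹ = θ at ηv c1 θB θq
  have nv : ∀ s, θ * X.th⁻¹ * X.vv s = X.vv s * (θ * X.th⁻¹) := fun s => by
    rw [← mul_inv_eq_iff_eq_mul, show s = v * (w * s) by revert s; decide]
    conv_lhs => rw [← X.th_vv]
    rw [← ηv]; group
  have nV := X.mem_CV.2 nv
  have nT : θ * X.th⁻¹ ∈ Tq X := ⟨nV, fun y hy => by
    have hx := conj_mem_of_mem_normalizer' (NQ X thB) hy
    have m1 := conj_mem_of_mem_normalizer (NQ X θB) hx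
    rw [show θ * X.th⁻¹ * y * (θ * X.th⁻¹)⁻¹ = θ * (X.th⁻¹ * y * X.th) * θ⁻¹ by group]
    refine X.p1.B_cent _ (X.QA_le_B (mul_mem (inv_mem hy) m1)) fun u hu => ?_
    have k1 := θq _ hx u hu
    have k2 := thq _ hx u hu
    obtain ⟨s, hs⟩ := cqV X hx hu
    rw [hs, (by decide : ∀ s, s = v * (w * s)) s] at k1 k2
    rw [← ηv] at k1
    rw [← X.th_vv, show X.th * (X.th⁻¹ * y * X.th) * X.th⁻¹ = y by group] at k2
    have : ⁅θ * (X.th⁻¹ * y * X.th) * θ⁻¹, u⁆ = ⁅y, u⁆ := by rw [k1, k2]; group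
    generalize θ * (X.th⁻¹ * y * X.th) * θ⁻¹ = x at this
    rw [commutatorElement_def, commutatorElement_def, mul_left_inj] at this
    calc u * (y⁻¹ * x) = y⁻¹ * (y * u * y⁻¹) * x := by group
      _ = _ := by rw [← this]; group⟩
  have QT : X.QA ≤ Tq X := fun q hq => ⟨X.B_le_CV (X.QA_le_B hq), fun y hy => by
    obtain ⟨s, hs⟩ := cqV X (inv_mem hy) hq
    convert hs ▸ X.vv_mem s using 1
    rw [commutatorElement_def]; group⟩
  refine ⟨⟨⟨X, 𝐂(X.A) ⊓ 𝐂(X.A) ^ᶜ g ⊓ centralizer {X.t},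
    (X.odd_inf (nN X h)).of_dvd_nat (card_dvd_of_le inf_le_left), inf_le_left.trans inf_le_left,
    fun o ho => mem_centralizer_singleton_iff.1 ho.2, fun k hk c => ?_⟩, θ * X.th⁻¹,
    fun o ho => ?_, nv, ?_, fun t => ?_, fun l hl => ?_⟩⟩
  · refine (cK X h hg hk c).imp (fun e => ⟨⟨hk, e⟩, mem_centralizer_singleton_iff.2 c⟩) fun e =>
      ⟨⟨mul_mem hk X.t_K, e⟩, mem_centralizer_singleton_iff.2 ?_⟩
    rw [← mul_assoc, c]
  · rw [mul_assoc θ, ho.1.1 _ (inv_mem X.th_mem), ← mul_assoc θ,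
      mul_inv_eq_iff_eq_mul.1 (c1 o ho.1.2), mul_assoc]
  · calc _ = θ * (X.th⁻¹ * X.t) * X.th * θ⁻¹ := by group
      _ = θ * (X.t * X.vv 1) * θ⁻¹ * (θ * X.vv 1 * θ⁻¹) := by
          rw [X.t_A (inv_mem X.th_mem), conj_mul, mul_assoc X.t (X.vv 1), X.vv_sq]; group
      _ = _ := by
          rw [c1 (X.t * X.vv 1) tz, ηv, mul_assoc, X.vv_add, show (1 : F4) + v * 1 = w by decide]
  · obtain ⟨s, hs⟩ := X.mem_V.1 (nT.2 _ (X.qa_mem t))
    exact ⟨s, inv_mul_eq_iff_eq_mul.1 hs⟩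
  · have lB := X.L_le_B hl
    have nB := mul_mem θB (inv_mem thB)
    generalize θ * X.th⁻¹ = n at nT nB
    obtain ⟨t, s, l', hl', e⟩ := (X.p1.mem_B _).1 (mul_mem (inv_mem lB) (conj_mem_of_mem_normalizer nB lB))
    have q : X.qa t * X.vv s ∈ X.QA := X.mem_QA.2 ⟨t, s, rfl⟩
    have m1 : l⁻¹ * n * l ∈ Tq X := ⟨mul_mem (mul_mem (inv_mem (X.B_le_CV lB)) nT.1) (X.B_le_CV lB),
      fun y hy => by
        have := nT.2 _ (conj_mem_of_mem_normalizer (X.L_norm hl) hy)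
        convert this using 1
        rw [← conj_eq_of_mem_centralizer (inv_mem (X.B_le_CV lB)) this]
        group⟩
    have m2 : l' ∈ Tq X := by
      rw [← inv_mul_eq_iff_eq_mul] at e
      rw [← e]
      exact mul_mem (inv_mem (QT q)) (by simpa only [mul_assoc] using mul_mem m1 (inv_mem nT))
    rw [e, X.p1.L_faith l' hl' fun t => (X.mem_V.1 (m2.2 _ (X.qa_mem t))).imp
      fun s hs => inv_mul_eq_iff_eq_mul.1 hs, mul_one]
    exact q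

end H16.GC
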