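import Cfsg.Agent.Lib.G24C.CT
import Cfsg.Agent.Lib.ASG.WA

/-! The doubling of `V`. -/

set_option autoImplicit false
set_option linter.unusedSectionVars false

namespace H16.GC

open H30 H30.F4 H69 Subgroup Cfsg H79.AS

variable {G : Type*} [Group G] [Finite G]

namespace OC

variable (X : Ca G)

theorem nv (s : F4) : X.n * X.vv s * X.n⁻¹ = X.vv s := by rw [X.n_v, mul_inv_cancel_right]

theorem exists_y : ∃ y, ∀ t, X.n * X.qa t * X.n⁻¹ = X.qa t * X.vv (b4 y t) := by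
  choose lam hl using X.n_q
  have key : ∀ l ∈ X.L, ∀ f : V6 → V6, (∀ t, ∃ s, l * X.qa t * l⁻¹ = X.qa (f t) * X.vv s) →
      ∃ y, ∀ t, lam (f t) = lam t + b4 y t := by
    intro l hL f hf
    obtain ⟨y, u, hy⟩ := X.mem_QA.1 (X.n_L l hL)
    refine ⟨y, fun t => ?_⟩
    obtain ⟨s, hs⟩ := hf t
    have lv : ∀ s, l * X.vv s * l⁻¹ = X.vv s := X.cj_vv' (X.B_le_CV (X.L_le_B hL))
    have e1 : X.n * (l * X.qa t * l⁻¹) * X.n⁻¹ = X.qa (f t) * X.vv (lam (f t) + s) := by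
      rw [hs, cj_mul, hl, nv, mul_assoc, X.vv_add]
    have e2 : X.qa y * X.vv u * (X.qa t * X.vv (lam t)) * (X.qa y * X.vv u)⁻¹ =
        X.qa t * X.vv (lam t + b4 y t) := by
      calc X.qa y * X.vv u * (X.qa t * X.vv (lam t)) * (X.qa y * X.vv u)⁻¹
          = X.qa y * (X.vv u * X.qa t * X.vv (lam t) * (X.vv u)⁻¹) * (X.qa y)⁻¹ := by group
        _ = X.qa y * (X.qa t * X.vv (lam t)) * (X.qa y)⁻¹ := by
          rw [← X.qa_v, mul_assoc (X.qa t), X.vv_comm u, ← mul_assoc (X.qa t), mul_inv_cancel_right]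
        _ = _ := by
          rw [cj_mul, X.qa_conj, X.qa_v y, mul_inv_cancel_right, mul_assoc, X.vv_add, add_comm]
    have e3 : X.n * (l * X.qa t * l⁻¹) * X.n⁻¹ = X.qa (f t) * X.vv (s + (lam t + b4 y t)) := by
      calc X.n * (l * X.qa t * l⁻¹) * X.n⁻¹ = l * (l⁻¹ * (X.n * l * X.n⁻¹) * (X.n * X.qa t * X.n⁻¹) *
            (l⁻¹ * (X.n * l * X.n⁻¹))⁻¹) * l⁻¹ := by group
        _ = _ := by rw [hy, hl, e2, cj_mul, hs, lv, mul_assoc, X.vv_add]
    have := X.vv_inj (mul_left_cancel (e1.symm.trans e3))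
    linear_combination this
  obtain ⟨y, hy⟩ := WA.lin (lam := lam) (fun s t => by
      have e1 : X.n * (X.qa s * X.qa t) * X.n⁻¹ =
          X.qa (s + t) * X.vv (s 5 * t 2 + s 4 * t 3 + (lam s + lam t)) := by
        rw [cj_mul, hl, hl, X.qv_mul]
      rw [X.qa_mul, cj_mul, hl, nv, mul_assoc, X.vv_add] at e1
      have := X.vv_inj (mul_left_cancel e1)
      linear_combination this)
    (fun t => by
      have e := hl t
      have e' : X.qa t = X.qa ![0, 0, t 2, t 3, t 4, t 5] := X.qa_congr rfl rfl rfl rfl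
      rw [e', hl] at e
      exact (X.vv_inj (mul_left_cancel e)).symm)
    (key _ X.ha_mem _ fun t => ⟨0, by rw [X.ha_qa, X.vv_zero, mul_one]⟩)
    (key _ (X.x7_mem 1) _ (X.xa_qa 1)) (key _ X.na_mem _ X.na_qa)
  exact ⟨y, fun t => by rw [hl, hy]⟩

theorem AO {a : G} (ha : a ∈ X.A) : a ∈ 𝐂(X.O) :=
  mem_centralizer_iff.2 fun o ho => (mem_centralizer_iff.1 (X.O_K ho) a ha).symm

/-- `g` centralises `B` and `O` and moves `t` by `vv c` -/
structure Zc (g : G) (c : F4) : Prop where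
  cB : g ∈ 𝐂(X.B)
  cO : g ∈ 𝐂(X.O)
  cr : g * X.t * g⁻¹ = X.t * X.vv c

theorem exists_w : ∃ g, Zc X g w := by
  obtain ⟨y, hy⟩ := exists_y X
  have cV : (X.qa y)⁻¹ * X.n ∈ 𝐂(X.V) :=
    mul_mem (inv_mem (X.B_le_CV (X.QA_le_B (X.qa_mem y)))) (X.mem_CV.2 X.n_v)
  have cQ : ∀ x ∈ X.QA, (X.qa y)⁻¹ * X.n * x * ((X.qa y)⁻¹ * X.n)⁻¹ = x := by
    intro x hx
    obtain ⟨t, s, rfl⟩ := X.mem_QA.1 hx
    rw [cj_mul, X.cj_vv' cV]
    congr 1
    calc (X.qa y)⁻¹ * X.n * X.qa t * ((X.qa y)⁻¹ * X.n)⁻¹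
        = (X.qa y)⁻¹ * (X.n * X.qa t * X.n⁻¹) * X.qa y := by group
      _ = _ := by rw [hy, ← X.qa_conj]; group
  set g := (X.qa y)⁻¹ * X.n with hg
  have cL : X.L ≤ centralizer {g} := by
    rw [X.p1.L_five]
    refine F5_le fun l hl h5 => ?_
    have hN := X.L_norm hl
    have c1 : l⁻¹ * (g * l * g⁻¹) ∈ X.QA := by
      have := mul_mem (mul_mem (mem_normalizer_iff''.1 hN _ |>.1 (inv_mem (X.qa_mem y))) (X.n_L l hl))
        (X.qa_mem y)
      convert this using 1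
      rw [hg]; group
    have c2 : l⁻¹ * (g * l * g⁻¹) ∈ 𝐂(X.QA) := by
      refine mem_centralizer_iff.2 fun x hx => ?_
      have e1 := cQ x hx
      have e2 := cQ _ ((mem_normalizer_iff.1 hN x).1 hx)
      calc x * (l⁻¹ * (g * l * g⁻¹)) = l⁻¹ * (l * x * l⁻¹) * (g * l * g⁻¹) := by group
        _ = l⁻¹ * (g * (l * x * l⁻¹) * g⁻¹) * (g * l * g⁻¹) := by rw [e2]
        _ = l⁻¹ * (g * l * g⁻¹) * (g * x * g⁻¹) := by group
        _ = _ := by rw [e1]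
    obtain ⟨s, hs⟩ := X.mem_V.1 (X.p1.B_cent _ (X.QA_le_B c1) c2)
    rw [inv_mul_eq_iff_eq_mul] at hs
    have cm : Commute l (X.vv s) := X.mem_CV.1 (X.B_le_CV (X.L_le_B hl)) s
    have e5 : (l * X.vv s) ^ 5 = 1 := by rw [← hs, conj_pow, h5, mul_one, mul_inv_cancel]
    rw [cm.mul_pow, h5, one_mul, show X.vv s ^ 5 = X.vv s * X.vv s * (X.vv s * X.vv s) * X.vv s by
      simp only [pow_succ, pow_zero, one_mul, mul_assoc], X.vv_sq, one_mul, one_mul] at e5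
    rw [e5, mul_one, mul_inv_eq_iff_eq_mul] at hs
    exact mem_centralizer_singleton_iff.2 hs.symm
  refine ⟨g, mem_centralizer_iff.2 fun b hb => ?_, mul_mem (inv_mem (AO X (X.qa_A y))) X.n_O, ?_⟩
  · have : X.B ≤ centralizer {g} := sup_le (fun x hx => mem_centralizer_singleton_iff.2
      (mul_inv_eq_iff_eq_mul.1 (cQ x hx)).symm) cL
    exact mem_centralizer_singleton_iff.1 (this hb)
  · calc g * X.t * g⁻¹ = (X.qa y)⁻¹ * (X.n * X.t * X.n⁻¹) * X.qa y := by rw [hg]; group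
      _ = _ := by
        rw [X.n_t, mul_assoc, mul_assoc, ← X.qa_v, ← mul_assoc X.t, ← X.t_A (X.qa_A y)]
        group

variable {X} {g h : G} {c d : F4}

theorem Zc.cv (a : Zc X g c) (s : F4) : X.vv s * g = g * X.vv s :=
  mem_centralizer_iff.1 a.cB _ (X.V_le_B (X.vv_mem s))

theorem Zc.one : Zc X 1 0 := ⟨one_mem _, one_mem _, by simp [X.vv_zero]⟩

theorem Zc.mul (a : Zc X g c) (b : Zc X h d) : Zc X (g * h) (c + d) := by
  refine ⟨mul_mem a.cB b.cB, mul_mem a.cO b.cO, ?_⟩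
  calc g * h * X.t * (g * h)⁻¹ = g * (h * X.t * h⁻¹) * g⁻¹ := by group
    _ = _ := by rw [b.cr, cj_mul, a.cr, ← a.cv, mul_inv_cancel_right, mul_assoc, X.vv_add]

theorem Zc.inv (a : Zc X g c) : Zc X g⁻¹ c := by
  refine ⟨inv_mem a.cB, inv_mem a.cO, ?_⟩
  calc g⁻¹ * X.t * g⁻¹⁻¹ = g⁻¹ * (X.t * X.vv c) * (X.vv c * g) := by
        rw [mul_assoc g⁻¹ (_ * _), mul_assoc X.t, ← mul_assoc (X.vv _), X.vv_sq]; group
    _ = _ := by
        rw [a.cv]
        conv_lhs => rw [← a.cr]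
        group

theorem Zc.pow (a : Zc X g c) (n : ℕ) : Zc X (g ^ n) (n * c) := by
  induction n with
  | zero => simpa using Zc.one
  | succ n ih =>
    rw [pow_succ, Nat.cast_succ, add_mul, one_mul]
    exact ih.mul a

theorem Zc.th (a : Zc X g c) : Zc X (X.th * g * X.th⁻¹) (v * c) := by
  refine ⟨mem_centralizer_iff.2 fun b hb => ?_,
    mul_mem (mul_mem (AO X X.th_mem) a.cO) (inv_mem (AO X X.th_mem)), ?_⟩
  · have := mem_centralizer_iff.1 a.cB _ (conj_mem_of_mem_normalizer' X.th_B hb)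
    calc b * (X.th * g * X.th⁻¹) = X.th * (X.th⁻¹ * b * X.th * g) * X.th⁻¹ := by group
      _ = _ := by rw [this]; group
  · have e1 := X.t_A X.th_mem
    calc X.th * g * X.th⁻¹ * X.t * (X.th * g * X.th⁻¹)⁻¹
        = X.th * (g * (X.th⁻¹ * (X.t * X.th)) * g⁻¹) * X.th⁻¹ := by group
      _ = _ := by
        rw [← e1, inv_mul_cancel_left, a.cr, cj_mul, X.th_vv, e1, mul_inv_cancel_right]

theorem Zc.ker (a : Zc X g 0) :
    ∃ o ∈ X.O, ∃ s, (g = o * X.vv s ∨ g = o * X.t * X.vv s) ∧ g * g = o * o := by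
  have cr : g * X.t = X.t * g := by
    have := a.cr
    rwa [X.vv_zero, mul_one, mul_inv_eq_iff_eq_mul] at this
  obtain ⟨o, ho, s, e⟩ := X.ct_Q cr (centralizer_le X.QA_le_B a.cB)
  refine ⟨o, ho, s, e, ?_⟩
  rcases e with e | e <;> rw [e]
  · rw [X.pr_mul (X.vv_A s) (X.O_K ho), X.vv_sq, mul_one]
  · rw [X.pr_mul (X.vv_A s) (mul_mem (X.O_K ho) X.t_K), X.vv_sq, mul_one, mul_assoc, ← mul_assoc X.t,
      ← X.O_t ho, mul_assoc, X.t_sq, mul_one]

theorem Zc.four (a : Zc X g c) : g ^ 4 ∈ X.O := by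
  have := a.mul a
  rw [f4_self] at this
  obtain ⟨o, ho, s, -, e⟩ := this.ker
  rw [show g ^ 4 = g * g * (g * g) by simp only [pow_succ, pow_zero, one_mul, mul_assoc], e]
  exact mul_mem ho ho

theorem Zc.sq (a : Zc X g c) (hc : c ≠ 0) (h4 : g ^ 4 = 1) : ∃ s, g * g = X.vv s := by
  have := a.mul a
  rw [f4_self] at this
  obtain ⟨o, ho, s, e, e'⟩ := this.ker
  have o1 : o = 1 := eq_one_of_odd X.O_odd ho (j := 1) (by
    rw [pow_one, pow_two, ← e', ← h4]; simp only [pow_succ, pow_zero, one_mul, mul_assoc])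
  rw [o1, one_mul, one_mul] at e
  refine ⟨s, e.resolve_right fun e => hc ?_⟩
  have e2 : g * (X.t * X.vv s) * g⁻¹ = X.t * X.vv s := by rw [← e]; group
  rw [cj_mul, a.cr, ← a.cv, mul_inv_cancel_right] at e2
  exact X.vv_inj ((mul_eq_left.1 (mul_right_cancel e2)).trans X.vv_zero.symm)

theorem Zc.sq_mul (a : Zc X g c) (b : Zc X h d) (hc : c + d ≠ 0) {s t : F4} (hs : g * g = X.vv s)
    (ht : h * h = X.vv t) : ∃ u, g * h⁻¹ * (g * h⁻¹) = X.vv u := by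
  have p := a.mul b.inv
  refine p.sq hc (eq_one_of_odd X.O_odd p.four (j := 1) ?_)
  have e1 : g * (g * h⁻¹) * g⁻¹ = X.vv (s + t) * (g * h⁻¹)⁻¹ := by
    rw [← X.vv_add, ← X.vv_inv t, ← hs, ← ht]; group
  have cm : Commute (X.vv (s + t)) (g * h⁻¹)⁻¹ := p.inv.cv _
  have e2 : g * (g * h⁻¹) ^ 4 * g⁻¹ = ((g * h⁻¹) ^ 4)⁻¹ := by
    rw [← conj_pow, e1, cm.mul_pow, show X.vv (s + t) ^ 4 =
      X.vv (s + t) * X.vv (s + t) * (X.vv (s + t) * X.vv (s + t)) by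
        simp only [pow_succ, pow_zero, one_mul, mul_assoc], X.vv_sq, one_mul, one_mul, inv_pow]
  rw [← mem_centralizer_iff.1 a.cO _ p.four, mul_inv_cancel_right] at e2
  rw [pow_one, pow_two]
  exact mul_eq_one_iff_eq_inv.2 e2

theorem tri {a b e : G} {ca cb : F4} (ha : Zc X a ca) (hb : Zc X b cb) (h : a * b * e = 1)
    (sa : ∃ s, a * a = X.vv s) (sb : ∃ s, b * b = X.vv s) (se : ∃ s, e * e = X.vv s) :
    (∃ s, a * b = e * X.vv s) ∧ ∃ s, b * a = e * X.vv s := by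
  obtain ⟨s, hs⟩ := sa
  obtain ⟨t, ht⟩ := sb
  obtain ⟨u, hu⟩ := se
  refine ⟨⟨u, ?_⟩, t + s, ?_⟩
  · rw [← X.vv_inv, ← hu, eq_inv_of_mul_eq_one_left h]; group
  · rw [eq_inv_of_mul_eq_one_right h, ← X.vv_add, mul_inv_rev, mul_assoc, ← mul_assoc a⁻¹,
      ← ha.inv.cv, ← hs, ← ht]
    group

end OC

open OC

theorem Ca.cb (X : Ca G) : Nonempty (Cb G) := by
  obtain ⟨g0, h0⟩ := exists_w X
  have hw : Zc X (g0 ^ Nat.card X.O) w := by
    have := h0.pow (Nat.card X.O)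
    obtain ⟨k, hk⟩ := X.O_odd
    rwa [show ((Nat.card X.O : ℕ) : F4) = 1 by rw [hk]; push_cast; rw [F4.two_eq_zero]; ring,
      one_mul] at this
  obtain ⟨s0, hs0⟩ := hw.sq (by decide) (by rw [← pow_mul, mul_comm, pow_mul, pow_card_one h0.four])
  generalize g0 ^ Nat.card X.O = a at hw hs0
  have hb := hw.th
  have hc := hb.th
  have ht0 : X.th * a * X.th⁻¹ * (X.th * a * X.th⁻¹) = X.vv (v * s0) := by
    rw [← cj_mul, hs0, X.th_vv]
  have hu0 : X.th * (X.th * a * X.th⁻¹) * X.th⁻¹ * (X.th * (X.th * a * X.th⁻¹) * X.th⁻¹) =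
      X.vv (v * (v * s0)) := by
    rw [← cj_mul, ht0, X.th_vv]
  have e3 : X.th * (X.th * (X.th * a * X.th⁻¹) * X.th⁻¹) * X.th⁻¹ = a := by
    calc _ = X.th * X.th * X.th * a * (X.th * X.th * X.th)⁻¹ := by group
      _ = a := by rw [X.th_cube]; group
  generalize hb' : X.th * a * X.th⁻¹ = b at hb hc ht0 hu0 e3
  generalize hc' : X.th * b * X.th⁻¹ = c at hc hu0 e3
  have z0 : Zc X (a * b⁻¹) v := hw.mul hb.inv
  have z1 : Zc X (b * c⁻¹) w := hb.mul hc.inv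
  have z2 : Zc X (c * a⁻¹) 1 := hc.mul hw.inv
  have q0 := hw.sq_mul hb (by decide) hs0 ht0
  have q1 := hb.sq_mul hc (by decide) ht0 hu0
  have q2 := hc.sq_mul hw (by decide) hu0 hs0
  obtain ⟨m01, m10⟩ := tri (e := c * a⁻¹) z0 z1 (by group) q0 q1 q2
  obtain ⟨m12, m21⟩ := tri (e := a * b⁻¹) z1 z2 (by group) q1 q2 q0
  obtain ⟨m20, m02⟩ := tri (e := b * c⁻¹) z2 z0 (by group) q2 q0 q1
  let p : F4 → G := fun x => match x with
    | .o => 1
    | .i => c * a⁻¹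
    | .w => b * c⁻¹
    | .v => a * b⁻¹
  have zp : ∀ x, Zc X (p x) x := F4.forall_iff.2 ⟨Zc.one, z2, z1, z0⟩
  have l1 : ∀ g : G, ∃ s, 1 * g = g * X.vv s := fun g => ⟨0, by rw [X.vv_zero, one_mul, mul_one]⟩
  have r1 : ∀ g : G, ∃ s, g * 1 = g * X.vv s := fun g => ⟨0, by rw [X.vv_zero]⟩
  have dd : ∀ {g : G}, (∃ s, g * g = X.vv s) → ∃ s, g * g = 1 * X.vv s := fun ⟨s, hs⟩ =>
    ⟨s, by rw [hs, one_mul]⟩
  have cj : ∀ {x y x' y' : G}, X.th * x * X.th⁻¹ = x' → X.th * y * X.th⁻¹ = y' →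
      X.th * (x * y⁻¹) * X.th⁻¹ = x' * y'⁻¹ := fun h h' => by rw [← h, ← h']; group
  have pa : ∀ x y, ∃ s, p x * p y = p (x + y) * X.vv s :=
    F4.forall_iff.2 ⟨F4.forall_iff.2 ⟨l1 _, l1 _, l1 _, l1 _⟩,
      F4.forall_iff.2 ⟨r1 _, dd q2, m21, m20⟩, F4.forall_iff.2 ⟨r1 _, m12, dd q1, m10⟩,
      F4.forall_iff.2 ⟨r1 _, m02, m01, dd q0⟩⟩
  have pt : ∀ x, X.th * p x * X.th⁻¹ = p (v * x) :=
    F4.forall_iff.2 ⟨by show X.th * 1 * X.th⁻¹ = 1; group, cj e3 hb', cj hc' e3, cj hb' hc'⟩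
  obtain ⟨c0, hc0⟩ : ∃ s, p 1 * p 1 = X.vv s := q2
  have st : ∀ x y : F4, y = v * x → p x * p x = X.vv (c0 * x) → p y * p y = X.vv (c0 * y) :=
    fun x y d e => by rw [d, ← pt, ← cj_mul, e, X.th_vv, mul_left_comm]
  have s1 : p 1 * p 1 = X.vv (c0 * 1) := by rw [hc0, mul_one]
  have s2 := st 1 v (by decide) s1
  have s3 := st v w (by decide) s2
  have ps : ∀ x, p x * p x = X.vv (c0 * x) :=
    F4.forall_iff.2 ⟨by
      show (1 : G) * 1 = X.vv (c0 * 0)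
      rw [mul_zero, X.vv_zero, mul_one], s1, s3, s2⟩
  exact ⟨{ X.toCo with
    p := p
    c0 := c0
    p_B := fun x => (zp x).cB
    p_O := fun x => (zp x).cO
    p_t := fun x => (zp x).cr
    p_add := pa
    p_zero := rfl
    p_th := pt
    p_sq := ps
    p_comm := fun x y => by
      obtain ⟨s, hs⟩ := pa x y
      have e : p x * p y * (p x * p y) = p x * p x * (p y * p y) := by
        rw [hs, mul_assoc, ← mul_assoc (X.vv s), (zp _).cv, mul_assoc, X.vv_sq, mul_one, ps, ps, ps,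
          X.vv_add, mul_add]
      rw [mul_assoc, mul_assoc, mul_right_inj, ← mul_assoc, ← mul_assoc, mul_left_inj] at e
      exact e.symm }⟩

end H16.GC
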