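import Cfsg.Agent.Lib.G24C.CT

/-! The doubling of `W`. -/

set_option autoImplicit false

namespace H16.GC

open H30 H30.F4 H69 Subgroup Cfsg H79.AS

variable {G : Type*} [Group G] [Finite G]

namespace Co

variable (X : Co G)

theorem od_WP : X.W ≤ X.P := X.W_le_R0.trans X.R0_le_P

theorem od_WA : X.W ≤ X.A := X.od_WP.trans (X.P_le_U.trans X.U_le_A)

theorem od_cj {n g : G} (hn : n ∈ 𝐍(X.P)) (hA : n ∈ X.A) (hg : g ∈ 𝐂(X.P) ⊓ 𝐂(X.O)) : n * g * n⁻¹ ∈ 𝐂(X.P) ⊓ 𝐂(X.O) := by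
  refine mem_inf.2 ⟨?_, mul_mem (mul_mem (X.A_O hA) (mem_inf.1 hg).2) (inv_mem (X.A_O hA))⟩
  have := cj_mem n hg.1
  rwa [cj_centralizer, cj_eq_of_mem_normalizer hn] at this

theorem od_W {g e : G} (hg : g ∈ 𝐂(X.P) ⊓ 𝐂(X.O)) (he : e ∈ X.W) : Commute e g := hg.1 e (X.od_WP he)

theorem od_WW {a b : G} (ha : a ∈ X.W) (hb : b ∈ X.W) : Commute a b := X.P_W (X.od_WP hb) a ha

theorem od_one {o : G} (ho : o ∈ X.O) (h : o * o ∈ X.W) : o = 1 :=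
  eq_one_of_odd X.O_odd ho (j := 2) (by
    rw [← X.W_sq h]; simp only [pow_succ, pow_zero, one_mul, mul_assoc, Nat.reduceMul])

theorem od_move {a b : G} (ha : a ∈ 𝐂(X.P) ⊓ 𝐂(X.O)) (hb : b ∈ 𝐂(X.P) ⊓ 𝐂(X.O)) (h : a * X.t * a⁻¹ = b * X.t * b⁻¹) :
    ∃ o ∈ X.O, ∃ e ∈ X.W, b⁻¹ * a = o * e ∨ b⁻¹ * a = o * X.t * e :=
  X.ct_P (by
    calc b⁻¹ * a * X.t = b⁻¹ * (a * X.t * a⁻¹) * a := by group
      _ = _ := by rw [h]; group) (mul_mem (inv_mem hb.1) ha.1)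

theorem od_sq1 {b o e : G} (hb : b ∈ 𝐂(X.P) ⊓ 𝐂(X.O)) (ho : o ∈ X.O) (he : e ∈ X.W) :
    b * (o * e) * (b * (o * e)) = b * b * (o * o) := by
  have c1 : Commute o b := hb.2 o ho
  have c2 : Commute o e := X.A_O (X.od_WA he) o ho
  rw [← sq, ((c1.symm.mul_right (X.od_W hb he).symm)).mul_pow, c2.mul_pow, sq e, X.W_sq he, mul_one, sq, sq]

theorem od_sq2 {b o e e0 : G} (hb : b ∈ 𝐂(X.P) ⊓ 𝐂(X.O)) (ho : o ∈ X.O) (he : e ∈ X.W) (h0 : e0 ∈ X.W)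
    (h : b * X.t * b⁻¹ = X.t * e0) : b * (o * X.t * e) * (b * (o * X.t * e)) = b * b * (o * o * e0) := by
  have c1 : Commute o b := hb.2 o ho
  have c2 : Commute o e := X.A_O (X.od_WA he) o ho
  have c3 : Commute o X.t := X.O_t ho
  have c4 : Commute e X.t := X.t_A (X.od_WA he)
  have c5 : Commute e0 X.t := X.t_A (X.od_WA h0)
  have c6 := X.od_W hb he
  have c7 := X.od_W hb h0
  have c8 : Commute o e0 := X.A_O (X.od_WA h0) o ho
  have e1 : b * (o * X.t * e) = b * X.t * (o * e) := by rw [c3.eq]; simp only [mul_assoc]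
  have e2 : b * X.t * (b * X.t) = b * b * e0 := by
    have : X.t * b = b * X.t * e0 := by
      rw [mul_inv_eq_iff_eq_mul.1 h, mul_assoc (X.t * e0), ← c7.eq, ← mul_assoc, mul_assoc X.t, X.W_sq h0, mul_one]
    calc b * X.t * (b * X.t) = b * (X.t * b) * X.t := by simp only [mul_assoc]
      _ = b * b * (X.t * (e0 * X.t)) := by rw [this]; simp only [mul_assoc]
      _ = _ := by rw [c5.eq, ← mul_assoc X.t, X.t_sq, one_mul]
  rw [e1, ← sq, ((c1.symm.mul_right c6.symm).mul_left (c3.symm.mul_right c4.symm)).mul_pow, c2.mul_pow, sq e, X.W_sq he,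
    mul_one, sq, sq, e2, mul_assoc (b * b), ← ((c8.mul_left c8).eq)]

theorem od_xv (a s : F4) : X.x 10 a * X.vv s ∈ X.W := X.mem_W.2 ⟨a, s, rfl⟩

theorem od_x (a : F4) : X.x 10 a ∈ X.W := X.x_W (by decide) a

theorem od_v (s : F4) : X.vv s ∈ X.W := X.V_le_W (X.vv_mem s)

theorem od_mul (a s b r : F4) : X.x 10 a * X.vv s * (X.x 10 b * X.vv r) = X.x 10 (a + b) * X.vv (s + r) := by
  rw [(X.x_v (r := 10) (by decide) b s).symm.mul_mul_mul_comm, ← X.x_add, X.vv_add]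

theorem od_x6 (r a s : F4) : X.x 6 r * (X.x 10 a * X.vv s) * (X.x 6 r)⁻¹ = X.x 10 a * X.vv (r * a + s) := by
  rw [cj_mul, X.x6_x10, (X.x_v (r := 6) (by decide) r s).eq, mul_inv_cancel_right, mul_assoc, X.vv_add]

end Co

namespace Cb

variable (X : Cb G)

theorem od_p (c : F4) : X.p c ∈ 𝐂(X.P) ⊓ 𝐂(X.O) := ⟨centralizer_le (X.P_le_U.trans X.U_le_B) (X.p_B c), X.p_O c⟩

theorem od_q (d : F4) : X.nb * X.p d * X.nb⁻¹ ∈ 𝐂(X.P) ⊓ 𝐂(X.O) := X.od_cj X.nb_P X.nb_mem (X.od_p d)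

omit [Finite G] in
theorem od_qt (d : F4) : X.nb * X.p d * X.nb⁻¹ * X.t * (X.nb * X.p d * X.nb⁻¹)⁻¹ = X.t * X.x 10 d := by
  have c : Commute X.nb X.t := X.t_A X.nb_mem
  have h1 : X.nb * X.vv d * X.nb⁻¹ = X.x 10 d := X.nb_x 11 d
  calc _ = X.nb * (X.p d * (X.nb⁻¹ * X.t * X.nb) * (X.p d)⁻¹) * X.nb⁻¹ := by group
    _ = X.nb * (X.t * X.vv d) * X.nb⁻¹ := by rw [c.inv_left.eq, inv_mul_cancel_right, X.p_t]
    _ = _ := by rw [cj_mul, h1, c.eq, mul_inv_cancel_right]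

omit [Finite G] in
theorem od_qq (d : F4) : X.nb * X.p d * X.nb⁻¹ * (X.nb * X.p d * X.nb⁻¹) = X.x 10 (X.c0 * d) := by
  rw [← cj_mul, X.p_sq]; exact X.nb_x 11 _

theorem od_pqt (c d : F4) {q : G} (hq : q = X.nb * X.p d * X.nb⁻¹) :
    X.p c * q * X.t * (X.p c * q)⁻¹ = X.t * (X.x 10 d * X.vv c) := by
  calc _ = X.p c * (q * X.t * q⁻¹) * (X.p c)⁻¹ := by group
    _ = _ := by
      rw [hq, X.od_qt, cj_mul, X.p_t, ← (X.od_W (X.od_p c) (X.od_x d)).eq, mul_inv_cancel_right, mul_assoc,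
        (X.od_WW (X.od_v c) (X.od_x d)).eq]

theorem od_kap (c d : F4) {q : G} (hq : q = X.nb * X.p d * X.nb⁻¹) : (q * X.p c)⁻¹ * (X.p c * q) ∈ X.W := by
  have hqY : q ∈ 𝐂(X.P) ⊓ 𝐂(X.O) := hq ▸ X.od_q d
  have hp := X.od_p c
  have h2 : q * X.p c * X.t * (q * X.p c)⁻¹ = X.t * (X.x 10 d * X.vv c) := by
    calc _ = q * (X.p c * X.t * (X.p c)⁻¹) * q⁻¹ := by group
      _ = _ := by
        rw [X.p_t, cj_mul, ← (X.od_W hqY (X.od_v c)).eq, mul_inv_cancel_right, hq, X.od_qt, mul_assoc]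
  obtain ⟨o, ho, e, he, h⟩ := X.od_move (mul_mem hp hqY) (mul_mem hqY hp) ((X.od_pqt c d hq).trans h2.symm)
  have inv : X.p c * ((q * X.p c)⁻¹ * (X.p c * q)) * (X.p c)⁻¹ * ((q * X.p c)⁻¹ * (X.p c * q)) = 1 := by
    have c1 : Commute (X.p c * X.p c) q := X.p_sq c ▸ X.od_W hqY (X.od_v _)
    calc _ = q⁻¹ * X.p c * (q * (X.p c * X.p c)⁻¹) * q⁻¹ * X.p c * q := by group
      _ = 1 := by rw [← c1.inv_left.eq]; group
  have c1 : Commute o (X.p c) := hp.2 o ho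
  have c2 : Commute o e := X.A_O (X.od_WA he) o ho
  have c3 := X.od_W hp he
  rcases h with h | h <;> rw [h] at inv ⊢
  · rw [← (c1.mul_left c3).eq, mul_inv_cancel_right, ← sq, c2.mul_pow, sq e, X.W_sq he, mul_one, sq] at inv
    rwa [X.od_one ho (inv ▸ one_mem _), one_mul]
  · exfalso
    have c4 : Commute o X.t := X.O_t ho
    have c5 : Commute e X.t := X.t_A (X.od_WA he)
    have c6 : Commute o (X.vv c) := X.A_O (X.vv_A c) o ho
    have c7 : Commute (X.vv c) X.t := X.t_A (X.vv_A c)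
    rw [cj_mul, cj_mul, X.p_t, ← c1.eq, ← c3.eq, mul_inv_cancel_right, mul_inv_cancel_right] at inv
    have e1 : o * o * X.vv c = 1 := by
      rw [← inv, (c2.symm.mul_right c5).symm.symm.mul_mul_mul_comm, X.W_sq he, mul_one,
        (c4.symm.mul_left c6.symm).mul_mul_mul_comm, mul_assoc X.t, c7.eq, ← mul_assoc X.t, X.t_sq, one_mul]
    have o1 : o = 1 := X.od_one ho (eq_inv_of_mul_eq_one_left e1 ▸ inv_mem (X.od_v c))
    rw [o1, one_mul, one_mul] at e1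
    rw [X.x_inj 11 e1, X.p_zero, mul_one, one_mul, inv_mul_cancel, o1, one_mul] at h
    exact X.t_not_A (eq_inv_of_mul_eq_one_left h.symm ▸ inv_mem (X.od_WA he))

theorem od_two {s d : F4} {q : G} (hq : q = X.nb * X.p d * X.nb⁻¹) :
    ((q * X.p (s * d))⁻¹ * (X.p (s * d) * q) = 1 ∧ ∃ e ∈ X.W, X.x 6 s * q * (X.x 6 s)⁻¹ = X.p (s * d) * q * e) ∨
      (q * X.p (s * d))⁻¹ * (X.p (s * d) * q) = X.x 10 d * X.vv (s * d) := by
  have hqY : q ∈ 𝐂(X.P) ⊓ 𝐂(X.O) := hq ▸ X.od_q d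
  have hk := X.od_kap (s * d) d hq
  have ht := X.od_pqt (s * d) d hq
  have hp := X.od_p (s * d)
  have psq := X.p_sq (s * d)
  set a := X.p (s * d)
  set κ := (q * a)⁻¹ * (a * q) with hκ
  have hy := X.od_cj (X.U_nP (X.x_U (r := 6) (by decide) s)) (X.x_mem 6 s) hqY
  have c : Commute (X.x 6 s) X.t := X.t_A (X.x_mem 6 s)
  have yt : X.x 6 s * q * (X.x 6 s)⁻¹ * X.t * (X.x 6 s * q * (X.x 6 s)⁻¹)⁻¹ = X.t * (X.x 10 d * X.vv (s * d)) := by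
    calc _ = X.x 6 s * (q * ((X.x 6 s)⁻¹ * X.t * X.x 6 s) * q⁻¹) * (X.x 6 s)⁻¹ := by group
      _ = _ := by rw [c.inv_left.eq, inv_mul_cancel_right, hq, X.od_qt, cj_mul, X.x6_x10, c.eq, mul_inv_cancel_right]
  have qq : q * q = X.x 10 (X.c0 * d) := hq ▸ X.od_qq d
  have yy : X.x 6 s * q * (X.x 6 s)⁻¹ * (X.x 6 s * q * (X.x 6 s)⁻¹) = a * q * (a * q) * κ := by
    calc _ = q * q * (a * a) := by rw [← cj_mul, qq, X.x6_x10, psq, mul_left_comm]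
      _ = a * a * (q * q) := by rw [psq, qq, (X.od_WW (X.od_v _) (X.od_x _)).eq]
      _ = a * (q * a * κ) * q := by rw [hκ]; group
      _ = _ := by rw [mul_assoc a, mul_assoc (q * a), (X.od_W hqY hk).eq]; simp only [mul_assoc]
  obtain ⟨o, ho, e, he, h⟩ := X.od_move hy (mul_mem hp hqY) (yt.trans ht.symm)
  rcases h with h | h <;> rw [inv_mul_eq_iff_eq_mul] at h <;> rw [h] at yy
  · rw [X.od_sq1 (mul_mem hp hqY) ho he, mul_right_inj] at yy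
    have o1 : o = 1 := X.od_one ho (yy ▸ hk)
    rw [o1, one_mul] at yy h
    exact Or.inl ⟨yy.symm, e, he, h⟩
  · rw [X.od_sq2 (mul_mem hp hqY) ho he (X.od_xv _ _) ht, mul_right_inj] at yy
    have o1 : o = 1 := X.od_one ho ((mul_mem_cancel_right (X.od_xv d (s * d))).1 (yy ▸ hk))
    rw [o1, one_mul, one_mul] at yy
    exact Or.inr yy.symm

theorem od_pp (c d : F4) {q : G} (hq : q = X.nb * X.p d * X.nb⁻¹) : X.p c * q = q * X.p c := by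
  by_cases d0 : d = 0
  · rw [hq, d0, X.p_zero, mul_one, mul_inv_cancel, mul_one, one_mul]
  have hqY : q ∈ 𝐂(X.P) ⊓ 𝐂(X.O) := hq ▸ X.od_q d
  have two : ∀ c, ∃ ε : F4, (ε = 0 ∨ ε = 1) ∧ X.p c * q = q * X.p c * (X.x 10 (ε * d) * X.vv (ε * c)) := fun c => by
    have := X.od_two (s := c / d) hq
    rw [div_mul_cancel₀ c d0] at this
    rcases this with ⟨h, -⟩ | h <;> rw [inv_mul_eq_iff_eq_mul] at h
    · exact ⟨0, Or.inl rfl, by rw [h, zero_mul, zero_mul, X.x_zero, X.vv_zero, mul_one (1 : G)]⟩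
    · exact ⟨1, Or.inr rfl, by rw [h, one_mul, one_mul]⟩
  obtain ⟨e1, a1, h1⟩ := two 1
  obtain ⟨e2, a2, h2⟩ := two w
  obtain ⟨e3, a3, h3⟩ := two v
  obtain ⟨s, hs⟩ := X.p_add 1 w
  rw [show (1 : F4) + w = v from rfl] at hs
  have : X.x 10 (e1 * d) * X.vv (e1 * 1) * (X.x 10 (e2 * d) * X.vv (e2 * w)) = X.x 10 (e3 * d) * X.vv (e3 * v) := by
    apply mul_left_cancel (a := q * (X.p 1 * X.p w))
    calc _ = q * X.p 1 * (X.p w * (X.x 10 (e1 * d) * X.vv (e1 * 1))) * (X.x 10 (e2 * d) * X.vv (e2 * w)) := by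
          simp only [mul_assoc]
      _ = X.p 1 * (q * X.p w * (X.x 10 (e2 * d) * X.vv (e2 * w))) := by
          rw [← (X.od_W (X.od_p w) (X.od_xv _ _)).eq, ← mul_assoc (q * X.p 1), ← h1]; simp only [mul_assoc]
      _ = X.p v * q * X.vv s := by rw [← h2, ← mul_assoc, hs, mul_assoc, (X.od_W hqY (X.od_v s)).eq, mul_assoc]
      _ = _ := by
          rw [h3, hs, mul_assoc, (X.od_WW (X.od_xv _ _) (X.od_v s)).eq]; simp only [mul_assoc]
  rw [X.od_mul] at this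
  obtain ⟨b1, b2⟩ := X.w_inj this
  obtain ⟨rfl, rfl, rfl⟩ := (by decide : ∀ d e1 e2 e3 : F4, d ≠ 0 → (e1 = 0 ∨ e1 = 1) → (e2 = 0 ∨ e2 = 1) →
    (e3 = 0 ∨ e3 = 1) → e1 * d + e2 * d = e3 * d → e1 * 1 + e2 * w = e3 * v → e1 = 0 ∧ e2 = 0 ∧ e3 = 0)
    d e1 e2 e3 d0 a1 a2 a3 b1 b2
  simp only [zero_mul, Rt.x_zero, Rt.vv_zero, mul_one] at h1 h2 h3
  revert c
  exact forall_iff.2 ⟨by rw [X.p_zero, mul_one, one_mul], h1, h2, h3⟩

theorem od_x6p {s d : F4} (s0 : s ≠ 0) (d0 : d ≠ 0) {q : G} (hq : q = X.nb * X.p d * X.nb⁻¹) :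
    ∃ a, X.x 6 s * q * (X.x 6 s)⁻¹ = q * (X.p (s * d) * (X.x 10 (X.c0 * d) * X.vv a)) := by
  rcases X.od_two (s := s) hq with ⟨-, e, he, h⟩ | h
  · obtain ⟨l, a, rfl⟩ := X.mem_W.1 he
    rw [X.od_pp _ d hq, mul_assoc q] at h
    have c1 : X.x 6 s * X.p (s * d) = X.p (s * d) * X.x 6 s := X.p_B _ _ (X.x_B (by decide) s)
    have h2 : X.x 6 s * (X.x 6 s * q * (X.x 6 s)⁻¹) * (X.x 6 s)⁻¹ = q := by
      rw [show X.x 6 s * (X.x 6 s * q * (X.x 6 s)⁻¹) * (X.x 6 s)⁻¹ = X.x 6 s * X.x 6 s * q * (X.x 6 s * X.x 6 s)⁻¹ by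
        simp only [mul_inv_rev, mul_assoc], X.x_sq]; simp
    rw [h, cj_mul, h, cj_mul, X.od_x6, c1, mul_inv_cancel_right, mul_assoc q, mul_eq_left,
      (X.od_W (X.od_p _) (X.od_xv _ _)).mul_mul_mul_comm, X.p_sq, X.od_mul, f4_self, X.x_zero, one_mul, X.vv_add] at h2
    have h3 := X.x_inj 11 h2
    have t2 : (2 : F4) = 0 := two_eq_zero
    have : l = X.c0 * d := mul_left_cancel₀ s0 (by linear_combination h3 - (a + s * (X.c0 * d)) * t2)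
    exact ⟨a, this ▸ h⟩
  · rw [X.od_pp _ d hq, inv_mul_cancel] at h
    have := X.w_inj (a := d) (s := s * d) (a' := 0) (s' := 0) (by rw [← h, X.x_zero, X.vv_zero, one_mul])
    exact absurd this.1 d0

theorem od_c0 : X.c0 = 0 := by
  obtain ⟨a1, h1⟩ := X.od_x6p (s := 1) (d := 1) (by decide) (by decide) rfl
  obtain ⟨a2, h2⟩ := X.od_x6p (s := w) (d := 1) (by decide) (by decide) rfl
  obtain ⟨a3, h3⟩ := X.od_x6p (s := v) (d := 1) (by decide) (by decide) rfl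
  obtain ⟨s, hs⟩ := X.p_add 1 w
  rw [show (1 : F4) + w = v from rfl] at hs
  simp only [mul_one] at h1 h2 h3
  set q := X.nb * X.p 1 * X.nb⁻¹
  have c1 : X.x 6 1 * X.p w = X.p w * X.x 6 1 := X.p_B _ _ (X.x_B (by decide) 1)
  have e : X.x 6 v = X.x 6 1 * X.x 6 w := X.x_add 6 1 w
  rw [e, show X.x 6 1 * X.x 6 w * q * (X.x 6 1 * X.x 6 w)⁻¹ = X.x 6 1 * (X.x 6 w * q * (X.x 6 w)⁻¹) * (X.x 6 1)⁻¹ by
    simp only [mul_inv_rev, mul_assoc], h2, cj_mul, h1, cj_mul, X.od_x6, c1, mul_inv_cancel_right, mul_assoc q,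
    mul_right_inj, (X.od_W (X.od_p _) (X.od_xv _ _)).mul_mul_mul_comm, hs, X.od_mul, f4_self, mul_assoc, mul_right_inj,
    ← one_mul (X.vv s), ← X.x_zero 10, X.od_mul, zero_add] at h3
  exact (X.w_inj h3).1.symm

theorem od_add (c d : F4) : X.p (c + d) = X.p c * X.p d := by
  have sq : ∀ c, X.p c * X.p c = 1 := fun c => by rw [X.p_sq, X.od_c0, zero_mul, X.vv_zero]
  obtain ⟨s, hs⟩ := X.p_add 1 w
  rw [show (1 : F4) + w = v from rfl] at hs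
  have m : X.p 1 * X.p w * X.p v = X.vv s := by
    rw [hs, mul_assoc, (X.od_W (X.od_p v) (X.od_v s)).eq, ← mul_assoc, sq, one_mul]
  have m2 := X.th_vv s
  have c1 : Commute (X.p v) (X.p 1 * X.p w) := Commute.mul_right (X.p_comm v 1) (X.p_comm v w)
  rw [← m, cj_mul, cj_mul, X.p_th, X.p_th, X.p_th, mul_one, show v * w = 1 from rfl, show v * v = w from rfl,
    mul_assoc, c1.eq, m] at m2
  have s0 : s = 0 := (by decide : ∀ s : F4, s = v * s → s = 0) s (X.vv_inj m2)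
  rw [s0, X.vv_zero, mul_one] at hs
  have h1 : X.p 1 * X.p v = X.p w := by rw [← hs, ← mul_assoc, sq, one_mul]
  have h2 : X.p w * X.p v = X.p 1 := by rw [← hs, X.p_comm 1 w, ← mul_assoc, sq, one_mul]
  have z1 : ∀ d, X.p (0 + d) = X.p 0 * X.p d := fun d => by rw [zero_add, X.p_zero, one_mul]
  have z2 : ∀ d, X.p (d + 0) = X.p d * X.p 0 := fun d => by rw [add_zero, X.p_zero, mul_one]
  have z3 : ∀ d, X.p (d + d) = X.p d * X.p d := fun d => by rw [f4_self, X.p_zero, sq]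
  revert c d
  exact forall_iff.2 ⟨z1, forall_iff.2 ⟨z2 _, z3 _, hs.symm, h1.symm⟩,
    forall_iff.2 ⟨z2 _, ((X.p_comm w 1).trans hs).symm, z3 _, h2.symm⟩,
    forall_iff.2 ⟨z2 _, ((X.p_comm v 1).trans h1).symm, ((X.p_comm v w).trans h2).symm, z3 _⟩⟩

end Cb

theorem Cb.cc (X : Cb G) : Nonempty (Cc G) :=
  ⟨{ X.toCo with
    p := X.p
    p_B := X.p_B
    p_O := X.p_O
    p_t := X.p_t
    p_add := X.od_add
    p_th := X.p_th
    pp := fun c d => X.od_pp c d rfl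
    x6p := fun s c => by
      by_cases s0 : s = 0
      · exact ⟨0, by rw [s0, zero_mul, X.p_zero, X.x_zero, X.vv_zero]; group⟩
      by_cases c0 : c = 0
      · exact ⟨0, by rw [c0, mul_zero, X.p_zero, X.vv_zero]; group⟩
      obtain ⟨a, h⟩ := X.od_x6p s0 c0 rfl
      exact ⟨a, by rwa [X.od_c0, zero_mul, X.x_zero, one_mul] at h⟩ }⟩

end H16.GC
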