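import Cfsg.Agent.Lib.G24C.PT

/-! The commutators of `P̃` and `Q̃`. -/

set_option autoImplicit false

namespace H16.GC

open H30 H30.F4 H69 Subgroup Cfsg H79.AS

variable {G : Type*} [Group G] [Finite G]

namespace PQ

omit [Finite G] in
theorem cm_mul {R : Subgroup G} {g a b : G} (hn : a ∈ 𝐍(R)) (ha : g * a * g⁻¹ * a⁻¹ ∈ R)
    (hb : g * b * g⁻¹ * b⁻¹ ∈ R) : g * (a * b) * g⁻¹ * (a * b)⁻¹ ∈ R := by
  have := mul_mem ha (conj_mem_of_mem_normalizer hn hb)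
  convert this using 1
  group

omit [Finite G] in
theorem mul_cm {R : Subgroup G} {g h a : G} (hn : g ∈ 𝐍(R)) (hg : g * a * g⁻¹ * a⁻¹ ∈ R)
    (hh : h * a * h⁻¹ * a⁻¹ ∈ R) : g * h * a * (g * h)⁻¹ * a⁻¹ ∈ R := by
  have := mul_mem (conj_mem_of_mem_normalizer hn hh) hg
  convert this using 1
  group

omit [Finite G] in
theorem key {H : Type*} [Group H] {y q t a b : H} (h1 : y * t * y⁻¹ = t * b) (h2 : q * t * q⁻¹ = t * a)
    (ya : y * a * y⁻¹ * a⁻¹ = 1) (qb : q * b * q⁻¹ * b⁻¹ = 1) (ab : a * b * a⁻¹ * b⁻¹ = 1) :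
    t⁻¹ * (y⁻¹ * q⁻¹ * y * q * t * (y⁻¹ * q⁻¹ * y * q)⁻¹) = 1 := by
  have e1 : y * a * y⁻¹ = a := mul_inv_eq_one.1 ya
  have e2 : q * b * q⁻¹ = b := mul_inv_eq_one.1 qb
  have e3 : a * b = b * a := by rw [← mul_inv_eq_one, ← ab]; group
  have f1 : y * q * t * (y * q)⁻¹ = t * (b * a) := by
    calc y * q * t * (y * q)⁻¹ = y * (q * t * q⁻¹) * y⁻¹ := by group
      _ = y * t * y⁻¹ * (y * a * y⁻¹) := by rw [h2]; group
      _ = t * (b * a) := by rw [h1, e1, mul_assoc]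
  have f2 : q * y * t * (q * y)⁻¹ = t * (b * a) := by
    calc q * y * t * (q * y)⁻¹ = q * (y * t * y⁻¹) * q⁻¹ := by group
      _ = q * t * q⁻¹ * (q * b * q⁻¹) := by rw [h1]; group
      _ = t * (b * a) := by rw [h2, e2, mul_assoc, e3]
  calc t⁻¹ * (y⁻¹ * q⁻¹ * y * q * t * (y⁻¹ * q⁻¹ * y * q)⁻¹)
      = t⁻¹ * ((q * y)⁻¹ * (y * q * t * (y * q)⁻¹) * (q * y)) := by group
    _ = 1 := by rw [f1, ← f2]; group

omit [Finite G] in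
/-- `key` modulo a subgroup normalised by all the elements -/
theorem key' {R : Subgroup G} {y q t a b x x' : G} (hy : y ∈ 𝐍(R)) (hq : q ∈ 𝐍(R)) (ht : t ∈ 𝐍(R))
    (ha : a ∈ 𝐍(R)) (hb : b ∈ 𝐍(R)) (hx : x ∈ R) (hx' : x' ∈ R) (h1 : y * t * y⁻¹ = t * (b * x))
    (h2 : q * t * q⁻¹ = t * (a * x')) (ya : y * a * y⁻¹ * a⁻¹ ∈ R) (qb : q * b * q⁻¹ * b⁻¹ ∈ R)
    (ab : a * b * a⁻¹ * b⁻¹ ∈ R) : t⁻¹ * (y⁻¹ * q⁻¹ * y * q * t * (y⁻¹ * q⁻¹ * y * q)⁻¹) ∈ R := by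
  let π := QuotientGroup.mk' (R.subgroupOf 𝐍(R))
  have m : ∀ g : 𝐍(R), π g = 1 ↔ (g : G) ∈ R := fun g => QuotientGroup.eq_one_iff g
  lift y to 𝐍(R) using hy
  lift q to 𝐍(R) using hq
  lift t to 𝐍(R) using ht
  lift a to 𝐍(R) using ha
  lift b to 𝐍(R) using hb
  have e1 : y * t * y⁻¹ = t * (b * ⟨x, le_normalizer hx⟩) := Subtype.ext h1
  have e2 : q * t * q⁻¹ = t * (a * ⟨x', le_normalizer hx'⟩) := Subtype.ext h2
  have := key (y := π y) (q := π q) (t := π t) (a := π a) (b := π b)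
    (by simpa only [map_mul, map_inv, (m ⟨x, le_normalizer hx⟩).2 hx, mul_one] using congrArg π e1)
    (by simpa only [map_mul, map_inv, (m ⟨x', le_normalizer hx'⟩).2 hx', mul_one] using congrArg π e2)
    (by simpa only [map_mul, map_inv] using (m (y * a * y⁻¹ * a⁻¹)).2 ya)
    (by simpa only [map_mul, map_inv] using (m (q * b * q⁻¹ * b⁻¹)).2 qb)
    (by simpa only [map_mul, map_inv] using (m (a * b * a⁻¹ * b⁻¹)).2 ab)
  exact (m (t⁻¹ * (y⁻¹ * q⁻¹ * y * q * t * (y⁻¹ * q⁻¹ * y * q)⁻¹))).1 (by simpa only [map_mul, map_inv] using this)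

variable (X : Cc G)

theorem x6_QA (s : F4) : X.x 6 s ∈ X.QA := X.qa_6 0 0 s ▸ X.qa_mem _

theorem R_le_Qt : X.R ≤ X.Qt := inf_le_left

theorem Vt_le_R : X.Vt ≤ X.R := X.Vt_le_Wt.trans X.Wt_le_R

theorem Pt_U {y u : G} (hy : y ∈ X.Pt) (hu : u ∈ X.U) : y * u * y⁻¹ * u⁻¹ ∈ X.R := by
  obtain ⟨s, b, hb, rfl⟩ := X.U_split hu
  exact cm_mul (X.U_nR (X.x_U le_rfl s)) (X.Pt_QA hy (x6_QA X s))
    (X.Wt_le_R ((X.pre_P.mem_iff.1 hy).2.2.1 b hb))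

theorem Qt_U {q u : G} (hq : q ∈ X.Qt) (hu : u ∈ X.U) : q * u * q⁻¹ * u⁻¹ ∈ X.R := by
  obtain ⟨s, b, hb, rfl⟩ := X.U_split hu
  exact cm_mul (X.U_nR (X.x_U le_rfl s)) (Vt_le_R X ((X.pre_Q.mem_iff.1 hq).2.2.1 _ (x6_QA X s)))
    (X.Qt_P hq hb)

theorem cent_R0 {g : G} (ht : g * X.t = X.t * g) (hW : g ∈ 𝐂(X.Wt))
    (h7 : ∀ c, g * X.x 7 c * g⁻¹ * (X.x 7 c)⁻¹ ∈ X.R) (h9 : g * X.x 9 1 * g⁻¹ * (X.x 9 1)⁻¹ ∈ X.Vt) :
    ∃ o ∈ X.O, ∃ b ∈ X.R0, g = o * b := by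
  obtain ⟨o, ho, b, hb, e⟩ := X.ct_V ht (centralizer_anti (X.V_le_W.trans X.W_le_Wt) hW)
  have bA : b ∈ X.A := X.B_le_A hb
  have cj : ∀ a ∈ X.A, g * a * g⁻¹ = b * a * b⁻¹ := fun a ha => by
    have m : b * a * b⁻¹ ∈ X.A := mul_mem (mul_mem bA ha) (inv_mem bA)
    rcases e with rfl | rfl
    · rw [← conj_eq_of_mem_centralizer (X.O_K ho) m]; group
    · rw [← conj_eq_of_mem_centralizer (mul_mem (X.O_K ho) X.t_K) m]; group
  have cA : ∀ r s, b * X.x r s * b⁻¹ * (X.x r s)⁻¹ ∈ X.A := fun r s =>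
    mul_mem (mul_mem (mul_mem bA (X.x_mem r s)) (inv_mem bA)) (inv_mem (X.x_mem r s))
  have bU : b ∈ X.U := X.mem_U_of hb fun c =>
    X.R0_le_QA (X.R_t (cj _ (X.x_mem 7 c) ▸ h7 c) (X.t_A (cA 7 c)))
  have bP : b ∈ X.P := X.cent_W bU (mul_inv_eq_iff_eq_mul.1 ((cj _ (X.x_mem 10 1)).symm.trans
    (conj_eq_of_mem_centralizer hW (X.W_le_Wt (X.x_W le_rfl 1)))))
  have bR : b ∈ X.R0 := X.P_x9 bP (X.Vt_A (cj _ (X.x_mem 9 1) ▸ h9) (cA 9 1))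
  rcases e with e | e
  · exact ⟨o, ho, b, bR, e⟩
  · refine absurd (centralizer_anti X.Vt_le_Wt ?_) X.t_not_CVt
    rw [e] at hW
    exact (mul_mem_cancel_left (le_centralizer_iff.1 X.Wt_O ho)).1 ((mul_mem_cancel_right (X.P_Wt bP)).1 hW)

theorem main {y q : G} (hy : y ∈ X.Pt) (hq : q ∈ X.Qt) : y⁻¹ * q⁻¹ * y * q ∈ X.R := by
  have yR := X.Pt_nR hy
  have qR := X.Qt_nR hq
  obtain ⟨b, hb, x, hx, e1⟩ := X.dbl_Pt.im hy
  obtain ⟨a, ha, x', hx', e2⟩ := X.dbl_Qt.im hq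
  have k1 := key' yR qR X.dbl_R.cY (X.U_nR (X.QA_le_U ha)) (X.U_nR (X.P_le_U hb)) (X.Wt_le_R hx) (Vt_le_R X hx')
    e1 e2 (X.Pt_QA hy ha) (X.Qt_P hq hb) (X.R0_le_R (X.U_comm (X.QA_le_U ha) (X.P_le_U hb)))
  set κ := y⁻¹ * q⁻¹ * y * q with hκ
  obtain ⟨r, hr, e⟩ := X.fr_R _ k1 (by
    rw [mul_inv_cancel_left, conj_mul, X.t_sq, mul_one, mul_inv_cancel])
  rw [mul_inv_cancel_left] at e
  have gt : r⁻¹ * κ * X.t = X.t * (r⁻¹ * κ) := by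
    calc r⁻¹ * κ * X.t = r⁻¹ * (κ * X.t * κ⁻¹) * κ := by group
      _ = X.t * (r⁻¹ * κ) := by rw [← e]; group
  have κW : κ ∈ 𝐂(X.Wt) := by
    have := mul_mem (inv_mem (X.Pt_Wt hy)) (conj_mem_of_mem_normalizer'
      (normalizer_le_normalizer_centralizer _ (X.Qt_nWt hq)) (X.Pt_Wt hy))
    convert this using 1
    rw [hκ]; group
  have x9 : X.x 9 1 ∈ X.R := X.R0_le_R (X.x_R0 (by decide) 1)
  have yV : y ∈ 𝐍(X.Vt) := centralizer_le_normalizer _ (centralizer_anti X.Vt_le_Wt (X.Pt_Wt hy))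
  have qV : ∀ z ∈ X.Qt, z ∈ 𝐍(X.Vt) := fun z hz => X.dbl_Qt.toSec.norm hz
  obtain ⟨o, ho, b', hb', e'⟩ := cent_R0 X gt (mul_mem (inv_mem hr.2) κW) (fun c => by
      have u := X.x_U (r := 7) (by decide) c
      refine mul_cm (le_normalizer (inv_mem hr)) ?_ (mul_cm (mul_mem (mul_mem (inv_mem yR) (inv_mem qR)) yR)
        (mul_cm (mul_mem (inv_mem yR) (inv_mem qR)) (mul_cm (inv_mem yR) (Pt_U X (inv_mem hy) u)
          (Qt_U X (inv_mem hq) u)) (Pt_U X hy u)) (Qt_U X hq u))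
      exact Qt_U X (inv_mem hr.1) u) (by
      refine mul_cm (qV _ (inv_mem hr.1)) (X.dbl_Qt.comm _ (inv_mem hr.1) _ x9.1) ?_
      have := conj_mem_of_mem_normalizer' yV (mul_mem (conj_mem_of_mem_normalizer' (qV q hq)
        (conj_mem_of_mem_normalizer yV (X.dbl_Qt.comm _ hq _ x9.1)))
        (X.dbl_Qt.comm _ (inv_mem hq) _ (conj_mem_of_mem_normalizer yR x9).1))
      convert this using 1
      rw [hκ]; group)
  have m : r * b' ∈ X.R := mul_mem hr (X.R0_le_R hb')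
  have oc : ∀ z ∈ 𝐂(X.O), o * z = z * o := fun z hz => mem_centralizer_iff.1 hz o ho
  have e3 : κ = o * (r * b') := by
    rw [← mul_assoc, oc r (X.Qt_O hr.1), mul_assoc, ← e', mul_inv_cancel_left]
  have yy : y * y ∈ X.R := X.Wt_le_R (X.dbl_Pt.sq y hy)
  have k2 : y * κ * y⁻¹ * κ ∈ X.R := by
    have := conj_mem_of_mem_normalizer' qR (mul_mem (conj_mem_of_mem_normalizer yR
      (conj_mem_of_mem_normalizer qR (inv_mem yy))) yy)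
    convert this using 1
    rw [hκ]; group
  have m' := conj_mem_of_mem_normalizer yR m
  have k3 : y * κ * y⁻¹ * κ = o * o * (y * (r * b') * y⁻¹ * (r * b')) := by
    calc y * κ * y⁻¹ * κ = y * o * y⁻¹ * (y * (r * b') * y⁻¹ * o) * (r * b') := by rw [e3]; group
      _ = _ := by rw [← oc y (X.Pt_O hy), ← oc _ (X.Qt_O m'.1)]; group
  rw [k3, mul_mem_cancel_right (mul_mem m' m)] at k2
  obtain ⟨n, hn⟩ := X.O_odd
  have o1 : o ^ (2 * n + 1) = 1 := by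
    rw [← hn]
    exact congrArg Subtype.val (pow_card_eq_one' (x := (⟨o, ho⟩ : X.O)))
  rw [pow_succ, pow_mul, pow_two] at o1
  rw [e3, eq_inv_of_mul_eq_one_right o1]
  exact mul_mem (inv_mem (pow_mem k2 n)) m

end PQ

namespace Cc

variable (X : Cc G)

theorem Pt_Qt {y q : G} (hy : y ∈ X.Pt) (hq : q ∈ X.Qt) : y * q * y⁻¹ * q⁻¹ ∈ X.R := by
  simpa only [inv_inv] using PQ.main X (inv_mem hy) (inv_mem hq)

end Cc

end H16.GC
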