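import Cfsg.Agent.Lib.G24C.RR

/-! The group `P̃`. -/

set_option autoImplicit false

namespace H16.GC

open H30 H30.F4 H69 Subgroup Cfsg H79.AS

variable {G : Type*} [Group G] [Finite G]

open QT

namespace Cc

variable (X : Cc G)

theorem pre_P : Pre X.t X.O X.Wt X.P where
  t_sq := X.t_sq
  O_odd := X.O_odd
  t_O := X.t_O
  t_Z := X.t_Wt
  Z_ab := X.Wt_ab
  Z_sq := fun _ => X.Wt_sq
  Z_O := X.Wt_O
  B_O := X.P_le_U.trans (X.U_le_A.trans X.A_O)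
  B_Z := X.P_Wt
  B_t := fun _ h => X.t_A (X.U_le_A (X.P_le_U h))
  B_comm := fun _ ha _ hb => X.W_le_Wt (X.P_comm ha hb)
  B_sq := fun _ ha => X.W_le_Wt (X.P_sq ha)
  fr := X.fr_Wt
  cen := fun g hg e h => by
    have key : ∀ k ∈ 𝐂(X.A), ∀ b ∈ X.B, g = k * b → b ∈ X.P := fun k hk b hb d => by
      have st : ∀ a ∈ X.A, g * a * g⁻¹ = b * a * b⁻¹ := fun a ha => by
        rw [d, show k * b * a * (k * b)⁻¹ = k * (b * a * b⁻¹) * k⁻¹ by group,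
          cc hk (nm (le_normalizer (X.B_le_A hb)) ha)]
      refine X.cent_W (X.mem_U_of hb fun c => X.R0_le_QA (X.W_le_R0 (X.Wt_A ?_ ?_))) ?_
      · exact st _ (X.x_mem 7 c) ▸ h _ (X.x_P (by decide) c)
      · exact mul_mem (nm (le_normalizer (X.B_le_A hb)) (X.x_mem 7 c)) (inv_mem (X.x_mem 7 c))
      · rw [← mul_inv_eq_iff_eq_mul, ← st _ (X.x_mem 10 1), cc hg (X.W_le_Wt (X.x_W (by decide) 1))]
    obtain ⟨o, ho, b, hb, d | d⟩ := X.ct_V e (centralizer_le (X.V_le_Vt.trans X.Vt_le_Wt) hg)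
    · exact ⟨o, ho, b, key o (X.O_K ho) b hb d, d⟩
    · have m := X.P_Wt (key _ (mul_mem (X.O_K ho) X.t_K) b hb d)
      rw [d] at hg
      exact absurd (centralizer_le X.Vt_le_Wt ((mul_mem_cancel_left (csym X.Wt_O ho)).1
        ((mul_mem_cancel_right m).1 hg))) X.t_not_CVt
  zb := fun _ hb h => X.W_le_Wt (X.cent_P hb h)
theorem R_le_Pt : X.R ≤ X.Pt := fun r hr => by
  obtain ⟨b, hb, x, hx, d⟩ := X.dbl_R.im hr
  exact DbS.mem ⟨hr.2, X.Qt_O hr.1, fun b hb => X.R_P hr hb, ⟨b, X.R0_le_P hb, x, X.Vt_le_Wt hx, d⟩,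
    X.Vt_le_Wt (X.dbl_R.sq r hr)⟩
theorem U_nPt : X.U ≤ 𝐍(X.Pt) := fun _ h =>
  Db_norm (X.t_A (X.U_le_A h)) (centralizer_le_normalizer _ (X.A_O (X.U_le_A h))) (X.U_nWt h) (X.U_nP h)
theorem Pt_Wt : X.Pt ≤ 𝐂(X.Wt) := fun _ h => (X.pre_P.mem_iff.1 h).1
theorem Pt_O : X.Pt ≤ 𝐂(X.O) := fun _ h => (X.pre_P.mem_iff.1 h).2.1
theorem dbl_Pt : Dbl X.t X.Pt X.Wt X.P := by
  obtain ⟨H, hH⟩ := X.pre_P.sec.exists_on X.pre_P.B_le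
  refine X.pre_P.dbl fun b hb => ((hH b).1 (X.P_gen (fun e he => ?_) (fun g hg => ?_) hb)).2
  · exact (hH e).2 ⟨X.R0_le_P he, (X.dbl_R.onto e he).mono X.R_le_Pt X.Vt_le_Wt⟩
  · obtain ⟨h1, h2⟩ := (hH g).1 hg
    exact (hH _).2 ⟨nm X.nb_P h1, h2.conj (X.t_A X.nb_mem) (Db_norm (X.t_A X.nb_mem)
      (centralizer_le_normalizer _ (X.A_O X.nb_mem)) X.nb_Wt X.nb_P) X.nb_Wt⟩
theorem card_Pt : Nat.card X.Pt = 2 ^ 20 := by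
  have := X.dbl_Pt.card
  rw [show X.P ⊓ X.Wt = X.W from le_antisymm (fun x h => X.Wt_A h.2 (X.U_le_A (X.P_le_U h.1)))
    (le_inf (X.W_le_R0.trans X.R0_le_P) X.W_le_Wt), X.card_W, X.card_P, X.card_Wt] at this
  omega
theorem Pt_nR : X.Pt ≤ 𝐍(X.R) := fun y hy => nrm fun x hx => by
  simpa using mul_mem (X.Wt_le_R (X.dbl_Pt.comm y hy x (X.R_le_Pt hx))) hx
theorem Pt_inf_Qt : X.Pt ⊓ X.Qt = X.R :=
  le_antisymm (fun _ h => ⟨h.2, X.Pt_Wt h.1⟩) (le_inf X.R_le_Pt inf_le_left)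

end Cc

namespace PT

variable (X : Cc G)

theorem c_R0 : X.x 9 1 ∈ X.R0 := X.x_R0 (by decide) 1
theorem c_Pt : X.x 9 1 ∈ X.Pt := X.dbl_Pt.B_le (X.R0_le_P (c_R0 X))

/-- the commutator with a short root element -/
def ga (y : G) : G := y * X.x 9 1 * y⁻¹ * (X.x 9 1)⁻¹

variable {X} {y y' : G}

theorem ga_mem (hy : y ∈ X.Pt) : ga X y ∈ X.Wt := X.dbl_Pt.comm y hy _ (c_Pt X)
theorem ga_mul (hy : y ∈ X.Pt) (hy' : y' ∈ X.Pt) : ga X (y * y') = ga X y' * ga X y := by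
  rw [← cc (X.Pt_Wt hy) (ga_mem hy'), ga, ga, ga]; group
theorem ga_Wt (hy : y ∈ X.Wt) : ga X y = 1 := by
  rw [ga, X.Pt_Wt (c_Pt X) y hy]; group
omit [Finite G] in
theorem ga_cj {g : G} (e : g * X.x 9 1 = X.x 9 1 * g) : ga X (g * y * g⁻¹) = g * ga X y * g⁻¹ := by
  have c : g⁻¹ * X.x 9 1 * g = X.x 9 1 := by rw [mul_assoc, ← e, inv_mul_cancel_left]
  rw [ga, ga]
  nth_rw 3 [← c]
  nth_rw 4 [← c]
  group
theorem ga_P (hy : y ∈ X.P) (e : ga X y ∈ X.Vt) : y ∈ X.R0 :=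
  X.P_x9 hy (X.Vt_A e (mul_mem (nm (le_normalizer (X.U_le_A (X.P_le_U hy))) (X.x_mem 9 1))
    (inv_mem (X.x_mem 9 1))))

end PT

open PT

namespace Cc

variable (X : Cc G)

theorem Pt_x9 {y : G} (h : y ∈ X.Pt) (e : y * X.x 9 1 * y⁻¹ * (X.x 9 1)⁻¹ ∈ X.Vt) : y ∈ X.R := by
  have D := X.dbl_Pt
  have e' : ga X y ∈ X.Vt := e
  obtain ⟨b, hb, x, hx, d⟩ := D.im h
  have k : X.t * y * X.t⁻¹ = b * x * y := by
    rw [X.t_inv, show b * x = X.t⁻¹ * (X.t * (b * x)) by group, ← d, X.t_inv]; group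
  have m := nm X.t_Vt e'
  rw [← ga_cj (X.t_A (X.x_mem 9 1)).symm, k, ga_mul (mul_mem (D.B_le hb) (D.le hx)) h,
    ga_mul (D.B_le hb) (D.le hx), ga_Wt hx, one_mul] at m
  obtain ⟨r, hr, x', hx', d'⟩ := X.dbl_R.onto b (ga_P hb ((mul_mem_cancel_left e').1 m))
  obtain ⟨u, hu, f⟩ := D.toSec.mv_div (X.R_le_Pt hr) h (X.Vt_le_Wt hx') hx d' d
  obtain ⟨b', hb', x1, hx1, q⟩ := D.ker _ (mul_mem (inv_mem (X.R_le_Pt hr)) h) u hu f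
  obtain rfl : y = r * (b' * x1) := by rw [← q, mul_inv_cancel_left]
  rw [ga_mul (X.R_le_Pt hr) (mul_mem (D.B_le hb') (D.le hx1)), ga_mul (D.B_le hb') (D.le hx1), ga_Wt hx1,
    one_mul] at e'
  exact mul_mem hr (mul_mem (X.R0_le_R (ga_P hb' ((mul_mem_cancel_right
    (X.dbl_R.comm r hr _ (X.R0_le_R (c_R0 X)))).1 e'))) (X.Wt_le_R hx1))
theorem Pt_QA {y q : G} (hy : y ∈ X.Pt) (hq : q ∈ X.QA) : y * q * y⁻¹ * q⁻¹ ∈ X.R := by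
  obtain ⟨s, b, hb, rfl⟩ := X.QA_split hq
  have u := X.x_U (r := 6) (by decide) s
  have m := nm (X.U_nPt u) (inv_mem hy)
  have i : ga X y⁻¹ = (ga X y)⁻¹ := by
    rw [eq_inv_iff_mul_eq_one, ← ga_mul hy (inv_mem hy), mul_inv_cancel, ga_Wt (one_mem _)]
  have k : ga X (y * (X.x 6 s * y⁻¹ * (X.x 6 s)⁻¹)) ∈ X.Vt := by
    rw [ga_mul hy m, ga_cj (X.x6_x9 s 1), i]
    simpa only [inv_inv] using X.U_Wt u (inv_mem (ga_mem hy))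
  rw [show y * (X.x 6 s * b) * y⁻¹ * (X.x 6 s * b)⁻¹ = y * (X.x 6 s * y⁻¹ * (X.x 6 s)⁻¹) *
    (X.x 6 s * (y * b * y⁻¹ * b⁻¹) * (X.x 6 s)⁻¹) by group]
  exact mul_mem (X.Pt_x9 (mul_mem hy m) k) (X.Wt_le_R (nm (X.U_nWt u)
    (X.dbl_Pt.comm y hy b (X.dbl_Pt.B_le (X.R0_le_P hb)))))

end Cc

end H16.GC
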