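import Cfsg.Agent.Lib.G24C.WT
import Cfsg.Agent.Lib.G24C.GD

/-! The group `Q̃`. -/

set_option autoImplicit false

namespace H16.GC

open H30 H30.F4 H69 Subgroup Cfsg H79.AS

variable {G : Type*} [Group G] [Finite G]

namespace QT

omit [Finite G] in
theorem csym {H K : Subgroup G} (h : H ≤ 𝐂(K)) : K ≤ 𝐂(H) := fun _ hk _ hx => (h hx _ hk).symm

theorem nrm {K : Subgroup G} {g : G} (e : ∀ x ∈ K, g * x * g⁻¹ ∈ K) : g ∈ 𝐍(K) :=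
  mem_normalizer_of_cj_le fun x hx => by
    obtain ⟨a, ha, rfl⟩ := mem_cj'.1 hx
    exact e a ha

omit [Finite G] in
theorem nm {K : Subgroup G} {g x : G} (hg : g ∈ 𝐍(K)) (hx : x ∈ K) : g * x * g⁻¹ ∈ K :=
  (mem_normalizer_iff.1 hg x).1 hx

omit [Finite G] in
theorem cc {K : Subgroup G} {g x : G} (hg : g ∈ 𝐂(K)) (hx : x ∈ K) : g * x * g⁻¹ = x := by
  rw [← hg x hx, mul_inv_cancel_right]

theorem no2 {D E : Subgroup G} {g : G} (h : D ≤ E) (c : Nat.card E = Nat.card D * 2) (hD : g ∈ 𝐍(D))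
    (hE : g ∈ 𝐍(E)) (e : ∀ x ∈ E, x * (g * x * g⁻¹) * (g * g * x * (g * g)⁻¹) = 1) : False := by
  have ix : (D.subgroupOf E).index = 2 := by
    have := (D.subgroupOf E).card_mul_index
    rw [Nat.card_congr (subgroupOfEquivOfLe h).toEquiv, c] at this
    exact Nat.eq_of_mul_eq_mul_left Nat.card_pos this
  obtain ⟨a, n, -⟩ := index_eq_two_iff_exists_notMem_and.1 ix
  have n1 : g * a * g⁻¹ ∉ D := fun d => n ((mem_normalizer_iff.1 hD a).2 d)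
  have m : (a : G) * (g * a * g⁻¹) ∈ D :=
    (mul_mem_iff_of_index_two ix (a := a) (b := ⟨_, nm hE a.2⟩)).2 (iff_of_false n n1)
  exact n ((mem_normalizer_iff.1 (mul_mem hD hD) a).2
    ((mul_mem_cancel_left m).1 (by rw [e a a.2]; exact one_mem _)))

end QT

open QT

namespace Cc

variable (X : Cc G)

theorem pre_Q : Pre X.t X.O X.Vt X.QA where
  t_sq := X.t_sq
  O_odd := X.O_odd
  t_O := X.t_O
  t_Z := X.t_Vt
  Z_ab := X.Vt_ab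
  Z_sq := fun _ => X.Vt_sq
  Z_O := X.Vt_O
  B_O := X.QA_le_B.trans (X.B_le_A.trans X.A_O)
  B_Z := X.QA_le_B.trans X.B_Vt
  B_t := fun _ h => X.t_A (X.B_le_A (X.QA_le_B h))
  B_comm := fun _ ha _ hb => X.V_le_Vt (X.QA_comm ha hb)
  B_sq := fun _ ha => X.V_le_Vt (X.QA_sq ha)
  fr := X.fr_Vt
  cen := fun g hg e h => by
    obtain ⟨o, ho, b, hb, rfl | rfl⟩ := X.ct_V e (centralizer_le X.V_le_Vt hg)
    · refine ⟨o, ho, b, X.mem_QA_of hb fun q hq => ?_, rfl⟩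
      have a := nm (le_normalizer (X.B_le_A hb)) (X.B_le_A (X.QA_le_B hq))
      have d := h q hq
      rw [show o * b * q * (o * b)⁻¹ = o * (b * q * b⁻¹) * o⁻¹ by group, cc (X.O_K ho) a] at d
      exact X.Vt_A d (mul_mem a (inv_mem (X.B_le_A (X.QA_le_B hq))))
    · exact absurd ((mul_mem_cancel_left (csym X.Vt_O ho)).1
        ((mul_mem_cancel_right (X.B_Vt hb)).1 hg)) X.t_not_CVt
  zb := fun b hb h => X.V_le_Vt (X.p1.B_cent b (X.QA_le_B hb) h)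
theorem Wt_le_Qt : X.Wt ≤ X.Qt := fun x hx => by
  obtain ⟨e, he, d⟩ := X.Wt_im hx
  refine DbS.mem ⟨centralizer_le X.Vt_le_Wt (X.Wt_ab hx), X.Wt_O hx, fun b hb => ?_,
    ⟨e, X.R0_le_QA (X.W_le_R0 he), 1, one_mem _, by rw [d, mul_one]⟩, X.Wt_sq hx ▸ one_mem _⟩
  simpa [mul_assoc] using inv_mem (X.U_Wt (X.QA_le_U hb) hx)
theorem B_nQt : X.B ≤ 𝐍(X.Qt) := fun _ h =>
  Db_norm (X.t_A (X.B_le_A h)) (centralizer_le_normalizer _ (X.A_O (X.B_le_A h)))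
    (centralizer_le_normalizer _ (X.B_Vt h)) (X.B_norm_QA h)
theorem th_Qt : X.th ∈ 𝐍(X.Qt) :=
  Db_norm (X.t_A X.th_mem) (centralizer_le_normalizer _ (X.A_O X.th_mem)) X.th_Vt X.th_QA
theorem Qt_Vt : X.Qt ≤ 𝐂(X.Vt) := fun _ h => (X.pre_Q.mem_iff.1 h).1
theorem Qt_O : X.Qt ≤ 𝐂(X.O) := fun _ h => (X.pre_Q.mem_iff.1 h).2.1
theorem dbl_Qt : Dbl X.t X.Qt X.Vt X.QA := by
  obtain ⟨H, hH⟩ := X.pre_Q.sec.exists_on X.pre_Q.B_le
  refine X.pre_Q.dbl fun b hb => ((hH b).1 (X.QA_gen (fun e he => ?_) (fun b hb g hg => ?_) hb)).2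
  · obtain ⟨x, hx, d⟩ := X.Wt_on he
    exact (hH e).2 ⟨X.R0_le_QA (X.W_le_R0 he), x, X.Wt_le_Qt hx, 1, one_mem _, by rw [d, mul_one]⟩
  · obtain ⟨h1, h2⟩ := (hH g).1 hg
    exact (hH _).2 ⟨nm (X.B_norm_QA hb) h1, h2.conj (X.t_A (X.B_le_A hb)) (X.B_nQt hb)
      (centralizer_le_normalizer _ (X.B_Vt hb))⟩
theorem card_Qt : Nat.card X.Qt = 2 ^ 20 := by
  have := X.dbl_Qt.card
  rw [show X.QA ⊓ X.Vt = X.V from le_antisymm (fun x h => X.Vt_A h.2 (X.B_le_A (X.QA_le_B h.1)))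
    (le_inf X.V_le_QA X.V_le_Vt), X.card_V, X.card_QA, X.card_Vt] at this
  omega
theorem Qt_t {y : G} (h : y ∈ X.Qt) (e : y * X.t = X.t * y) : y ∈ X.QA := by
  obtain ⟨b, hb, x, hx, d, rfl⟩ := X.dbl_Qt.cent h e
  exact mul_mem hb (X.V_le_QA (X.Vt_t hx d))
theorem Qt_nWt : X.Qt ≤ 𝐍(X.Wt) := fun y hy => nrm fun x hx => by
  simpa using mul_mem (X.Vt_le_Wt (X.dbl_Qt.comm y hy x (X.Wt_le_Qt hx))) hx

end Cc

namespace QT

variable (X : Cc G)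

theorem pv0 (s : F4) : X.pv (0, s) = X.vv s := by rw [Cc.pv, X.p_zero, one_mul]

theorem cls1 {e : G} (he : e ∈ X.W) (h : e ∉ X.V) (c : F4) :
    ∃ y ∈ X.Qt, ∃ s, y * e * y⁻¹ = e * X.pv (c, s) := by
  obtain ⟨q, hq, d⟩ := X.W_cls he h c
  obtain ⟨y, hy, x, hx, m⟩ := X.dbl_Qt.onto q hq
  have eQ := X.Wt_le_Qt (X.W_le_Wt he)
  have eB := X.QA_le_B (X.R0_le_QA (X.W_le_R0 he))
  obtain ⟨u, k⟩ := X.mem_Vt.1 (X.dbl_Qt.comm _ (inv_mem eQ) y hy)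
  have k1 : y * e * y⁻¹ = e * X.pv u := by rw [← k]; group
  have k2 : X.t * y * X.t⁻¹ = q * x * y := by
    rw [X.t_inv, show q * x = X.t⁻¹ * (X.t * (q * x)) by group, ← m, X.t_inv]; group
  have k3 : e * X.pv (u.1, u.2 + u.1) = e * X.pv ((0, c) + u) := by
    calc _ = X.t * (y * e * y⁻¹) * X.t⁻¹ := by
          rw [k1, cj_mul, X.t_pv, ← X.t_A (X.B_le_A eB), mul_inv_cancel_right]
      _ = X.t * y * X.t⁻¹ * (X.t * e * X.t⁻¹) * (X.t * y * X.t⁻¹)⁻¹ := by group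
      _ = q * (x * (y * e * y⁻¹) * x⁻¹) * q⁻¹ := by
          rw [k2, ← X.t_A (X.B_le_A eB), mul_inv_cancel_right]; group
      _ = _ := by
          rw [k1, X.Qt_Vt (mul_mem eQ (X.dbl_Qt.le (X.pv_mem u))) x hx, mul_inv_cancel_right, cj_mul, d,
            cc (X.B_Vt (X.QA_le_B hq)) (X.pv_mem u), X.pv_add, pv0, mul_assoc]
  have k4 := congrArg Prod.snd (X.pv_inj (mul_left_cancel k3))
  obtain ⟨u1, u2⟩ := u
  obtain rfl : u1 = c := by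
    simp only [Prod.snd_add] at k4
    exact add_left_cancel (k4.trans (add_comm _ _))
  exact ⟨y, hy, u2, k1⟩

/-- the commutator map -/
def Bt (x y : G) (u : F4 × F4) : Prop := x * y * x⁻¹ * y⁻¹ = X.pv u

variable {X} {x x' y y' : G} {u u' : F4 × F4}

theorem Bt_ex (hx : x ∈ X.Qt) (hy : y ∈ X.Qt) : ∃ u, Bt X x y u := X.mem_Vt.1 (X.dbl_Qt.comm x hx y hy)
theorem Bt.uq (a : Bt X x y u) (b : Bt X x y u') : u = u' := X.pv_inj (a.symm.trans b)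
theorem Bt_zero : Bt X x y 0 ↔ x * y = y * x := by
  rw [Bt, show X.pv 0 = 1 from (pv0 X 0).trans X.vv_zero, mul_inv_eq_one, mul_inv_eq_iff_eq_mul]
theorem Bt.left (hx : x ∈ X.Qt) (a : Bt X x y u) (b : Bt X x' y u') : Bt X (x * x') y (u' + u) := by
  rw [Bt, X.pv_add, ← a, ← cc (X.Qt_Vt hx) (X.pv_mem u'), ← b]; group
theorem Bt.right (hy : y ∈ X.Qt) (a : Bt X x y u) (b : Bt X x y' u') : Bt X x (y * y') (u + u') := by
  rw [Bt, X.pv_add, ← a, ← cc (X.Qt_Vt hy) (X.pv_mem u'), ← b]; group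
theorem Bt.th (a : Bt X x y u) :
    Bt X (X.th * x * X.th⁻¹) (X.th * y * X.th⁻¹) (v * u.1, v * u.2) := by
  rw [Bt, ← X.th_pv, ← a]; group

theorem th3 (hy : y ∈ X.Qt) :
    y * (X.th * y * X.th⁻¹) * (X.th * X.th * y * (X.th * X.th)⁻¹) ∈ X.Vt := by
  have D := X.dbl_Qt
  obtain ⟨b, hb, x, hx, e⟩ := D.im hy
  have st : ∀ g ∈ X.A, g * y * g⁻¹ * X.t * (g * y * g⁻¹)⁻¹ = X.t * (g * b * g⁻¹ * (g * x * g⁻¹)) :=
    fun g hg => by
      have c : g * X.t * g⁻¹ = X.t := by rw [X.t_A hg, mul_inv_cancel_right]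
      nth_rw 1 [← c]
      rw [show g * y * g⁻¹ * (g * X.t * g⁻¹) * (g * y * g⁻¹)⁻¹ = g * (y * X.t * y⁻¹) * g⁻¹ by group, e,
        cj_mul, cj_mul, c]
  have y1 := nm X.th_Qt hy
  have y2 := nm (mul_mem X.th_Qt X.th_Qt) hy
  obtain ⟨a, ha, e1⟩ := D.toSec.mv_mul hy y1 (D.B_le (nm X.th_QA hb)) hx (nm X.th_Vt hx) e (st _ X.th_mem)
  obtain ⟨a', ha', e2⟩ := D.toSec.mv_mul (mul_mem hy y1) y2 (D.B_le (nm (mul_mem X.th_QA X.th_QA) hb)) ha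
    (nm (mul_mem X.th_Vt X.th_Vt) hx) e1 (st _ (mul_mem X.th_mem X.th_mem))
  have hm := mul_mem (mul_mem hy y1) y2
  obtain ⟨b1, hb1, x1, hx1, k⟩ := D.ker _ hm _ (mul_mem (X.V_le_Vt (X.th_q hb)) ha') e2
  have c := D.comm _ (inv_mem hy) _ hm
  have k1 : X.th * (b1 * x1) * X.th⁻¹ = y⁻¹ * (b1 * x1) * y⁻¹⁻¹ := by
    rw [← k, cj_mul, cj_mul,
      show X.th * (X.th * X.th * y * (X.th * X.th)⁻¹) * X.th⁻¹ =
        X.th * X.th * X.th * y * (X.th * X.th * X.th)⁻¹ by group, X.th_cube]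
    group
  rw [k, ← k1, show X.th * (b1 * x1) * X.th⁻¹ * (b1 * x1)⁻¹ =
    X.th * b1 * X.th⁻¹ * b1⁻¹ * (b1 * (X.th * x1 * X.th⁻¹ * x1⁻¹) * b1⁻¹) by group] at c
  rw [k]
  refine mul_mem (X.V_le_Vt (X.th_fix hb1 (X.Vt_A ((mul_mem_cancel_right (nm (D.toSec.norm (D.B_le hb1))
    (mul_mem (nm X.th_Vt hx1) (inv_mem hx1)))).1 c) ?_))) hx1
  exact X.B_le_A (X.QA_le_B (mul_mem (nm X.th_QA hb1) (inv_mem hb1)))

theorem th_cm (hx : x ∈ X.Qt) (hy : y ∈ X.Qt) (e : x * y = y * x) :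
    X.th * x * X.th⁻¹ * y = y * (X.th * x * X.th⁻¹) := by
  have t2 : ∀ g, X.th * (X.th * g * X.th⁻¹) * X.th⁻¹ = X.th * X.th * g * (X.th * X.th)⁻¹ := fun g => by
    group
  have t3 : ∀ g, X.th * (X.th * (X.th * g * X.th⁻¹) * X.th⁻¹) * X.th⁻¹ = g := fun g => by
    rw [show X.th * (X.th * (X.th * g * X.th⁻¹) * X.th⁻¹) * X.th⁻¹ =
      X.th * X.th * X.th * g * (X.th * X.th * X.th)⁻¹ by group, X.th_cube]
    group
  have x1 := nm X.th_Qt hx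
  have y1 := nm X.th_Qt hy
  obtain ⟨⟨b, b'⟩, hb⟩ := Bt_ex x1 hy
  obtain ⟨⟨c, c'⟩, hc⟩ := Bt_ex hx y1
  have h0 := (Bt_zero (X := X)).2 e
  have h1 := hb.th.th
  have h2 := hc.th.th
  rw [t3, t2] at h1 h2
  have k1 := (Bt.left (mul_mem hx x1) (h0.left hx hb) h2).uq (Bt_zero.2 (X.Qt_Vt hy _ (th3 hx)))
  have k2 := (Bt.right (mul_mem hy y1) (h0.right hy hc) h1).uq (Bt_zero.2 (X.Qt_Vt hx _ (th3 hy)).symm)
  have f : ∀ b c : F4, v * (v * c) + (b + 0) = 0 → 0 + c + v * (v * b) = 0 → b = 0 := by decide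
  refine Bt_zero.1 (show Bt X _ _ (0, 0) from ?_)
  rwa [f b c (congrArg Prod.fst k1) (congrArg Prod.fst k2),
    f b' c' (congrArg Prod.snd k1) (congrArg Prod.snd k2)] at hb

end QT

namespace Cc

variable (X : Cc G)

theorem Qt_cls {e x : G} (he : e ∈ X.W) (h : e ∉ X.V) (hx : x ∈ X.Vt) :
    ∃ y ∈ X.Qt, y * e * y⁻¹ = e * x := by
  obtain ⟨⟨c, s⟩, rfl⟩ := X.mem_Vt.1 hx
  obtain ⟨y, hy, a, d⟩ := cls1 X he h c
  obtain ⟨q, hq, k⟩ := X.W_cls he h (s + a)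
  refine ⟨q * y, mul_mem (X.dbl_Qt.B_le hq) hy, ?_⟩
  rw [show q * y * e * (q * y)⁻¹ = q * (y * e * y⁻¹) * q⁻¹ by group, d, cj_mul, k,
    cc (X.B_Vt (X.QA_le_B hq)) (X.pv_mem _), ← pv0, mul_assoc, ← X.pv_add, Prod.mk_add_mk, zero_add,
    add_assoc, f4_self, add_zero]
theorem Qt_tri {q : G} (hq : q ∈ X.Qt) : (X.Wt ⊓ centralizer {q} : Subgroup G) = X.Vt ∨
    Nat.card (X.Wt ⊓ centralizer {q} : Subgroup G) = 64 ∨ X.Wt ≤ centralizer {q} := by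
  have h1 : X.Vt ≤ X.Wt ⊓ centralizer {q} := fun x hx =>
    ⟨X.Vt_le_Wt hx, mem_centralizer_singleton_iff.2 (X.Qt_Vt hq x hx)⟩
  have h2 : X.th ∈ 𝐍(X.Wt ⊓ centralizer {q}) := nrm fun x hx => ⟨nm X.th_Wt hx.1,
    mem_centralizer_singleton_iff.2 (th_cm (X.Wt_le_Qt hx.1) hq (mem_centralizer_singleton_iff.1 hx.2))⟩
  obtain ⟨n, e⟩ := IsPGroup.iff_card.1 (X.isP_Wt.to_inf_left (K := centralizer {q}))
  have c1 := card_le_of_le h1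
  have c2 := card_le_of_le (inf_le_left : X.Wt ⊓ centralizer {q} ≤ X.Wt)
  have n1 : Nat.card (X.Wt ⊓ centralizer {q} : Subgroup G) ≠ 32 := fun d =>
    no2 h1 (by rw [d, X.card_Vt]) X.th_Vt h2 fun x hx => X.th3_Wt hx.1
  have n2 : Nat.card (X.Wt ⊓ centralizer {q} : Subgroup G) ≠ 128 := fun d =>
    no2 inf_le_left (by rw [d, X.card_Wt]) h2 X.th_Wt fun x hx => X.th3_Wt hx
  rw [e] at c1 c2 n1 n2
  rw [X.card_Vt] at c1
  rw [X.card_Wt] at c2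
  have b1 : 4 ≤ n := (Nat.pow_le_pow_iff_right one_lt_two).1 c1
  have b2 : n ≤ 8 := (Nat.pow_le_pow_iff_right one_lt_two).1 c2
  interval_cases n
  · exact .inl (eq_of_le_of_card_ge h1 (by rw [e, X.card_Vt]; norm_num)).symm
  · exact absurd rfl n1
  · exact .inr (.inl e)
  · exact absurd rfl n2
  · exact .inr (.inr (inf_eq_left.1 (eq_of_le_of_card_ge inf_le_left (by rw [e, X.card_Wt]; norm_num))))

end Cc

end H16.GC
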