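import Cfsg.Agent.Lib.G24C.QT

/-! The group `R = Q̃ ∩ C(W̃)`. -/

set_option autoImplicit false
set_option linter.unusedSectionVars false

namespace H16.GC

open H30 H30.F4 H69 Subgroup Cfsg H79.AS

variable {G : Type*} [Group G] [Finite G]

namespace RR

omit [Finite G]

/-- congruence modulo `Z` -/
def Md (Z : Subgroup G) (a b : G) : Prop := a * b⁻¹ ∈ Z

variable {c : G} {Y Z : Subgroup G}

theorem Md.refl (a : G) : Md Z a a := by rw [Md, mul_inv_cancel]; exact one_mem _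
theorem Md.symm {a b : G} (h : Md Z a b) : Md Z b a := by simpa [Md] using inv_mem h
theorem Md.trans {a b d : G} (h : Md Z a b) (k : Md Z b d) : Md Z a d := by
  simpa [Md, mul_assoc] using mul_mem h k
theorem Md.cj {a b g : G} (h : Md Z a b) (hg : g ∈ 𝐍(Z)) : Md Z (g * a * g⁻¹) (g * b * g⁻¹) := by
  have := conj_mem_of_mem_normalizer hg h
  rwa [Md, show g * a * g⁻¹ * (g * b * g⁻¹)⁻¹ = g * (a * b⁻¹) * g⁻¹ by group]
theorem Md.mul {a b a' b' : G} (ha : a ∈ 𝐍(Z)) (h : Md Z a b) (k : Md Z a' b') :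
    Md Z (a * a') (b * b') := by
  have := mul_mem (conj_mem_of_mem_normalizer ha k) h
  rwa [Md, show a * a' * (b * b')⁻¹ = a * (a' * b'⁻¹) * a⁻¹ * (a * b⁻¹) by group]

end RR

open RR

namespace Cc

variable (X : Cc G)

theorem Wt_le_R : X.Wt ≤ X.R := le_inf X.Wt_le_Qt X.Wt_ab
theorem R0_le_R : X.R0 ≤ X.R := le_inf (X.R0_le_QA.trans X.dbl_Qt.B_le) (X.R0_le_P.trans X.P_Wt)
theorem cm_R {g q : G} (hg : g ∈ 𝐍(X.Qt)) (hc : g ∈ 𝐂(X.Wt)) (hq : q ∈ X.Qt) :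
    q⁻¹ * (g * q * g⁻¹) ∈ X.R := by
  refine mem_inf.2 ⟨mul_mem (inv_mem hq) (conj_mem_of_mem_normalizer hg hq), fun x hx => ?_⟩
  have e1 := hc _ hx
  have e2 := hc _ (conj_mem_of_mem_normalizer (X.Qt_nWt hq) hx)
  calc x * (q⁻¹ * (g * q * g⁻¹)) = q⁻¹ * (q * x * q⁻¹ * g) * q * g⁻¹ := by group
    _ = q⁻¹ * g * q * g⁻¹ * (g * x) * g⁻¹ := by rw [e2]; group
    _ = _ := by rw [← e1]; group
theorem Qt_P {q b : G} (hq : q ∈ X.Qt) (hb : b ∈ X.P) : q * b * q⁻¹ * b⁻¹ ∈ X.R := by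
  simpa [mul_assoc] using X.cm_R (X.B_nQt (X.U_le_B (X.P_le_U hb))) (X.P_Wt hb) (inv_mem hq)
theorem rr_n {g : G} (h1 : g ∈ 𝐍(X.Qt)) (h2 : g ∈ 𝐍(X.Wt)) : g ∈ 𝐍(X.R) :=
  inf_normalizer_le_normalizer_inf ⟨h1, normalizer_le_normalizer_centralizer _ h2⟩
theorem Qt_nR : X.Qt ≤ 𝐍(X.R) := fun _ h => X.rr_n (le_normalizer h) (X.Qt_nWt h)
theorem U_nR : X.U ≤ 𝐍(X.R) := fun _ h => X.rr_n (X.B_nQt (X.U_le_B h)) (X.U_nWt h)

theorem rr_ha : X.ha ∈ X.B := X.L_le_B X.ha_mem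
theorem rr_R0 {b : G} (hb : b ∈ X.QA) (h : b ∈ 𝐂(X.Wt)) : b ∈ X.R0 :=
  X.P_inf_QA ▸ ⟨X.cent_W (X.QA_le_U hb) (h _ (X.W_le_Wt (X.x_W (by decide) 1))).symm, hb⟩

/-- the elements `y⁻¹ y^h x` of `R` reach all of `R₀` -/
theorem rr_on {r : G} (hr : r ∈ X.R0) : ∃ y ∈ X.Qt, ∃ x ∈ X.Wt, ∃ u ∈ X.Vt,
    y⁻¹ * (X.ha * y * X.ha⁻¹) * x * X.t * (y⁻¹ * (X.ha * y * X.ha⁻¹) * x)⁻¹ = X.t * (r * u) := by
  obtain ⟨q, hq, e, he, rfl⟩ := X.R0_ha hr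
  have S := X.dbl_Qt.toSec
  have hB := X.dbl_Qt.B_le
  have hh := X.B_nQt X.rr_ha
  obtain ⟨y, hy, u, hu, e1⟩ := X.dbl_Qt.onto q hq
  obtain ⟨x, hx, e2⟩ := X.Wt_on he
  have ht := X.t_A (X.B_le_A X.rr_ha)
  have e3 : X.ha * y * X.ha⁻¹ * X.t * (X.ha * y * X.ha⁻¹)⁻¹ =
      X.t * (X.ha * q * X.ha⁻¹ * (X.ha * u * X.ha⁻¹)) := by
    rw [← cj_mul, ← mul_assoc X.t, ← mul_assoc X.t, ← ht, mul_assoc X.ha X.t, ← e1,
      mul_assoc _ X.ha⁻¹ X.t, (show Commute X.ha X.t from ht).inv_left]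
    group
  have e4 : y⁻¹ * X.t * y⁻¹⁻¹ = X.t * (q⁻¹ * (q * (y⁻¹ * (q * u)⁻¹ * y))) := by
    rw [inv_mul_cancel_left, ← mul_assoc, ← mul_assoc, eq_comm, inv_inv, mul_left_inj,
      mul_inv_eq_iff_eq_mul, mul_assoc, ← e1]
    group
  have h4 : q * (y⁻¹ * (q * u)⁻¹ * y) ∈ X.Vt := by
    have a := S.comm _ (hB hq) _ (inv_mem hy)
    have b := conj_mem_of_mem_normalizer (S.norm (mul_mem (hB hq) (inv_mem hy))) (inv_mem hu)
    have := mul_mem b a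
    rwa [show q * y⁻¹ * u⁻¹ * (q * y⁻¹)⁻¹ * (q * y⁻¹ * q⁻¹ * y⁻¹⁻¹) = q * (y⁻¹ * (q * u)⁻¹ * y) by group]
      at this
  have hy' := conj_mem_of_mem_normalizer hh hy
  obtain ⟨u1, hu1, e5⟩ := S.mv_mul (inv_mem hy) hy' (conj_mem_of_mem_normalizer hh (hB hq)) h4
    (conj_mem_of_mem_normalizer (centralizer_le_normalizer _ (X.B_Vt X.rr_ha)) hu) e4 e3
  obtain ⟨u2, hu2, e6⟩ := S.mv_mul (mul_mem (inv_mem hy) hy') (X.Wt_le_Qt hx)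
    (X.Wt_le_Qt (X.W_le_Wt he)) hu1 (one_mem _) e5 (e2.trans (by rw [mul_one]))
  exact ⟨y, hy, x, hx, u2, hu2, e6⟩

theorem dbl_R : Dbl X.t X.R X.Vt X.R0 where
  toSec := X.dbl_Qt.toSec.mono (X.Vt_le_Wt.trans X.Wt_le_R) inf_le_left (X.rr_n X.dbl_Qt.cY X.t_Wt)
  B_le := X.R0_le_R
  B_t b hb := X.dbl_Qt.B_t b (X.R0_le_QA hb)
  onto b hb := by
    obtain ⟨y, hy, x, hx, u, hu, e⟩ := X.rr_on hb
    exact ⟨_, mul_mem (X.cm_R (X.B_nQt X.rr_ha) X.ha_Wt hy) (X.Wt_le_R hx), u, hu, e⟩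
  ker y hy x hx e := by
    obtain ⟨b, hb, x', hx', rfl⟩ := X.dbl_Qt.ker y hy.1 x hx e
    exact ⟨b, X.rr_R0 hb ((mul_mem_cancel_right (X.Wt_ab (X.Vt_le_Wt hx'))).1 hy.2), x', hx', rfl⟩

theorem card_R : Nat.card X.R = 2 ^ 16 := by
  have := X.dbl_R.card
  have e : X.R0 ⊓ X.Vt = X.V := le_antisymm
    (fun x h => X.Vt_A h.2 (X.U_le_A (X.QA_le_U (X.R0_le_QA h.1))))
    (le_inf (X.V_le_W.trans X.W_le_R0) X.V_le_Vt)
  rw [e, X.card_V, X.card_R0, X.card_Vt] at this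
  omega
theorem fr_R : Fr X.t X.R := X.dbl_R.fr X.fr_Vt
theorem R_t {y : G} (h : y ∈ X.R) (e : y * X.t = X.t * y) : y ∈ X.R0 := X.rr_R0 (X.Qt_t h.1 e) h.2

theorem rr_x7 (c : F4) : X.x 7 c ∈ X.U := X.x_U (by decide) c
theorem rr_x7V (c : F4) : X.x 7 c ∈ 𝐍(X.Vt) :=
  centralizer_le_normalizer _ (X.B_Vt (X.U_le_B (X.rr_x7 c)))
theorem rr_x7Q (c : F4) : X.x 7 c ∈ 𝐍(X.Qt) := X.B_nQt (X.U_le_B (X.rr_x7 c))

theorem rr_fix {b : G} (hb : b ∈ X.QA) (e : ∀ c, Md X.Vt (X.x 7 c * b * (X.x 7 c)⁻¹) b) : b ∈ X.W :=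
  X.x7_fix hb fun c => X.Vt_A (e c) (by
    have := X.U_le_A (X.QA_le_U hb)
    exact mul_mem (mul_mem (mul_mem (X.x_mem _ _) this) (inv_mem (X.x_mem _ _))) (inv_mem this))

theorem fix7 {y : G} (h : y ∈ X.Qt) (e : ∀ c, X.x 7 c * y * (X.x 7 c)⁻¹ * y⁻¹ ∈ X.Vt) :
    y ∈ X.Wt := by
  have S := X.dbl_Qt.toSec
  have hB := X.dbl_Qt.B_le
  obtain ⟨q, hq, u, hu, e1⟩ := X.dbl_Qt.im h
  have hW : q ∈ X.W := X.rr_fix hq fun c => by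
    have ht := X.t_A (X.x_mem 7 c)
    have e3 : X.x 7 c * y * (X.x 7 c)⁻¹ * X.t * (X.x 7 c * y * (X.x 7 c)⁻¹)⁻¹ =
        X.t * (X.x 7 c * q * (X.x 7 c)⁻¹ * (X.x 7 c * u * (X.x 7 c)⁻¹)) := by
      rw [← cj_mul, ← mul_assoc X.t, ← mul_assoc X.t, ← ht, mul_assoc (X.x 7 c) X.t, ← e1,
        mul_assoc _ (X.x 7 c)⁻¹ X.t, (show Commute (X.x 7 c) X.t from ht).inv_left]
      group
    set a := X.x 7 c * y * (X.x 7 c)⁻¹ * y⁻¹ with ha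
    have e4 : a * X.t * a⁻¹ = X.t * (1 * (X.t⁻¹ * a * X.t⁻¹⁻¹ * a⁻¹)) := by group
    obtain ⟨u1, hu1, e5⟩ := S.mv_mul (S.le (e c)) h (hB hq)
      (mul_mem (conj_mem_of_mem_normalizer (inv_mem S.cZ) (e c)) (inv_mem (e c))) hu e4 e1
    rw [inv_mul_cancel_right, e3, mul_right_inj, one_mul, ← eq_mul_inv_iff_mul_eq] at e5
    rw [Md, e5, mul_assoc q]
    exact conj_mem_of_mem_normalizer (S.norm (hB hq))
      (mul_mem hu1 (inv_mem (conj_mem_of_mem_normalizer (X.rr_x7V c) hu)))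
  obtain ⟨x, hx, e2⟩ := X.Wt_on hW
  obtain ⟨u1, hu1, e3⟩ := S.mv_div (X.Wt_le_Qt hx) h (one_mem _) hu (e2.trans (by rw [mul_one])) e1
  obtain ⟨b, hb, x', hx', e4⟩ := X.dbl_Qt.ker _ (mul_mem (inv_mem (X.Wt_le_Qt hx)) h) u1 hu1 e3
  have hbW : b ∈ X.W := X.rr_fix hb fun c => by
    have e5 : b = x⁻¹ * y * x'⁻¹ := by rw [e4, mul_inv_cancel_right]
    rw [e5, cj_mul, cj_mul]
    have n := fun a (ha : a ∈ X.Qt) => conj_mem_of_mem_normalizer (X.rr_x7Q c) ha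
    have hx1 := X.Wt_le_Qt (inv_mem hx)
    exact Md.mul (S.norm (mul_mem (n _ hx1) (n _ h))) (Md.mul (S.norm (n _ hx1))
      (X.U_Wt (X.rr_x7 c) (inv_mem hx)) (e c)) (X.U_Wt (X.rr_x7 c) (X.Vt_le_Wt (inv_mem hx')))
  rw [inv_mul_eq_iff_eq_mul.1 e4]
  exact mul_mem hx (mul_mem (X.W_le_Wt hbW) (X.Vt_le_Wt hx'))

instance rr_normal : (X.Vt.subgroupOf X.Qt).Normal :=
  (normal_subgroupOf_iff_le_normalizer X.dbl_Qt.le).2 X.dbl_Qt.toSec.norm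

/-- the abelian group `Q̃ / Ṽ` -/
def Mq : Type _ := X.Qt ⧸ X.Vt.subgroupOf X.Qt

noncomputable instance rr_comm : CommGroup X.Mq :=
  { (QuotientGroup.Quotient.group (X.Vt.subgroupOf X.Qt) : Group X.Mq) with
    mul_comm := fun a b => by
      obtain ⟨a, rfl⟩ := QuotientGroup.mk_surjective a
      obtain ⟨b, rfl⟩ := QuotientGroup.mk_surjective b
      exact QuotientGroup.eq.2 (by
        simpa [mem_subgroupOf, mul_assoc] using X.dbl_Qt.comm _ (inv_mem b.2) _ (inv_mem a.2)) }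

/-- the projection -/
noncomputable def mq : X.Qt →* X.Mq := QuotientGroup.mk' (X.Vt.subgroupOf X.Qt)

theorem mq_eq {a b : X.Qt} : X.mq a = X.mq b ↔ Md X.Vt a b := by
  rw [← mul_inv_eq_one, ← map_inv, ← map_mul]
  exact QuotientGroup.eq_one_iff (N := X.Vt.subgroupOf X.Qt) _

theorem mq_surj : Function.Surjective X.mq := QuotientGroup.mk_surjective

/-- conjugation by an element of `B` -/
def cq (g : X.B) : X.Qt →* X.Qt := MonoidHom.mk'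
  (fun y => ⟨g * y * g⁻¹, conj_mem_of_mem_normalizer (X.B_nQt g.2) y.2⟩)
  fun a b => Subtype.ext (cj_mul _ _ _)

/-- the action of `B` -/
noncomputable def aq (g : X.B) : X.Mq →* X.Mq := QuotientGroup.map (X.Vt.subgroupOf X.Qt)
  (X.Vt.subgroupOf X.Qt) (X.cq g) fun _ h =>
  conj_mem_of_mem_normalizer (centralizer_le_normalizer _ (X.B_Vt g.2)) h

theorem aq_mq (g : X.B) (y : X.Qt) : X.aq g (X.mq y) = X.mq (X.cq g y) := rfl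
theorem aq_mul (g k : X.B) (m : X.Mq) : X.aq (g * k) m = X.aq g (X.aq k m) := by
  obtain ⟨y, rfl⟩ := X.mq_surj m
  rw [aq_mq, aq_mq, aq_mq]
  exact congrArg X.mq (Subtype.ext (by simp [cq, mul_assoc]))

/-- the root elements `x_a(c)` -/
def xa (c : F4) : X.B := ⟨X.x 7 c, X.U_le_B (X.rr_x7 c)⟩
/-- the torus element -/
def hb : X.B := ⟨X.ha, X.rr_ha⟩
theorem xa_add (c d : F4) : X.xa (c + d) = X.xa c * X.xa d := Subtype.ext (X.x_add 7 c d)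
theorem hb_xa (c : F4) : X.hb * X.xa c = X.xa (v * c) * X.hb :=
  Subtype.ext (mul_inv_eq_iff_eq_mul.1 (X.ha_x 7 c))
theorem aq_zero (m : X.Mq) : X.aq (X.xa 0) m = m := by
  obtain ⟨y, rfl⟩ := X.mq_surj m
  rw [aq_mq]
  exact congrArg X.mq (Subtype.ext (by simp [cq, xa, X.x_zero]))
theorem mq_sq (m : X.Mq) : m * m = 1 := by
  obtain ⟨y, rfl⟩ := X.mq_surj m
  exact (QuotientGroup.eq_one_iff (N := X.Vt.subgroupOf X.Qt) (y * y)).2 (X.dbl_Qt.sq _ y.2)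

theorem fix_iff (y : X.Qt) : (∀ c, X.aq (X.xa c) (X.mq y) = X.mq y) ↔ (y : G) ∈ X.Wt :=
  ⟨fun h => X.fix7 y.2 fun c => X.mq_eq.1 (h c), fun h c => X.mq_eq.2 (X.U_Wt (X.rr_x7 c) h)⟩

/-- the norm map of `X_a` -/
noncomputable def nq (m : X.Mq) : X.Mq := ∏ c, X.aq (X.xa c) m

theorem nq_mul (a b : X.Mq) : X.nq (a * b) = X.nq a * X.nq b := by
  simp only [nq, map_mul, Finset.prod_mul_distrib]
theorem nq_four (m : X.Mq) :
    X.nq m = m * X.aq (X.xa 1) m * X.aq (X.xa w) m * X.aq (X.xa v) m := by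
  rw [nq, show (Finset.univ : Finset F4) = {0, 1, w, v} by decide, Finset.prod_insert (by decide),
    Finset.prod_insert (by decide), Finset.prod_pair (by decide), aq_zero, mul_assoc, mul_assoc]
theorem nq_W {y : X.Qt} (h : (y : G) ∈ X.Wt) : X.nq (X.mq y) = 1 := by
  have := (X.fix_iff y).2 h
  rw [nq_four, this, this, this, mq_sq, one_mul, mq_sq]
theorem nq_h (m : X.Mq) : X.nq (X.aq X.hb m) = X.nq m := by
  have e : X.nq (X.aq X.hb m) = X.aq X.hb (X.nq m) := by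
    rw [nq, nq, map_prod]
    refine (Fintype.prod_equiv (Equiv.mulLeft₀ v (by decide)) _ _ fun c => ?_).symm
    rw [← aq_mul, hb_xa, aq_mul]; rfl
  obtain ⟨y, hy⟩ := X.mq_surj (X.nq m)
  have : (y : G) ∈ X.Wt := (X.fix_iff y).1 fun c => by
    rw [hy, nq, map_prod]
    refine Fintype.prod_equiv (Equiv.addLeft c) _ _ fun d => ?_
    rw [← aq_mul, ← xa_add]; rfl
  rw [e, ← hy, aq_mq]
  exact congrArg X.mq (Subtype.ext (conj_eq_of_mem_centralizer X.ha_Wt this))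
theorem nq_form {y x : G} (hy : y ∈ X.Qt) (hx : x ∈ X.Wt) (h) :
    X.nq (X.mq ⟨y⁻¹ * (X.ha * y * X.ha⁻¹) * x, h⟩) = 1 := by
  have : X.mq ⟨_, h⟩ = (X.mq ⟨y, hy⟩)⁻¹ * X.aq X.hb (X.mq ⟨y, hy⟩) * X.mq ⟨x, X.Wt_le_Qt hx⟩ := by
    rw [aq_mq, ← map_inv, ← map_mul, ← map_mul]; rfl
  rw [this, nq_mul, nq_mul, nq_h, X.nq_W (y := ⟨x, X.Wt_le_Qt hx⟩) hx, mul_one,
    inv_eq_of_mul_eq_one_right (X.mq_sq _), mq_sq]

theorem nq_R {r : G} (hr : r ∈ X.R) : X.nq (X.mq ⟨r, hr.1⟩) = 1 := by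
  have S := X.dbl_Qt.toSec
  have hB := X.dbl_Qt.B_le
  have hh := X.B_nQt X.rr_ha
  obtain ⟨b, hb, u, hu, e1⟩ := X.dbl_R.im hr
  obtain ⟨y, hy, x, hx, u1, hu1, e2⟩ := X.rr_on hb
  have hm := mul_mem (X.cm_R hh X.ha_Wt hy) (X.Wt_le_R hx)
  obtain ⟨u2, hu2, e3⟩ := S.mv_div hm.1 hr.1 hu1 hu e2 e1
  obtain ⟨b', hb', x', hx', e4⟩ := X.dbl_R.ker _ (mul_mem (inv_mem hm) hr) u2 hu2 e3
  obtain ⟨q, hq, e, he, rfl⟩ := X.R0_ha hb'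
  have h2 := mul_mem (X.W_le_Wt he) (X.Vt_le_Wt hx')
  have hm' := mul_mem (X.cm_R hh X.ha_Wt (hB hq)) (X.Wt_le_R h2)
  have : (⟨r, hr.1⟩ : X.Qt) = ⟨_, hm.1⟩ * ⟨_, hm'.1⟩ :=
    Subtype.ext ((inv_mul_eq_iff_eq_mul.1 e4).trans (by simp [mul_assoc]))
  rw [this, map_mul, nq_mul, X.nq_form hy hx, X.nq_form (hB hq) h2, mul_one]

theorem R_x7 {r : G} (hr : r ∈ X.R) (c : F4) : r * X.x 7 c * r⁻¹ * (X.x 7 c)⁻¹ ∈ X.Wt := by
  have h := X.nq_R (inv_mem hr)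
  set m := X.mq ⟨r⁻¹, (inv_mem hr).1⟩ with hm
  have key : ∀ d, X.aq (X.xa d) (m * X.aq (X.xa c) m) = m * X.aq (X.xa c) m := fun d => by
    rw [nq_four] at h
    have k : ∀ a b : X.Mq, a * b = 1 → a = b := fun a b e => by
      rw [mul_eq_one_iff_eq_inv.1 e, inv_eq_of_mul_eq_one_right (X.mq_sq _)]
    rw [map_mul, ← aq_mul, ← xa_add]
    have z := X.aq_zero m
    have s := X.mq_sq
    have cs : ∀ c : F4, c = 0 ∨ c = 1 ∨ c = w ∨ c = v := by decide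
    rcases cs c with rfl | rfl | rfl | rfl <;> rcases cs d with rfl | rfl | rfl | rfl <;>
    simp only [zero_add, add_zero, f4_self, z, s, show (1 : F4) + w = v from rfl,
      show w + (1 : F4) = v from rfl, show (1 : F4) + v = w from rfl, show v + (1 : F4) = w from rfl,
      show w + v = 1 from rfl, show v + w = 1 from rfl] <;>
    first | exact mul_comm _ _ | exact k _ _ (by rw [← h]; ac_rfl)
  have e : m * X.aq (X.xa c) m = X.mq (⟨r, hr.1⟩ * X.cq (X.xa c) ⟨r⁻¹, (inv_mem hr).1⟩) := by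
    rw [map_mul, ← aq_mq, ← hm, mul_left_inj, ← inv_eq_of_mul_eq_one_right (X.mq_sq m), hm, ← map_inv]
    exact congrArg X.mq (Subtype.ext (inv_inv r))
  rw [e] at key
  simpa [cq, xa, mul_assoc] using (X.fix_iff _).1 key

theorem R_P {r b : G} (hr : r ∈ X.R) (hb : b ∈ X.P) : r * b * r⁻¹ * b⁻¹ ∈ X.Wt := by
  obtain ⟨a, ha, c, rfl⟩ := X.P_split hb
  have h1 := X.Vt_le_Wt (X.dbl_Qt.comm r hr.1 a (X.R0_le_R ha).1)
  have h2 := conj_mem_of_mem_normalizer (X.U_nWt (X.P_le_U (X.R0_le_P ha))) (X.R_x7 hr c)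
  have := mul_mem h1 h2
  rwa [show r * a * r⁻¹ * a⁻¹ * (a * (r * X.x 7 c * r⁻¹ * (X.x 7 c)⁻¹) * a⁻¹) =
    r * (a * X.x 7 c) * r⁻¹ * (a * X.x 7 c)⁻¹ by group] at this

end Cc

end H16.GC
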