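import Cfsg.Agent.Lib.G24C.UF
import Cfsg.Agent.Lib.G24C.ND

/-! A Sylow 2-subgroup of `G` normalises `Ũ`. -/

set_option autoImplicit false

namespace H16.GC

open H30 H30.F4 H69 Subgroup Cfsg H79.AS

variable {G : Type*} [Group G] [Finite G]

namespace SY

variable {X : Cc G} {T : Subgroup G} {f : G}

/-- a 2-group containing `Ũ ⟨t, f⟩` that normalises `Ũ` and `Ṽ` -/
structure Tp (X : Cc G) (T : Subgroup G) (f : G) : Prop where
  ff : X.Ff f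
  two : IsPGroup 2 T
  Ut_le : X.Ut ≤ T
  t_mem : X.t ∈ T
  f_mem : f ∈ T
  nU : T ≤ 𝐍(X.Ut)
  nV : T ≤ 𝐍(X.Vt)

theorem Tp.cen (h : Tp X T f) {g y : G} (hg : g ∈ T) (hy : y ∈ X.Ut)
    (e : g * X.t * g⁻¹ = X.t * y) :
    g ∈ X.Ut ∨ X.t * g ∈ X.Ut ∨ f * g ∈ X.Ut ∨ X.t * f * g ∈ X.Ut := by
  obtain ⟨x, hx, ex⟩ := X.fr_Ut y hy (by rw [← e]; exact (X.Dt_t.conj g).sq)
  have hc : x⁻¹ * g * X.t = X.t * (x⁻¹ * g) := by
    calc _ = x⁻¹ * (g * X.t * g⁻¹) * g := by group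
      _ = _ := by rw [e, ← ex]; group
  have key : ∀ c ∈ T, c * (x⁻¹ * g) ∈ X.U → c * g ∈ X.Ut := fun c hc r => by
    have := mul_mem (conj_mem_of_mem_normalizer (h.nU hc) hx) (X.U_le_Ut r)
    rwa [show c * x * c⁻¹ * (c * (x⁻¹ * g)) = c * g by group] at this
  have := X.c4 h.ff (S := T ⊓ centralizer {X.t}) h.two.to_inf_left
    (fun g hg => mem_centralizer_singleton_iff.1 hg.2)
    (fun u hu => ⟨h.Ut_le (X.U_le_Ut hu), mem_centralizer_singleton_iff.2 (X.t_A (X.U_le_A hu))⟩)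
    ⟨h.f_mem, mem_centralizer_singleton_iff.2 h.ff.1⟩ (g := x⁻¹ * g)
    ⟨T.mul_mem (T.inv_mem (h.Ut_le hx)) hg, mem_centralizer_singleton_iff.2 hc⟩
  rcases this with r | r | r | r
  · left; simpa using key 1 (one_mem _) (by rwa [one_mul])
  · exact Or.inr (Or.inl (key _ h.t_mem r))
  · exact Or.inr (Or.inr (Or.inl (key _ h.f_mem r)))
  · exact Or.inr (Or.inr (Or.inr (key _ (mul_mem h.t_mem h.f_mem) r)))

/-- a normal subgroup that is not contained in `Ũ` -/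
theorem Tp.cm (h : Tp X T f) {J : Subgroup G} (hJ : J ≤ T) (hn : T ≤ 𝐍(J)) (hU : ¬ J ≤ X.Ut) :
    ∃ a ∈ J, X.t * a ∈ X.Ut ∨ ∃ c ∈ T, X.Phi c ∧ c * X.t = X.t * c ∧ (c * c = 1 ∨ c * c = X.t) ∧
      c * a ∈ X.Ut := by
  obtain ⟨a, ha, a1, -, a3⟩ := exists_cm h.two h.Ut_le h.nU hJ hn hU
  refine ⟨a, ha, ?_⟩
  have e : a * X.t * a⁻¹ = X.t * (X.t * a * X.t⁻¹ * a⁻¹) := by
    rw [X.t_inv, ← mul_assoc, ← mul_assoc, ← mul_assoc, X.t_sq, one_mul]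
  obtain ⟨ft, ⟨f1, -⟩ | ⟨fp, f2⟩⟩ := h.ff
  · rcases h.cen (hJ ha) (a3 _ h.t_mem) e with r | r | r | r
    · exact absurd r a1
    · exact Or.inl r
    · rw [f1, one_mul] at r; exact absurd r a1
    · rw [f1, mul_one] at r; exact Or.inl r
  · rcases h.cen (hJ ha) (a3 _ h.t_mem) e with r | r | r | r
    · exact absurd r a1
    · exact Or.inl r
    · exact Or.inr ⟨f, h.f_mem, fp, ft, f2, r⟩
    · refine Or.inr ⟨X.t * f, mul_mem h.t_mem h.f_mem, X.Phi_t fp, by rw [mul_assoc, ft], ?_, r⟩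
      rwa [show X.t * f * (X.t * f) = X.t * (f * X.t) * f by group, ft, ← mul_assoc, X.t_sq,
        one_mul]

theorem Tp.cV (h : Tp X T f) : T ⊓ 𝐂(X.Vt) ≤ X.Ut := by
  by_contra hU
  obtain ⟨a, ha, r⟩ := h.cm inf_le_left
    (le_normalizer_inf le_normalizer (le_normalizer_centralizer h.nV)) hU
  have key : ∀ c, c * a ∈ X.Ut → c ∈ 𝐂(X.Vt) := fun c hc =>
    (mul_mem_cancel_right (H := 𝐂(X.Vt)) ha.2).1 (X.Ut_Vt hc)
  rcases r with r | ⟨c, -, hc, -, -, r⟩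
  · exact X.t_not_CVt (key _ r)
  · exact X.phi_not_CVt hc (key _ r)

theorem Tp.cj_Ut (h : Tp X T f) {g : G} (hJ : X.Vt ^ᶜ g ≤ T) (hn : T ≤ 𝐍(X.Vt ^ᶜ g)) :
    X.Vt ^ᶜ g ≤ X.Ut := by
  by_contra hU
  obtain ⟨a, ha, r⟩ := h.cm hJ hn hU
  have a2 : a * a = 1 := by
    obtain ⟨v, hv, rfl⟩ := mem_cj'.1 ha
    rw [← cj_mul, X.Vt_sq hv]; group
  rcases r with r | ⟨c, cT, hc, ct, c2, r⟩
  · have e : X.t * (X.t * a) = a := by rw [← mul_assoc, X.t_sq, one_mul]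
    have d := (X.tU_D r (by rw [e, a2])).conj g⁻¹
    rw [e, inv_inv] at d
    exact X.nd (X.Vt_le_Ut (mem_cj.1 ha)) d
  rcases c2 with c2 | c2
  · have e : c * (c * a) = a := by rw [← mul_assoc, c2, one_mul]
    obtain ⟨x, hx, ex⟩ := X.fr_phi ct hc c2 _ r (by rw [e, a2])
    have cZ : c ∈ X.Vt ^ᶜ g := by
      have := conj_mem_of_mem_normalizer' (hn (h.Ut_le hx)) ha
      rwa [← e, ← ex, show x⁻¹ * (x * c * x⁻¹) * x = c by group] at this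
    have key : ∀ r : Fin 12, 6 ≤ r → X.x r 1 ∈ X.Vt ^ᶜ g := fun r hr => by
      have := mul_mem (conj_mem_of_mem_normalizer (hn (h.Ut_le (X.U_le_Ut (X.x_U hr w)))) cZ)
        (inv_mem cZ)
      rwa [X.x_inv, show X.x r w * c * X.x r w * c⁻¹ = X.x r w * (c * X.x r w * c⁻¹) by group,
        hc, ← X.x_add, show w + w * w = (1 : F4) by decide] at this
    have ab : X.Vt ^ᶜ g ≤ 𝐂(X.Vt ^ᶜ g) := by rw [← cj_centralizer]; exact cj_mono g X.Vt_ab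
    have e1 := conj_eq_of_mem_centralizer (ab (key 6 le_rfl)) (key 10 (by decide))
    rw [X.x6_x10, mul_one, mul_eq_left] at e1
    exact X.z_ne e1
  · refine X.nd ?_ X.Dt_t
    have := mul_mem (conj_mem_of_mem_normalizer (h.nU cT) r) r
    rwa [show c * (c * a) * c⁻¹ * (c * a) = c * c * (a * a) by group, a2, mul_one, c2] at this

theorem Tp.cj_Vt (h : Tp X T f) {g : G} (hJ : X.Vt ^ᶜ g ≤ T) (hn : T ≤ 𝐍(X.Vt ^ᶜ g)) :
    X.Vt ^ᶜ g ≤ X.Vt := by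
  by_contra hU
  obtain ⟨a, ha, a1, -, a3⟩ := exists_cm h.two (X.Vt_le_Ut.trans h.Ut_le) h.nV hJ hn hU
  have a2 : a * a = 1 := by
    obtain ⟨v, hv, rfl⟩ := mem_cj'.1 ha
    rw [← cj_mul, X.Vt_sq hv]; group
  have e : a * X.t * a⁻¹ = X.t * (X.t * a * X.t⁻¹ * a⁻¹) := by
    rw [X.t_inv, ← mul_assoc, ← mul_assoc, ← mul_assoc, X.t_sq, one_mul]
  obtain ⟨x, hx, ex⟩ := X.fr_Vt _ (a3 _ h.t_mem) (by rw [← e]; exact (X.Dt_t.conj a).sq)
  have m : x⁻¹ * a ∈ X.Ut := mul_mem (inv_mem (X.Vt_le_Ut hx)) (h.cj_Ut hJ hn ha)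
  have hc : x⁻¹ * a * X.t = X.t * (x⁻¹ * a) := by
    calc _ = x⁻¹ * (a * X.t * a⁻¹) * a := by group
      _ = _ := by rw [e, ← ex]; group
  have xa : x * a = a * x := X.Ut_Vt (h.cj_Ut hJ hn ha) x hx
  have xi : x⁻¹ = x := inv_eq_of_mul_eq_one_right (X.Vt_sq hx)
  refine X.no16 (h.Ut_le.trans hn) (by rw [card_cj, X.card_Vt]) (X.Ut_t m hc) ?_
    (fun r => a1 ?_) hx ?_
  · rw [xi, show x * a * (x * a) = x * (a * x) * a by group, ← xa, ← mul_assoc, X.Vt_sq hx,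
      one_mul, a2]
  · exact (mul_mem_cancel_left (inv_mem hx)).1 (X.V_le_Vt r)
  · rwa [mul_assoc, ← xa, inv_mul_cancel_left]

omit [Finite G] in
theorem isP_zp {x : G} {j : ℕ} (h : x ^ 2 ^ j = 1) : IsPGroup 2 (zpowers x) := by
  obtain ⟨i, -, hi⟩ := (Nat.dvd_prime_pow Nat.prime_two).1 (orderOf_dvd_of_pow_eq_one h)
  exact IsPGroup.of_card (by rw [Nat.card_zpowers, hi])

end SY

namespace Cc

variable (X : Cc G)

theorem exists_top : ∃ T f, X.Top T f := by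
  have : Fact (Nat.Prime 2) := ⟨Nat.prime_two⟩
  obtain ⟨f, hf⟩ := X.exists_ff
  have f4 : f ^ 2 ^ 2 = 1 := by
    rw [show 2 ^ 2 = 2 * 2 by norm_num, pow_mul, sq f, sq]
    obtain ⟨-, ⟨r, -⟩ | ⟨-, r | r⟩⟩ := hf <;> rw [r]
    · simp
    · simp
    · exact X.t_sq
  have fN : f ∈ 𝐍(X.Ut) ∧ f ∈ 𝐍(X.Vt) := by
    obtain ⟨ft, ⟨r, -⟩ | ⟨r, -⟩⟩ := hf
    · rw [r]; exact ⟨one_mem _, one_mem _⟩
    · exact ⟨X.phi_Ut ft r, X.phi_Vt ft r⟩
  have hE : IsPGroup 2 (zpowers X.t ⊔ zpowers f : Subgroup G) :=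
    isPGroup_sup_of_le_normalizer_right (SY.isP_zp (j := 1) (by rw [pow_one, sq, X.t_sq]))
      (SY.isP_zp f4) (le_normalizer_of_le_centralizer (by
        rw [centralizer_zpowers, zpowers_le]; exact mem_centralizer_singleton_iff.2 hf.1.symm))
  have hR := isPGroup_sup_of_le_normalizer_right hE X.isP_Ut
    (sup_le ((zpowers_le (H := 𝐍(X.Ut))).2 X.t_Ut) ((zpowers_le (H := 𝐍(X.Ut))).2 fN.1))
  obtain ⟨S, hS, le⟩ := exists_isSylowIn_le hR le_top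
  have h : SY.Tp X (S ⊓ 𝐍(X.Ut) ⊓ 𝐍(X.Vt)) f :=
    { ff := hf
      two := hS.isP.to_inf_left.to_inf_left
      Ut_le := le_inf (le_inf (le_sup_right.trans le) le_normalizer)
        (le_normalizer_of_le_centralizer X.Ut_Vt)
      t_mem := ⟨⟨le (mem_sup_left (mem_sup_left (mem_zpowers _))), X.t_Ut⟩, X.t_Vt⟩
      f_mem := ⟨⟨le (mem_sup_left (mem_sup_right (mem_zpowers _))), fN.1⟩, fN.2⟩
      nU := inf_le_left.trans inf_le_right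
      nV := inf_le_right }
  have e : S ⊓ 𝐍(X.Ut) ⊓ 𝐍(X.Vt) = S := by
    by_contra hne
    obtain ⟨g, ⟨gS, gN⟩, g1⟩ := SetLike.exists_of_lt (lt_inf_normalizer_of_lt hS.isP
      (lt_of_le_of_ne (inf_le_left.trans inf_le_left) hne))
    have gV : g ∈ 𝐍(X.Vt) := mem_normalizer_of_cj_le (h.cj_Vt
      (cj_le_of_mem_normalizer (X.Vt_le_Ut.trans h.Ut_le) gN) (by
        rw [← cj_normalizer, ← cj_eq_of_mem_normalizer gN]
        exact cj_mono g h.nV))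
    have gU : g ∈ 𝐍(X.Ut) := mem_normalizer_of_cj_le (le_trans (le_inf
      (cj_le_of_mem_normalizer h.Ut_le gN) (cj_le_of_mem_normalizer X.Ut_Vt
        (normalizer_le_normalizer_centralizer _ gV))) h.cV)
    exact g1 ⟨⟨gS, gU⟩, gV⟩
  rw [e] at h
  exact ⟨S, f, hf, hS, h.Ut_le, h.t_mem, h.f_mem, h.nU, h.nV, fun g hg y hy r => h.cen hg hy r,
    fun g hg r => h.cV ⟨hg, r⟩⟩

end Cc

end H16.GC
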