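import Mathlib

/-! Transfer of an involution. -/

set_option autoImplicit false
set_option linter.style.haveILetI false

namespace H16.GC

open Subgroup

variable {G : Type*} [Group G]

/-- transfer of an involution into an abelian quotient of a subgroup of odd index -/
theorem transfer_inv [Finite G] (hG : commutator G = ⊤) {H N : Subgroup G} (hH : ¬ 2 ∣ H.index)
    (hN : ∀ a ∈ H, ∀ b ∈ H, a * b * a⁻¹ * b⁻¹ ∈ N) {x r : G} (x2 : x * x = 1) (hr : r ∈ H) (r2 : r * r ∈ N)
    (h : ∀ g, g * x * g⁻¹ ∈ H → g * x * g⁻¹ * r⁻¹ ∈ N) : r ∈ N := by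
  classical
  have hc : commutator H ≤ N.subgroupOf H := commutator_le.2 fun a _ b _ => hN a a.2 b b.2
  haveI : (N.subgroupOf H).Normal := ⟨fun n hn g => by
    have := mul_mem (hc (commutator_mem_commutator (mem_top g) (mem_top n))) hn
    rwa [commutatorElement_def, inv_mul_cancel_right] at this⟩
  letI : CommGroup (H ⧸ N.subgroupOf H) := { (inferInstance : Group _) with
    mul_comm := fun a b => by
      obtain ⟨a, rfl⟩ := QuotientGroup.mk_surjective a
      obtain ⟨b, rfl⟩ := QuotientGroup.mk_surjective b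
      rw [← QuotientGroup.mk_mul, ← QuotientGroup.mk_mul, QuotientGroup.eq]
      simpa [commutatorElement_def, mul_assoc] using
        hc (commutator_mem_commutator (mem_top b⁻¹) (mem_top a⁻¹)) }
  let φ : H →* H ⧸ N.subgroupOf H := QuotientGroup.mk' _
  let b := φ ⟨r, hr⟩
  have b2 : b ^ 2 = 1 := by rw [← map_pow, pow_two]; exact (QuotientGroup.eq_one_iff _).2 r2
  have := H.fintypeQuotientOfFiniteIndex
  have : Fintype (Quotient (MulAction.orbitRel (zpowers x) (G ⧸ H))) := Fintype.ofFinite _
  have key : MonoidHom.transfer φ x = 1 := Abelianization.commutator_subset_ker _ (hG ▸ mem_top x)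
  rw [MonoidHom.transfer_eq_prod_quotient_orbitRel_zpowers_quot,
    Finset.prod_congr rfl (g := fun q : Quotient (MulAction.orbitRel (zpowers x) (G ⧸ H)) =>
    b ^ Function.minimalPeriod (x • ·) q.out)] at key
  · rw [Finset.prod_pow_eq_pow_sum, ← index_eq_sum_minimalPeriod H x] at key
    obtain ⟨m, hm⟩ := Nat.not_even_iff_odd.1 fun e => hH (even_iff_two_dvd.1 e)
    rw [hm, pow_succ, pow_mul, b2, one_pow, one_mul] at key
    exact (QuotientGroup.eq_one_iff (N := N.subgroupOf H) ⟨r, hr⟩).1 key
  · intro q _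
    have hord : Function.IsPeriodicPt (x • ·) 2 q.out := by
      show x • x • q.out = q.out
      rw [smul_smul, x2, one_smul]
    have hm := QuotientGroup.out_conj_pow_minimalPeriod_mem H x q.out
    suffices ∀ k (hk : q.out.out⁻¹ * x ^ k * q.out.out ∈ H), k ∣ 2 → φ ⟨_, hk⟩ = b ^ k from
      this _ hm hord.minimalPeriod_dvd
    intro k hk hd
    rcases (Nat.dvd_prime Nat.prime_two).1 hd with rfl | rfl
    · rw [pow_one b, ← mul_inv_eq_one, ← map_inv, ← map_mul]
      exact (QuotientGroup.eq_one_iff _).2 (by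
        simpa [mem_subgroupOf] using h q.out.out⁻¹ (by simpa using hk))
    · rw [b2, ← map_one φ]
      congr 1
      exact Subtype.ext (by simp [pow_two, x2])

theorem commutator_top_of_simple [IsSimpleGroup G] (hG : ¬ IsMulCommutative G) : commutator G = ⊤ := by
  refine (inferInstance : (commutator G).Normal).eq_bot_or_eq_top.resolve_left fun h => hG ⟨⟨fun a b => ?_⟩⟩
  have := commutator_mem_commutator (mem_top a) (mem_top b)
  rw [← commutator_def, h, mem_bot] at this
  exact commutatorElement_eq_one_iff_mul_comm.1 this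

end H16.GC
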