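import Cfsg.Agent.Lib.G24C.EB
import Cfsg.Agent.Lib.G24C.Trf

/-! The transfer. -/

set_option autoImplicit false

namespace H16.GC

open H30 H30.F4 H69 Subgroup Cfsg H79.AS

variable {G : Type*} [Group G] [Finite G]

namespace Cc

variable (X : Cc G)

namespace TR

variable {X} {T : Subgroup G} {Q : Type*} [Group Q] {π : T →* Q}
  (hπ : ∀ g : T, π g = 1 ↔ (g : G) ∈ X.Ut)
include hπ

theorem trf (hG : commutator G = ⊤) (hT : IsSylowIn 2 T ⊤) {t : T} (ht : t = X.t) {M : Subgroup Q}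
    (hc : ∀ a b : Q, a * b * a⁻¹ * b⁻¹ ∈ M) (h : ∀ d : T, X.Dt d → π d * (π t)⁻¹ ∈ M) :
    π t ∈ M := by
  have k : ∀ g : T, (g : G) ∈ (M.comap π).map T.subtype ↔ π g ∈ M := fun g =>
    mem_map_iff_mem T.subtype_injective
  refine (k t).1 (transfer_inv hG (H := T) (x := X.t) (relIndex_top_right T ▸ hT.not_dvd_relIndex)
    (fun a ha b hb => (k (⟨a, ha⟩ * ⟨b, hb⟩ * ⟨a, ha⟩⁻¹ * ⟨b, hb⟩⁻¹)).2 (by
      simp only [map_mul, map_inv]; exact hc _ _))
    X.t_sq t.2 (by rw [ht, X.t_sq]; exact one_mem _) fun g hg =>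
      (k (⟨_, hg⟩ * t⁻¹)).2 (by simpa using h ⟨_, hg⟩ ⟨g, rfl⟩))

theorem ne_one {d : T} (hd : X.Dt d) : π d ≠ 1 := fun h => X.nd ((hπ d).1 h) hd

theorem sq_one {d : T} (hd : X.Dt d) : π d * π d = 1 := by
  rw [← map_mul, show d * d = 1 from Subtype.ext hd.sq, map_one]

theorem phi_ne {c : T} (hc : X.Phi c) : π c ≠ 1 := fun h =>
  X.phi_not_CVt hc (X.Ut_Vt ((hπ c).1 h))

theorem conj_of {c d : T} (ht : c * X.t = X.t * c) (hc : X.Phi c) (c2 : (c : G) * c = 1)
    (d2 : (d : G) * d = 1) (h : π d = π c) : ∃ x ∈ X.Ut, x * c * x⁻¹ = d := by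
  have := X.fr_phi ht hc c2 (c⁻¹ * d : T) ((hπ _).1 (by simp [h])) (by simpa using d2)
  simpa using this

theorem dt_of {c d : T} (ht : c * X.t = X.t * c) (hc : X.Phi c) (c2 : (c : G) * c = 1)
    (hd : X.Dt d) (h : π d = π c) : X.Dt c := by
  obtain ⟨x, -, e⟩ := conj_of hπ ht hc c2 hd.sq h
  simpa [← e, mul_assoc] using hd.conj x⁻¹

theorem four (hG : commutator G = ⊤) (hT : IsSylowIn 2 T ⊤) {t c : T} (ht : t = X.t)
    (ct : c * X.t = X.t * c) (hc : X.Phi c) (c2 : (c : G) * c = 1)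
    (hs : Function.Surjective π) (hab : ∀ a b : Q, a * b = b * a)
    (h : ∀ a : Q, a = 1 ∨ a = π t ∨ a = π c ∨ a = π t * π c) : X.Dt c := by
  by_contra hn
  have γ2 : π c * π c = 1 := by rw [← map_mul, show c * c = 1 from Subtype.ext c2, map_one]
  have tD : X.Dt t := ht ▸ X.Dt_t
  obtain ⟨k, hk⟩ := trf hπ hG hT ht (M := zpowers (π c)) (fun a b => by rw [hab a b]; simp)
    fun d hd => by
      rcases h (π d) with e | e | e | e
      · exact absurd e (ne_one hπ hd)
      · simp [e]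
      · exact absurd (dt_of hπ ct hc c2 hd e) hn
      · simp [e, hab (π t)]
  obtain ⟨j, rfl | rfl⟩ := Int.even_or_odd' k
  · exact ne_one hπ tD (by simp [← hk, zpow_mul, sq, γ2])
  · refine phi_ne hπ (c := t * c) (by simpa [ht] using X.Phi_t hc) ?_
    simp [← hk, zpow_add, zpow_mul, sq, γ2]

theorem not_cen (hU : X.Ut ≤ T) (hT : IsPGroup 2 T) {c : T} (ct : c * X.t = X.t * c) (hc : X.Phi c)
    (c2 : (c : G) * c = 1) (hs : Function.Surjective π) (h8 : 8 ≤ Nat.card Q) (hD : X.Dt c) :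
    π c ∉ center Q := fun h => by
  set S := T ⊓ centralizer {(c : G)}
  have k1 := X.c1 hD (S := S) (hT.to_le inf_le_left) fun g hg =>
    mem_centralizer_singleton_iff.1 hg.2
  let ψ := π.comp (inclusion (inf_le_left : S ≤ T))
  have k2 : ψ.range = ⊤ := MonoidHom.range_eq_top.2 fun a => by
    obtain ⟨g, rfl⟩ := hs a
    obtain ⟨x, x1, e⟩ := conj_of hπ ct hc c2 (d := g * c * g⁻¹) (by
      simp [mul_assoc, ← mul_assoc (c : G), c2]) (by simp [mem_center_iff.1 h])
    refine ⟨⟨x⁻¹ * g, T.mul_mem (T.inv_mem (hU x1)) g.2, mem_centralizer_singleton_iff.2 ?_⟩, ?_⟩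
    · calc x⁻¹ * g * c = x⁻¹ * (g * c * g⁻¹ : T) * g := by simp [mul_assoc]
        _ = _ := by rw [← e]; group
    · change π ((⟨x, hU x1⟩ : T)⁻¹ * g) = _
      rw [map_mul, map_inv, (hπ _).2 x1, inv_one, one_mul]
  have k3 : ψ.ker = (X.Ut ⊓ centralizer {(c : G)}).subgroupOf S := by
    ext g
    exact (hπ _).trans ⟨fun h => ⟨h, g.2.2⟩, fun h => h.1⟩
  have k4 := ψ.ker.card_mul_index
  rw [index_ker, k2, k3, card_top, card_subgroupOf (inf_le_inf_right _ hU)] at k4
  nlinarith [X.card_phi ct hc c2]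

end TR

open TR in
theorem elim [IsSimpleGroup G] (hG : ¬ IsMulCommutative G) {T : Subgroup G} {f : G}
    (h : X.Top T f) : False := by
  replace hG := commutator_top_of_simple hG
  haveI : (X.Ut.subgroupOf T).Normal := (normal_subgroupOf_iff_le_normalizer h.Ut_le).2 h.nU
  set π : T →* T ⧸ X.Ut.subgroupOf T := QuotientGroup.mk' _
  have hπ : ∀ g : T, π g = 1 ↔ (g : G) ∈ X.Ut := fun g => QuotientGroup.eq_one_iff g
  have hs : Function.Surjective π := QuotientGroup.mk'_surjective _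
  obtain ⟨t, ht⟩ : ∃ t : T, t = X.t := ⟨⟨_, h.t_mem⟩, rfl⟩
  obtain ⟨f, rfl⟩ : ∃ c : T, c = f := ⟨⟨_, h.f_mem⟩, rfl⟩
  have tD : X.Dt t := ht ▸ X.Dt_t
  have t1 := ne_one hπ tD
  have t2 := sq_one hπ tD
  have ft : π f * π t = π t * π f := by
    rw [← map_mul, ← map_mul, show f * t = t * f from Subtype.ext (by simpa [ht] using h.ff.1)]
  have cen : ∀ a, a * π t = π t * a → a = 1 ∨ a = π t ∨ a = (π f)⁻¹ ∨ a = (π t * π f)⁻¹ := fun a e => by
    obtain ⟨g, rfl⟩ := hs a
    rcases h.cen g g.2 (t⁻¹ * (g * t * g⁻¹) : T) ((hπ _).1 (by simp [e])) (by simp [ht]) with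
      k | k | k | k
    · exact .inl ((hπ _).2 k)
    · exact .inr (.inl ((eq_inv_of_mul_eq_one_right (by
        simpa using (hπ (t * g)).2 (by simpa [ht] using k))).trans (inv_eq_of_mul_eq_one_right t2)))
    · exact .inr (.inr (.inl (eq_inv_of_mul_eq_one_right (by simpa using (hπ (f * g)).2 k))))
    · exact .inr (.inr (.inr (eq_inv_of_mul_eq_one_right (by
        simpa using (hπ (t * f * g)).2 (by simpa [ht] using k)))))
  have tf2 : π t * π f * (π t * π f) = π f * π f := by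
    rw [mul_assoc, ← mul_assoc (π f), ft, ← mul_assoc, ← mul_assoc, t2, one_mul]
  -- the images of the conjugates of `t` which centralise the image of `t`
  have key : ∀ d : T, X.Dt d → π d * π t = π t * π d → π d = π t ∨ X.Phi f ∧ (f : G) * f = 1 ∧
      (π d = π f ∨ π d = π (t * f)) := fun d hd e => by
    have d1 := ne_one hπ hd
    have d2 := sq_one hπ hd
    rcases h.ff.2 with ⟨k, -⟩ | ⟨k, k2 | k2⟩
    · have : π f = 1 := by rw [show f = 1 from Subtype.ext k, map_one]
      have := cen _ e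
      simp_all [inv_eq_of_mul_eq_one_right t2]
    · have γ2 : π f * π f = 1 := by rw [← map_mul, show f * f = 1 from Subtype.ext k2, map_one]
      have := cen _ e
      rw [inv_eq_of_mul_eq_one_right γ2, inv_eq_of_mul_eq_one_right (tf2.trans γ2), ← map_mul] at this
      tauto
    · have γ2 : π f * π f = π t := by
        rw [← map_mul, show f * f = t from Subtype.ext (k2.trans ht.symm)]
      rcases cen _ e with k | k | k | k
      exacts [absurd k d1, .inl k, absurd (by rwa [k, ← mul_inv_rev, inv_eq_one, γ2] at d2) t1,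
        absurd (by rwa [k, ← mul_inv_rev, inv_eq_one, tf2, γ2] at d2) t1]
  have tf : (t * f : T) * X.t = X.t * (t * f : T) := by simp [ht, mul_assoc, h.ff.1]
  have tP : X.Phi f → X.Phi (t * f : T) := fun k => by simpa [ht] using X.Phi_t k
  have ts : (f : G) * f = 1 → ((t * f : T) : G) * (t * f : T) = 1 := fun k => by
    simp only [coe_mul, ht]
    rw [mul_assoc, ← mul_assoc (f : G), h.ff.1, ← mul_assoc, ← mul_assoc, X.t_sq, one_mul, k]
  by_cases hz : π t ∈ center _
  · have hz := mem_center_iff.1 hz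
    have hab : ∀ a b : T ⧸ X.Ut.subgroupOf T, a * b = b * a := fun a b => by
      have c : Commute (π f) (π t) := ft
      have : Commute (π f) b := by
        rcases cen b (hz b) with rfl | rfl | rfl | rfl
        exacts [.one_right _, c, (Commute.refl _).inv_right, (c.mul_right (.refl _)).inv_right]
      rcases cen a (hz a) with rfl | rfl | rfl | rfl
      exacts [Commute.one_left _, (hz b).symm, this.inv_left,
        (Commute.mul_left (hz b).symm this).inv_left]
    by_cases hf : X.Phi f ∧ (f : G) * f = 1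
    · have γ2 : π f * π f = 1 := by rw [← map_mul, show f * f = 1 from Subtype.ext hf.2, map_one]
      have k := fun a => cen a (hz a)
      rw [inv_eq_of_mul_eq_one_right γ2, inv_eq_of_mul_eq_one_right (tf2.trans γ2)] at k
      refine X.e4 h hf.1 hf.2 (fun g hg => (hπ (⟨g, hg⟩ * ⟨g, hg⟩)).1 ?_)
        (four hπ hG h.syl ht h.ff.1 hf.1 hf.2 hs hab k) ?_
      · rw [map_mul]
        rcases k (π ⟨g, hg⟩) with e | e | e | e <;> rw [e]
        exacts [one_mul _, t2, γ2, tf2.trans γ2]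
      · simpa [ht] using four hπ hG h.syl ht tf (tP hf.1) (ts hf.2) hs hab fun a => by
          rw [map_mul, ← mul_assoc, t2, one_mul]
          have := k a
          tauto
    · exact t1 (trf hπ hG h.syl ht (M := ⊥) (fun a b => by rw [hab a b]; simp) fun d hd => by
        rw [(key d hd (hz _)).resolve_right fun k => hf ⟨k.1, k.2.1⟩]; simp)
  · obtain ⟨h8, M, m1, m2, m3⟩ := cyc2 (h.syl.isP.to_quotient _) t2 hz (by
      refine le_trans (Set.ncard_le_ncard (t := {1, π t, (π f)⁻¹, (π t * π f)⁻¹}) fun a ha =>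
        cen a (mem_centralizer_singleton_iff.1 ha)) ((Set.ncard_insert_le _ _).trans
          (Nat.succ_le_succ ((Set.ncard_insert_le _ _).trans (Nat.succ_le_succ
            ((Set.ncard_insert_le _ _).trans (by simp)))))))
    refine m2 (trf hπ hG h.syl ht (fun a b => by simp [mul_mem_iff_of_index_two m1]; tauto)
      fun d hd => (mul_mem_iff_of_index_two m1).2 (iff_of_false (fun k => ?_) (by simpa using m2)))
    have k1 := m3 _ k (sq_one hπ hd)
    obtain e | ⟨a1, a2, e | e⟩ := key d hd (mem_center_iff.1 k1 _).symm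
    · exact m2 (e ▸ k)
    · exact not_cen hπ h.Ut_le h.syl.isP h.ff.1 a1 a2 hs h8 (dt_of hπ h.ff.1 a1 a2 hd e) (e ▸ k1)
    · exact not_cen hπ h.Ut_le h.syl.isP tf (tP a1) (ts a2) hs h8
        (dt_of hπ tf (tP a1) (ts a2) hd e) (e ▸ k1)

end Cc

end H16.GC
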