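import Cfsg.Agent.Lib.G24C.UT
import Cfsg.Agent.Lib.G24C.FS

/-! The field automorphism on `Ũ`; large classes in `Ũ`. -/

set_option autoImplicit false

namespace H16.GC

open H30 H30.F4 H69 Subgroup Cfsg H79.AS

variable {G : Type*} [Group G] [Finite G]

namespace UF

variable (X : Cc G) {f : G}

theorem phi_Pt (ht : f * X.t = X.t * f) (hf : X.Phi f) : f ∈ 𝐍(X.Pt) :=
  Db_norm ht (X.ct_O ht) (X.phi_Wt ht hf) (X.Phi_P hf)

theorem n_bot (f : G) : f ∈ 𝐍((⊥ : Subgroup G)) := by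
  rw [normalizer_eq_top]; exact mem_top f

theorem mem_A (hf : X.Phi f) {b x : G} (hb : b ∈ X.A) (e : b * f * b⁻¹ = f * x) : x ∈ X.A := by
  have : x = f⁻¹ * b * f * b⁻¹ := by rw [mul_assoc, mul_assoc, ← mul_assoc b, e, inv_mul_cancel_left]
  rw [this]
  exact mul_mem (conj_mem_of_mem_normalizer' (X.Phi_N hf) hb) (inv_mem hb)

theorem fr_Vt (ht : f * X.t = X.t * f) (hf : X.Phi f) (h2 : f * f = 1) : Fr f X.Vt :=
  X.dbl_Vt.free2 h2 ht (X.phi_Vt ht hf) (n_bot f) (X.Phi_V hf) (fun b hb x hx e => by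
    rw [mem_bot.1 hx, mul_one] at e
    obtain ⟨y, hy, e1⟩ := X.phi_V hf hb (mul_inv_eq_iff_eq_mul.1 e)
    exact ⟨y, hy, 1, one_mem _, by rw [mul_one, e1]⟩) (fr_bot f)

end UF

open UF

namespace Cc

variable (X : Cc G)

theorem phi_Qt {f : G} (ht : f * X.t = X.t * f) (hf : X.Phi f) : f ∈ 𝐍(X.Qt) :=
  Db_norm ht (X.ct_O ht) (X.phi_Vt ht hf) (X.Phi_QA hf)

theorem phi_Ut {f : G} (ht : f * X.t = X.t * f) (hf : X.Phi f) : f ∈ 𝐍(X.Ut) :=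
  le_normalizer_sup (zpowers_le_of_mem (phi_Pt X ht hf)) (zpowers_le_of_mem (X.phi_Qt ht hf)) (mem_zpowers f)

theorem fr_phi_Qt {f : G} (ht : f * X.t = X.t * f) (hf : X.Phi f) (h2 : f * f = 1) : Fr f X.Qt :=
  X.dbl_Qt.free2 h2 ht (X.phi_Qt ht hf) (X.phi_Vt ht hf) (X.Phi_QA hf) (fun _ hb _ hx e =>
    (X.phi_QA hf hb (X.Vt_A hx (mem_A X hf (X.U_le_A (X.QA_le_U hb)) e)) e).mono le_rfl X.V_le_Vt)
    (UF.fr_Vt X ht hf h2)

theorem fr_phi {f : G} (ht : f * X.t = X.t * f) (hf : X.Phi f) (h2 : f * f = 1) : Fr f X.Ut :=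
  X.dbl_Ut.free2 h2 ht (X.phi_Ut ht hf) (X.phi_Qt ht hf) (X.Phi_U hf) (fun _ hb _ hx e =>
    (X.phi_U hf hb (X.Qt_t hx (X.t_A (mem_A X hf (X.U_le_A hb) e))) e).mono le_rfl X.dbl_Qt.B_le)
    (X.fr_phi_Qt ht hf h2)

theorem sq_phi_Vt {f : G} (ht : f * X.t = X.t * f) (hf : X.Phi f) (h2 : f * f = 1) :
    Nat.card X.Vt ≤ Nat.card (X.Vt ⊓ centralizer {f} : Subgroup G) ^ 2 :=
  Sec.card_cent (Z := ⊥) ⟨h2, bot_le, X.phi_Vt ht hf, n_bot f, X.dbl_Vt.comm, X.dbl_Vt.sq⟩ (fr_bot f)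
    (by simp)

theorem card_phi_Vt {f : G} (ht : f * X.t = X.t * f) (hf : X.Phi f) (h2 : f * f = 1) :
    4 ≤ Nat.card (X.Vt ⊓ centralizer {f} : Subgroup G) := by
  have := X.sq_phi_Vt ht hf h2
  rw [X.card_Vt] at this
  exact (Nat.pow_le_pow_iff_left two_ne_zero).1 this

theorem card_phi {f : G} (ht : f * X.t = X.t * f) (hf : X.Phi f) (h2 : f * f = 1) :
    4096 ≤ Nat.card (X.Ut ⊓ centralizer {f} : Subgroup G) := by
  have := Sec.card_cent ⟨h2, X.dbl_Ut.le, X.phi_Ut ht hf, X.phi_Qt ht hf, X.dbl_Ut.comm, X.dbl_Ut.sq⟩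
    (X.fr_phi_Qt ht hf h2) (Sec.card_cent ⟨h2, X.dbl_Qt.le, X.phi_Qt ht hf, X.phi_Vt ht hf, X.dbl_Qt.comm,
      X.dbl_Qt.sq⟩ (UF.fr_Vt X ht hf h2) (X.sq_phi_Vt ht hf h2))
  rw [X.card_Ut] at this
  exact (Nat.pow_le_pow_iff_left two_ne_zero).1 this

theorem no16 {Z : Subgroup G} (hZ : X.Ut ≤ 𝐍(Z)) (h16 : Nat.card Z = 16) {e x : G} (he : e ∈ X.U)
    (h2 : e * e = 1) (hV : e ∉ X.V) (hx : x ∈ X.Vt) : e * x ∉ Z := fun h => by
  have c15 : ((Z : Set G) \ {1}).ncard = 15 := by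
    rw [Set.ncard_sdiff_singleton_of_mem (one_mem Z), ← Nat.card_coe_set_eq]
    exact congrArg (· - 1) h16
  have nV : ∀ y ∈ X.Vt, e * y ≠ 1 := fun y hy q =>
    hV (X.Vt_A (by rw [eq_inv_of_mul_eq_one_left q]; exact inv_mem hy) (X.U_le_A he))
  have cj : ∀ g ∈ X.Ut, g * (e * x) * g⁻¹ ∈ (Z : Set G) \ {1} := fun g hg =>
    ⟨conj_mem_of_mem_normalizer (hZ hg) h, fun q => nV x hx (conj_eq_one_iff.1 q)⟩
  by_cases hW : e ∈ X.W
  · have : Nat.card X.Vt ≤ ((Z : Set G) \ {1}).ncard := by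
      refine Nat.card_le_card_of_injective (fun v : X.Vt => (⟨e * v * x, ?_⟩ : ((Z : Set G) \ {1} : Set G)))
        fun a b q => Subtype.ext (mul_left_cancel (mul_right_cancel (congrArg Subtype.val q)))
      obtain ⟨y, hy, q⟩ := X.Qt_cls hW hV v.2
      have := cj y (mem_sup_right hy)
      rwa [cj_mul, q, conj_eq_of_mem_centralizer (X.Qt_Vt hy) hx] at this
    rw [X.card_Vt, c15] at this
    omega
  · have := UT.card_le_cls (H := X.U) fun u hu => cj u (X.U_le_Ut hu)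
    have le : (X.U ⊓ centralizer {e * x} : Subgroup G) ≤ X.U ⊓ centralizer {e} := fun u hu => by
      refine ⟨hu.1, mem_centralizer_singleton_iff.2 (mul_right_cancel (b := x) ?_)⟩
      rw [mul_assoc, mem_centralizer_singleton_iff.1 hu.2, mul_assoc, mul_assoc,
        mem_centralizer_iff.1 (X.Ut_Vt (X.U_le_Ut hu.1)) x hx]
    have c := (card_le_of_le le).trans (X.cent_inv he h2 hW)
    rw [X.card_U, c15] at this
    omega

end Cc

end H16.GC
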