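import Cfsg.Agent.Lib.G24C.PQ

/-! The group `Ũ`. -/

set_option autoImplicit false

namespace H16.GC

open H30 H30.F4 H69 Subgroup Cfsg H79.AS
open scoped commutatorElement

variable {G : Type*} [Group G] [Finite G]

namespace UT

/-- the class of `e` under `H` lies in `S` -/
theorem card_le_cls {H : Subgroup G} {e : G} {S : Set G} (h : ∀ u ∈ H, u * e * u⁻¹ ∈ S) :
    Nat.card H ≤ S.ncard * Nat.card (H ⊓ centralizer {e} : Subgroup G) := by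
  let K : Subgroup H := (H ⊓ centralizer {e}).subgroupOf H
  have c : Nat.card K = Nat.card (H ⊓ centralizer {e} : Subgroup G) := card_subgroupOf inf_le_left
  rw [← c, ← K.index_mul_card]
  refine Nat.mul_le_mul_right _ (Nat.card_le_card_of_injective
    (fun q : H ⧸ K => (⟨_, h _ q.out.2⟩ : S)) fun a b hab => ?_)
  have e1 : (a.out : G) * e * (a.out : G)⁻¹ = (b.out : G) * e * (b.out : G)⁻¹ := congrArg Subtype.val hab
  rw [← a.out_eq', ← b.out_eq', QuotientGroup.eq]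
  refine ⟨(a.out⁻¹ * b.out).2, mem_centralizer_singleton_iff.2 ?_⟩
  show (a.out : G)⁻¹ * b.out * e = e * ((a.out : G)⁻¹ * b.out)
  calc (a.out : G)⁻¹ * b.out * e = (a.out : G)⁻¹ * ((b.out : G) * e * (b.out : G)⁻¹) * b.out := by group
    _ = _ := by rw [← e1]; group

theorem card_le_cm {H C : Subgroup G} {e : G} (h : ∀ u ∈ H, u * e * u⁻¹ * e⁻¹ ∈ C) :
    Nat.card H ≤ Nat.card C * Nat.card (H ⊓ centralizer {e} : Subgroup G) := by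
  have := card_le_cls (H := H) (e := e) (S := (fun c => c * e) '' (C : Set G))
    fun u hu => ⟨_, h u hu, inv_mul_cancel_right _ _⟩
  rwa [Set.ncard_image_of_injective _ (mul_left_injective e)] at this

variable (X : Cc G)

theorem Pt_nQt : X.Pt ≤ 𝐍(X.Qt) := le_normalizer_of_commutator_le_right
  (commutator_le.2 fun _ hy _ hq => (X.Pt_Qt hy hq).1)

theorem Ut_nQt : X.Ut ≤ 𝐍(X.Qt) := sup_le (Pt_nQt X) le_normalizer

theorem fr_Qt : Fr X.t X.Qt := X.dbl_Qt.fr X.fr_Vt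

end UT

open UT

namespace Cc

variable (X : Cc G)

theorem mem_Ut {g : G} : g ∈ X.Ut ↔ ∃ y ∈ X.Pt, ∃ q ∈ X.Qt, g = y * q :=
  mem_sup_of_le_normalizer_right (Pt_nQt X)

theorem card_Ut : Nat.card X.Ut = 2 ^ 24 := by
  have := H1.card_sup_mul_card_inf_of_le_normalizer (Pt_nQt X)
  rw [X.Pt_inf_Qt, X.card_R, X.card_Pt, X.card_Qt] at this
  have e : Nat.card X.Ut * 2 ^ 16 = 2 ^ 20 * 2 ^ 20 := this
  omega

theorem isP_Ut : IsPGroup 2 X.Ut := IsPGroup.of_card X.card_Ut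

theorem U_le_Ut : X.U ≤ X.Ut := fun u hu => by
  obtain ⟨s, b, hb, rfl⟩ := X.U_split hu
  exact mul_mem (mem_sup_right (X.dbl_Qt.B_le (PQ.x6_QA X s))) (mem_sup_left (X.dbl_Pt.B_le hb))

theorem Vt_le_Ut : X.Vt ≤ X.Ut := X.dbl_Qt.le.trans le_sup_right

theorem Ut_Vt : X.Ut ≤ 𝐂(X.Vt) := sup_le (X.Pt_Wt.trans (centralizer_anti X.Vt_le_Wt)) X.Qt_Vt

theorem Ut_Wt {g x : G} (hg : g ∈ X.Ut) (hx : x ∈ X.Wt) : g * x * g⁻¹ * x⁻¹ ∈ X.Vt := by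
  obtain ⟨y, hy, q, hq, rfl⟩ := X.mem_Ut.1 hg
  refine PQ.mul_cm (centralizer_le_normalizer _ (X.Ut_Vt (mem_sup_left hy))) ?_
    (X.dbl_Qt.comm q hq x (X.Wt_le_Qt hx))
  rw [conj_eq_of_mem_centralizer (X.Pt_Wt hy) hx, mul_inv_cancel]
  exact one_mem _

theorem Ut_R {g r : G} (hg : g ∈ X.Ut) (hr : r ∈ X.R) : g * r * g⁻¹ * r⁻¹ ∈ X.Wt := by
  obtain ⟨y, hy, q, hq, rfl⟩ := X.mem_Ut.1 hg
  exact PQ.mul_cm (centralizer_le_normalizer _ (X.Pt_Wt hy)) (X.dbl_Pt.comm y hy r (X.R_le_Pt hr))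
    (X.Vt_le_Wt (X.dbl_Qt.comm q hq r hr.1))

theorem dbl_Ut : Dbl X.t X.Ut X.Qt X.U := by
  have cj : ∀ {y q : G}, y ∈ X.Pt → q ∈ X.Qt → y * q * y⁻¹ ∈ X.Qt := fun hy hq =>
    conj_mem_of_mem_normalizer (Pt_nQt X hy) hq
  have cj' : ∀ {y q : G}, y ∈ X.Pt → q ∈ X.Qt → y⁻¹ * q * y ∈ X.Qt := fun hy hq =>
    conj_mem_of_mem_normalizer' (Pt_nQt X hy) hq
  refine ⟨⟨X.t_sq, le_sup_right, le_normalizer_sup (zpowers_le_of_mem X.dbl_Pt.cY) (zpowers_le_of_mem X.dbl_Qt.cY)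
    (mem_zpowers _), X.dbl_Qt.cY, fun x hx y hy => ?_, fun g hg => ?_⟩, X.U_le_Ut, fun b hb => X.t_A (X.U_le_A hb),
    fun u hu => ?_, fun g hg x hx e => ?_⟩
  · have : ⁅X.Ut, X.Ut⁆ ≤ X.Qt := commutator_sup_le_left (Pt_nQt X) le_normalizer
      (commutator_sup_le_right (Pt_nQt X) le_normalizer
        (commutator_le.2 fun a ha b hb => X.Wt_le_Qt (X.dbl_Pt.comm a ha b hb))
        (commutator_le_right_of_le_normalizer (Pt_nQt X)))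
      (commutator_le_left_of_le_normalizer (Ut_nQt X))
    exact this (commutator_mem_commutator hx hy)
  · obtain ⟨y, hy, q, hq, rfl⟩ := X.mem_Ut.1 hg
    have := mul_mem (mul_mem (X.Wt_le_Qt (X.dbl_Pt.sq y hy)) (cj' hy hq)) hq
    convert this using 1
    group
  · obtain ⟨a, s, c, rfl⟩ := X.mem_U.1 hu
    have c7 : X.x 7 c ∈ X.P := X.x_P le_rfl c
    obtain ⟨y, hy, x, hx, e⟩ := X.dbl_Pt.onto _ c7
    refine ⟨y, mem_sup_left hy, _, mul_mem (cj' (X.dbl_Pt.B_le c7)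
      (inv_mem (X.dbl_Qt.B_le (X.mem_QA.2 ⟨a, s, rfl⟩)))) (X.Wt_le_Qt hx), ?_⟩
    rw [e]
    group
  · obtain ⟨y, hy, q, hq, rfl⟩ := X.mem_Ut.1 hg
    obtain ⟨a, ha, x1, hx1, e1⟩ := X.dbl_Qt.im hq
    obtain ⟨b, hb, w, hw, e2⟩ := X.dbl_Pt.im hy
    have q1 : a * x1 ∈ X.Qt := mul_mem (X.dbl_Qt.B_le ha) (X.dbl_Qt.le hx1)
    have e3 : b * w * (y * (a * x1) * y⁻¹) = x := by
      apply mul_left_cancel (a := X.t)
      calc X.t * (b * w * (y * (a * x1) * y⁻¹)) = X.t * (b * w) * (y * (a * x1) * y⁻¹) := by group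
        _ = y * (X.t * (a * x1)) * y⁻¹ := by rw [← e2]; group
        _ = X.t * x := by rw [← e1, ← e]; group
    have bQ : b ∈ X.Qt := by
      rw [← e3, mul_mem_cancel_right (cj hy q1), mul_mem_cancel_right (X.Wt_le_Qt hw)] at hx
      exact hx
    have bR : b ∈ X.R0 := X.P_inf_QA ▸ ⟨hb, X.Qt_t bQ (X.dbl_Pt.B_t b hb)⟩
    obtain ⟨r, hr, x2, hx2, e4⟩ := X.dbl_R.onto b bR
    obtain ⟨u, hu, e5⟩ := X.dbl_Pt.toSec.mv_div (X.R_le_Pt hr) hy (X.Vt_le_Wt hx2) hw e4 e2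
    obtain ⟨b', hb', x', hx', e6⟩ := X.dbl_Pt.ker _ (mul_mem (inv_mem (X.R_le_Pt hr)) hy) u hu e5
    refine ⟨b', X.P_le_U hb', _, mul_mem (mul_mem (cj' (X.dbl_Pt.B_le hb') hr.1) (X.Wt_le_Qt hx')) hq, ?_⟩
    rw [inv_mul_eq_iff_eq_mul.1 e6]
    group

theorem t_Ut : X.t ∈ 𝐍(X.Ut) := X.dbl_Ut.cY

theorem fr_Ut : Fr X.t X.Ut := X.dbl_Ut.fr (fr_Qt X)

theorem Ut_t {y : G} (h : y ∈ X.Ut) (e : y * X.t = X.t * y) : y ∈ X.U := by
  obtain ⟨b, hb, x, hx, e1, rfl⟩ := X.dbl_Ut.cent h e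
  exact mul_mem hb (X.QA_le_U (X.Qt_t hx e1))

theorem tU_D {y : G} (h : y ∈ X.Ut) (e : X.t * y * (X.t * y) = 1) : X.Dt (X.t * y) := by
  obtain ⟨x, -, e1⟩ := X.fr_Ut y h e
  exact ⟨x, e1.symm⟩

end Cc

end H16.GC
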