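import Cfsg.Agent.Lib.G24C.CT
import Cfsg.Agent.Lib.G24C.FR

/-! The group `Ṽ`. -/

set_option autoImplicit false
set_option linter.unusedSectionVars false

namespace H16.GC

open H30 H30.F4 H69 Subgroup Cfsg H79.AS

variable {G : Type*} [Group G] [Finite G]

theorem VT.nrm {H : Subgroup G} {g : G} (h : ∀ x ∈ H, g * x * g⁻¹ ∈ H) : g ∈ 𝐍(H) :=
  mem_normalizer_fintype h

namespace Cc

variable (X : Cc G)

theorem p_zero : X.p 0 = 1 := by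
  have := X.p_add 0 0
  rwa [add_zero, left_eq_mul] at this
theorem vv_p (s c : F4) : X.vv s * X.p c = X.p c * X.vv s := X.p_B c _ (X.V_le_B (X.vv_mem s))
theorem pv_add (u u' : F4 × F4) : X.pv (u + u') = X.pv u * X.pv u' := by
  rw [pv, pv, pv, Prod.fst_add, Prod.snd_add, X.p_add, ← X.vv_add, mul_assoc, mul_assoc, ← mul_assoc (X.p u'.1),
    ← X.vv_p, mul_assoc]
theorem pv_fst (c : F4) : X.pv (c, 0) = X.p c := by rw [pv, X.vv_zero, mul_one]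
theorem pv_snd (s : F4) : X.pv (0, s) = X.vv s := by rw [pv, X.p_zero, one_mul]
theorem pv_sq (u : F4 × F4) : X.pv u * X.pv u = 1 := by
  rw [← X.pv_add, show u + u = (0, 0) from Prod.ext (f4_self _) (f4_self _), X.pv_fst, X.p_zero]
theorem pv_t (u : F4 × F4) : X.pv u * X.t * (X.pv u)⁻¹ = X.t * X.vv u.1 := by
  rw [← X.p_t, pv, mul_assoc (X.p _), X.t_A (X.vv_A _)]; group
theorem pv_inj {u u' : F4 × F4} (h : X.pv u = X.pv u') : u = u' := by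
  have h1 : u.1 = u'.1 := X.vv_inj (mul_left_cancel ((X.pv_t u).symm.trans (h ▸ X.pv_t u')))
  rw [pv, pv, h1] at h
  exact Prod.ext h1 (X.vv_inj (mul_left_cancel h))
theorem mem_Vt {g : G} : g ∈ X.Vt ↔ ∃ u, g = X.pv u := by
  refine ⟨fun h => ?_, fun h => subset_closure h⟩
  induction h using closure_induction with
  | mem x h => exact h
  | one => exact ⟨(0, 0), by rw [X.pv_fst, X.p_zero]⟩
  | mul x y _ _ hx hy =>
    obtain ⟨s, rfl⟩ := hx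
    obtain ⟨t, rfl⟩ := hy
    exact ⟨_, (X.pv_add s t).symm⟩
  | inv x _ hx =>
    obtain ⟨s, rfl⟩ := hx
    exact ⟨_, inv_eq_of_mul_eq_one_right (X.pv_sq s)⟩
theorem pv_mem (u : F4 × F4) : X.pv u ∈ X.Vt := X.mem_Vt.2 ⟨u, rfl⟩
theorem p_mem (c : F4) : X.p c ∈ X.Vt := X.pv_fst c ▸ X.pv_mem _
theorem V_le_Vt : X.V ≤ X.Vt := fun g hg => by
  obtain ⟨s, rfl⟩ := X.mem_V.1 hg
  exact X.pv_snd s ▸ X.pv_mem _
theorem card_Vt : Nat.card X.Vt = 16 := by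
  rw [show 16 = Nat.card (F4 × F4) by rw [Nat.card_prod, natCard_eq]]
  refine (Nat.card_congr (Equiv.ofBijective (fun s => (⟨X.pv s, X.pv_mem s⟩ : X.Vt))
    ⟨fun s t h => X.pv_inj (congrArg Subtype.val h), fun g => ?_⟩)).symm
  obtain ⟨s, e⟩ := X.mem_Vt.1 g.2
  exact ⟨s, Subtype.ext e.symm⟩
theorem Vt_sq {x : G} (h : x ∈ X.Vt) : x * x = 1 := by
  obtain ⟨s, rfl⟩ := X.mem_Vt.1 h
  exact X.pv_sq s
theorem Vt_ab : X.Vt ≤ 𝐂(X.Vt) := fun a ha b hb => by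
  obtain ⟨s, rfl⟩ := X.mem_Vt.1 ha
  obtain ⟨t, rfl⟩ := X.mem_Vt.1 hb
  rw [← X.pv_add, ← X.pv_add, add_comm]
theorem isP_Vt : IsPGroup 2 X.Vt := IsPGroup.of_card (n := 4) X.card_Vt
theorem B_Vt : X.B ≤ 𝐂(X.Vt) := le_centralizer_iff.1 fun a ha => by
  obtain ⟨s, rfl⟩ := X.mem_Vt.1 ha
  exact mul_mem (X.p_B _) (le_centralizer_iff.1 X.B_le_CV (X.vv_mem _))
theorem Vt_O : X.Vt ≤ 𝐂(X.O) := fun a ha => by
  obtain ⟨s, rfl⟩ := X.mem_Vt.1 ha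
  exact mul_mem (X.p_O _) (X.A_O (X.vv_A _))
theorem t_pv (u : F4 × F4) : X.t * X.pv u * X.t⁻¹ = X.pv (u.1, u.2 + u.1) := by
  have h := X.pv_t u
  rw [mul_inv_eq_iff_eq_mul, mul_assoc, ← X.pv_snd, ← X.pv_add] at h
  rw [X.t_inv, mul_assoc, h, ← mul_assoc, X.t_sq, one_mul]
  exact congrArg X.pv (Prod.ext (zero_add _) (add_comm _ _))
theorem th_pv (u : F4 × F4) : X.th * X.pv u * X.th⁻¹ = X.pv (v * u.1, v * u.2) := by
  rw [pv, cj_mul, X.p_th, X.th_vv, pv]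
theorem t_Vt : X.t ∈ 𝐍(X.Vt) := VT.nrm fun a ha => by
  obtain ⟨s, rfl⟩ := X.mem_Vt.1 ha
  exact X.t_pv s ▸ X.pv_mem _
theorem th_Vt : X.th ∈ 𝐍(X.Vt) := VT.nrm fun a ha => by
  obtain ⟨s, rfl⟩ := X.mem_Vt.1 ha
  exact X.th_pv s ▸ X.pv_mem _
theorem t_not_CVt : X.t ∉ 𝐂(X.Vt) := fun h => by
  have := X.p_t 1
  rw [h _ (X.p_mem 1), mul_inv_cancel_right, left_eq_mul] at this
  exact X.z_ne this
theorem Vt_t {x : G} (h : x ∈ X.Vt) (e : x * X.t = X.t * x) : x ∈ X.V := by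
  obtain ⟨s, rfl⟩ := X.mem_Vt.1 h
  have := X.pv_t s
  rw [e, mul_inv_cancel_right, left_eq_mul] at this
  rw [pv, X.x_inj 11 this, X.p_zero, one_mul]
  exact X.vv_mem _
theorem Vt_A {x : G} (h : x ∈ X.Vt) (e : x ∈ X.A) : x ∈ X.V := X.Vt_t h (X.t_A e)
theorem dbl_Vt : Dbl X.t X.Vt ⊥ X.V where
  c_sq := X.t_sq
  le := bot_le
  cY := X.t_Vt
  cZ := VT.nrm fun x hx => by rw [mem_bot.1 hx]; simp
  comm x hx y hy := by rw [mem_bot, X.Vt_ab hy x hx]; group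
  sq y hy := X.Vt_sq hy
  B_le := X.V_le_Vt
  B_t b hb := X.t_A (X.V_le_A hb)
  onto b hb := by
    obtain ⟨s, rfl⟩ := X.mem_V.1 hb
    exact ⟨_, X.p_mem s, 1, one_mem _, by rw [mul_one, X.p_t]⟩
  ker y hy x hx e := ⟨y, X.Vt_t hy (by rwa [mem_bot.1 hx, mul_one, mul_inv_eq_iff_eq_mul] at e), 1, one_mem _,
    (mul_one y).symm⟩
theorem fr_Vt : Fr X.t X.Vt := X.dbl_Vt.fr (fr_bot _)
theorem odd_die {o y : G} (ho : o ∈ X.O) (hy : y ∈ 𝐂(X.O)) (h4 : y ^ 4 = 1) {j : ℕ} (h : (o * y) ^ 2 ^ j = 1) :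
    o = 1 := by
  refine eq_one_of_odd X.O_odd ho (j := j + 2) ?_
  have : (o * y) ^ 2 ^ (j + 2) = 1 := by rw [pow_add, pow_mul, h, one_pow]
  rwa [(show Commute o y from hy o ho).mul_pow, pow_add, mul_comm (2 ^ j), pow_mul y, show 2 ^ 2 = 4 from rfl, h4,
    one_pow, mul_one, mul_comm, ← show 2 ^ 2 = 4 from rfl, ← pow_add] at this
/-- `Ṽ ⟨t⟩` is determined by `t` and `Q_A` -/
theorem can {x : G} (hq : x ∈ 𝐂(X.QA)) {s : F4} (h : x * X.t * x⁻¹ = X.t * X.vv s) {j : ℕ}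
    (h2 : x ^ 2 ^ j = 1) : x ∈ X.Vt ∨ x * X.t ∈ X.Vt := by
  obtain ⟨o, ho, a, e | e⟩ := X.ct_Q (g := (X.p s)⁻¹ * x) (by
    rw [← X.p_t, mul_inv_eq_iff_eq_mul] at h
    rw [mul_assoc, h]; group) (mul_mem (inv_mem (centralizer_anti X.QA_le_B (X.p_B s))) hq)
  · rw [inv_mul_eq_iff_eq_mul, ← mul_assoc, ← X.p_O s o ho, mul_assoc] at e
    have h3 := X.pv_mem (s, a)
    rw [e] at h2 ⊢
    rw [X.odd_die ho (X.Vt_O h3) (by rw [show 4 = 2 * 2 from rfl, pow_mul, sq (X.pv _), X.Vt_sq h3, one_pow]) h2,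
      one_mul]
    exact Or.inl h3
  · have e1 : x = o * (X.pv (s, a) * X.t) := by
      rw [inv_mul_eq_iff_eq_mul] at e
      rw [e, pv, mul_assoc (X.p s), X.t_A (X.vv_A a), ← mul_assoc o (X.p s), X.p_O s o ho]; group
    have e2 : X.pv (s, a) * X.t * (X.pv (s, a) * X.t) = X.vv s := by
      nth_rw 2 [← inv_eq_of_mul_eq_one_right (X.pv_sq (s, a))]
      rw [← mul_assoc, X.pv_t, mul_assoc, X.t_A (X.vv_A _), ← mul_assoc, X.t_sq, one_mul]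
    rw [e1] at h2 ⊢
    rw [X.odd_die ho (mul_mem (X.Vt_O (X.pv_mem _)) X.t_O) (by
      rw [show 4 = 2 * 2 from rfl, pow_mul, sq (_ * _), e2, sq, X.vv_sq]) h2, one_mul, mul_assoc, X.t_sq, mul_one]
    exact Or.inr (X.pv_mem _)
theorem phi_pv {f : G} (ht : f * X.t = X.t * f) (hf : X.Phi f) :
    ∃ β, ∀ u, f * X.pv u * f⁻¹ = X.pv (u.1 * u.1, u.2 * u.2 + β * (u.1 * u.1)) := by
  have h1 : ∀ c, ∃ l, f * X.p c * f⁻¹ = X.pv (c * c, l) := fun c => by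
    have e : f * X.p c * f⁻¹ * X.t * (f * X.p c * f⁻¹)⁻¹ = X.t * X.vv (c * c) := by
      rw [← show _ = X.vv (c * c) from hf 11 c, ← mul_assoc, ← mul_assoc, ← ht, mul_assoc f X.t,
        ← show _ = X.t * X.x 11 c from X.p_t c, mul_assoc _ f⁻¹ X.t, (show Commute f X.t from ht).inv_left.eq]
      group
    have e2 : f * X.p c * f⁻¹ * (f * X.p c * f⁻¹) = 1 := by
      rw [← cj_mul, X.Vt_sq (X.p_mem c), mul_one, mul_inv_cancel]
    rcases X.can (conj_mem_of_mem_normalizer (normalizer_le_normalizer_centralizer _ (X.Phi_QA hf))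
      (centralizer_anti X.QA_le_B (X.p_B c))) e (j := 1) (by rw [pow_one, sq, e2]) with h | h
    · obtain ⟨u, hu⟩ := X.mem_Vt.1 h
      rw [hu, X.pv_t] at e
      exact ⟨u.2, by rw [hu, ← X.vv_inj (mul_left_cancel e)]⟩
    · have e3 := X.Vt_sq h
      rw [← mul_assoc, mul_eq_one_iff_eq_inv, X.t_inv] at e3
      rw [inv_eq_of_mul_eq_one_right e2, e3, left_eq_mul] at e
      rw [mul_self_eq_zero.1 (X.x_inj 11 e), X.p_zero, mul_one, mul_inv_cancel, one_mul] at h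
      exact absurd (X.Vt_ab h) X.t_not_CVt
  choose l hl using h1
  have h0 : l 0 = 0 := by
    have := hl 0
    rw [X.p_zero, mul_one, mul_inv_cancel, mul_zero, X.pv_snd] at this
    exact X.x_inj 11 this.symm
  have h2 : ∀ c, l (v * c) = v * (v * l c) := fun c => by
    have := hl (v * c)
    rw [← X.p_th, cj_mul, cj_mul, show f * X.th⁻¹ * f⁻¹ = (f * X.th * f⁻¹)⁻¹ by group, X.Phi_th hf, hl,
      show ∀ y, X.th * X.th * y * (X.th * X.th)⁻¹ = X.th * (X.th * y * X.th⁻¹) * X.th⁻¹ from fun y => by group,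
      X.th_pv, X.th_pv] at this
    exact (congrArg Prod.snd (X.pv_inj this)).symm
  have h3 : ∀ c, l c = l 1 * (c * c) := fun c => by
    have e : ∀ c : F4, c = 0 ∨ c = 1 ∨ c = v * 1 ∨ c = v * (v * 1) := by decide
    rcases e c with rfl | rfl | rfl | rfl
    · rw [h0]; simp
    · simp
    · rw [h2]; ring
    · rw [h2, h2]; ring
  refine ⟨l 1, fun u => ?_⟩
  rw [pv, cj_mul, hl, show f * X.vv u.2 * f⁻¹ = X.vv _ from hf 11 _, ← X.pv_snd, ← X.pv_add, h3]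
  exact congrArg X.pv (Prod.ext (add_zero _) (add_comm _ _))
theorem phi_Vt {f : G} (ht : f * X.t = X.t * f) (hf : X.Phi f) : f ∈ 𝐍(X.Vt) := VT.nrm fun a ha => by
  obtain ⟨s, rfl⟩ := X.mem_Vt.1 ha
  obtain ⟨β, h⟩ := X.phi_pv ht hf
  exact h s ▸ X.pv_mem _
theorem phi_not_CVt {f : G} (hf : X.Phi f) : f ∉ 𝐂(X.Vt) := fun h => by
  have : f * X.vv w * f⁻¹ = X.vv (w * w) := hf 11 w
  rw [← h _ (X.V_le_Vt (X.vv_mem w)), mul_inv_cancel_right] at this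
  exact absurd (X.vv_inj this) (by decide)

end Cc

end H16.GC
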