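import Cfsg.Agent.Lib.G24C.VT

/-! The group `W̃`. -/

set_option autoImplicit false
set_option linter.unusedSectionVars false

namespace H16.GC

open H30 H30.F4 H69 Subgroup Cfsg H79.AS

variable {G : Type*} [Group G] [Finite G]

namespace Cc

variable (X : Cc G)

/-- the coordinates on `W̃` -/
def ww (u u' : F4 × F4) : G := X.pv u * (X.nb * X.pv u' * X.nb⁻¹)

theorem nb_vv (s : F4) : X.nb * X.vv s * X.nb⁻¹ = X.x 10 s := X.nb_x 11 s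
theorem nb_pv (u : F4 × F4) : X.nb * X.pv u * X.nb⁻¹ = X.p' u.1 * X.x 10 u.2 := by rw [pv, cj_mul, X.nb_vv, p']
theorem x10_pv (a : F4) (u : F4 × F4) : Commute (X.pv u) (X.x 10 a) := X.B_Vt (X.x_B (by decide) a) _ (X.pv_mem u)
theorem pv_pv' (u u' : F4 × F4) : Commute (X.pv u) (X.nb * X.pv u' * X.nb⁻¹) := by
  rw [X.nb_pv]
  refine Commute.mul_right (Commute.mul_left (X.pp _ _) ?_) (X.x10_pv _ u)
  have := (X.x10_pv u.2 (u'.1, 0)).symm.conj X.nb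
  rwa [X.pv_fst, X.nb_x] at this
theorem ww_mul (u u' y y' : F4 × F4) : X.ww u u' * X.ww y y' = X.ww (u + y) (u' + y') := by
  rw [ww, ww, ww, (X.pv_pv' y u').symm.mul_mul_mul_comm, ← cj_mul, X.pv_add, X.pv_add]
theorem ww_zero : X.ww 0 0 = 1 := by
  have := X.ww_mul 0 0 0 0
  rwa [add_zero, mul_eq_left] at this
theorem ww_sq (u u' : F4 × F4) : X.ww u u' * X.ww u u' = 1 := by
  have : ∀ u : F4 × F4, u + u = 0 := fun u => Prod.ext (f4_self _) (f4_self _)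
  rw [ww_mul, this, this, ww_zero]
theorem ww_t (u u' : F4 × F4) : X.ww u u' * X.t * (X.ww u u')⁻¹ = X.t * (X.x 10 u'.1 * X.vv u.1) := by
  have h : X.nb * X.pv u' * X.nb⁻¹ * X.t * (X.nb * X.pv u' * X.nb⁻¹)⁻¹ = X.t * X.x 10 u'.1 := by
    rw [← X.nb_vv, ← mul_assoc X.t, ← mul_assoc X.t, ← X.t_A X.nb_mem, mul_assoc X.nb X.t, ← X.pv_t,
      mul_assoc _ X.nb⁻¹, X.t_A (inv_mem X.nb_mem)]
    group
  rw [ww, mul_assoc (X.pv u), mul_inv_rev (X.pv u), ← mul_assoc, mul_assoc (X.pv u), h, cj_mul, X.pv_t,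
    (X.x10_pv _ u).eq, mul_inv_cancel_right, mul_assoc, (X.x_v (r := 10) (by decide) _ _).eq]
theorem ww_W (s a : F4) : X.ww (0, s) (0, a) = X.x 10 a * X.vv s := by
  rw [ww, X.pv_snd, X.pv_snd, X.nb_vv, (X.x_v (r := 10) (by decide) _ _).eq]
theorem ww_cen {u u' : F4 × F4} (e : X.ww u u' * X.t = X.t * X.ww u u') : X.ww u u' = X.x 10 u'.2 * X.vv u.2 := by
  have h := X.ww_t u u'
  rw [e, mul_inv_cancel_right, left_eq_mul, ← one_mul 1] at h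
  nth_rw 1 [← X.x_zero 10, ← X.vv_zero] at h
  rw [← ww_W]
  congr 1
  exacts [Prod.ext (X.w_inj h).2 rfl, Prod.ext (X.w_inj h).1 rfl]
theorem ww_inj {u u' y y' : F4 × F4} (h : X.ww u u' = X.ww y y') : u = y ∧ u' = y' := by
  have h1 := X.w_inj (mul_left_cancel ((X.ww_t u u').symm.trans (h ▸ X.ww_t y y')))
  have h2 : X.ww (u + y) (u' + y') = 1 := by rw [← ww_mul, h, ww_sq]
  have h3 := X.ww_cen (u := u + y) (u' := u' + y') (by rw [h2, one_mul, mul_one])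
  rw [h2, ← one_mul 1] at h3
  nth_rw 1 [← X.x_zero 10, ← X.vv_zero] at h3
  have e : ∀ a b : F4, 0 = a + b → a = b := by decide
  exact ⟨Prod.ext h1.2 (e _ _ (X.w_inj h3).2), Prod.ext h1.1 (e _ _ (X.w_inj h3).1)⟩
theorem mem_Wt' {g : G} : g ∈ X.Wt ↔ ∃ u u', g = X.ww u u' := by
  refine ⟨fun h => ?_, fun ⟨u, u', h⟩ => subset_closure ⟨u, u'.1, u'.2, by rw [h, ww, nb_pv]⟩⟩
  induction h using closure_induction with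
  | mem x h =>
    obtain ⟨u, d, a, rfl⟩ := h
    exact ⟨u, (d, a), by rw [ww, nb_pv]⟩
  | one => exact ⟨0, 0, X.ww_zero.symm⟩
  | mul x y _ _ hx hy =>
    obtain ⟨s, s', rfl⟩ := hx
    obtain ⟨t, t', rfl⟩ := hy
    exact ⟨_, _, X.ww_mul _ _ _ _⟩
  | inv x _ hx =>
    obtain ⟨s, s', rfl⟩ := hx
    exact ⟨_, _, inv_eq_of_mul_eq_one_right (X.ww_sq s s')⟩
theorem ww_mem (u u' : F4 × F4) : X.ww u u' ∈ X.Wt := X.mem_Wt'.2 ⟨u, u', rfl⟩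
theorem mem_Wt {g : G} : g ∈ X.Wt ↔ ∃ u d a, g = X.pv u * (X.p' d * X.x 10 a) := by
  refine ⟨fun h => ?_, fun h => subset_closure h⟩
  obtain ⟨u, u', rfl⟩ := X.mem_Wt'.1 h
  exact ⟨u, u'.1, u'.2, by rw [ww, nb_pv]⟩
theorem pv_zero : X.pv 0 = 1 := (X.pv_fst 0).trans X.p_zero
theorem Vt_le_Wt : X.Vt ≤ X.Wt := fun g hg => by
  obtain ⟨u, rfl⟩ := X.mem_Vt.1 hg
  exact X.mem_Wt'.2 ⟨u, 0, by simp [ww, pv_zero]⟩
theorem nb_Vt {x : G} (h : x ∈ X.Vt) : X.nb * x * X.nb⁻¹ ∈ X.Wt := by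
  obtain ⟨u, rfl⟩ := X.mem_Vt.1 h
  exact X.mem_Wt'.2 ⟨0, u, by simp [ww, pv_zero]⟩
theorem W_le_Wt : X.W ≤ X.Wt := fun g hg => by
  obtain ⟨a, s, rfl⟩ := X.mem_W.1 hg
  exact X.ww_W s a ▸ X.ww_mem _ _
theorem card_Wt : Nat.card X.Wt = 256 := by
  rw [show 256 = Nat.card ((F4 × F4) × (F4 × F4)) by rw [Nat.card_prod, Nat.card_prod, natCard_eq]]
  refine (Nat.card_congr (Equiv.ofBijective (fun s => (⟨X.ww s.1 s.2, X.ww_mem _ _⟩ : X.Wt))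
    ⟨fun s t h => Prod.ext_iff.2 (X.ww_inj (congrArg Subtype.val h)), fun g => ?_⟩)).symm
  obtain ⟨s, s', e⟩ := X.mem_Wt'.1 g.2
  exact ⟨(s, s'), Subtype.ext e.symm⟩
theorem Wt_sq {x : G} (h : x ∈ X.Wt) : x * x = 1 := by
  obtain ⟨s, s', rfl⟩ := X.mem_Wt'.1 h
  exact X.ww_sq s s'
theorem Wt_ab : X.Wt ≤ 𝐂(X.Wt) := fun a ha b hb => by
  obtain ⟨s, s', rfl⟩ := X.mem_Wt'.1 ha
  obtain ⟨t, t', rfl⟩ := X.mem_Wt'.1 hb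
  rw [ww_mul, ww_mul, add_comm s, add_comm s']
theorem isP_Wt : IsPGroup 2 X.Wt := IsPGroup.of_card (n := 8) X.card_Wt
theorem cent_Wt {g : G} (h : g ∈ 𝐂(X.Vt)) (h' : X.nb⁻¹ * g * X.nb ∈ 𝐂(X.Vt)) : g ∈ 𝐂(X.Wt) := fun a ha => by
  obtain ⟨s, s', rfl⟩ := X.mem_Wt'.1 ha
  refine Commute.mul_left (h _ (X.pv_mem s)) ?_
  have := (show Commute _ _ from h' _ (X.pv_mem s')).conj X.nb
  rwa [show X.nb * (X.nb⁻¹ * g * X.nb) * X.nb⁻¹ = g by group] at this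
theorem P_Wt : X.P ≤ 𝐂(X.Wt) := fun _ hb => X.cent_Wt (X.B_Vt (X.U_le_B (X.P_le_U hb)))
  (X.B_Vt (X.U_le_B (X.P_le_U (conj_mem_of_mem_normalizer' X.nb_P hb))))
theorem ha_Wt : X.ha ∈ 𝐂(X.Wt) := X.cent_Wt (X.B_Vt (X.L_le_B X.ha_mem)) (by
  rw [mul_assoc, X.ha_nb, inv_mul_cancel_left]; exact X.B_Vt (X.L_le_B X.ha_mem))
theorem Wt_O : X.Wt ≤ 𝐂(X.O) := fun a ha => by
  obtain ⟨s, s', rfl⟩ := X.mem_Wt'.1 ha
  exact mul_mem (X.Vt_O (X.pv_mem _)) (mul_mem (mul_mem (X.A_O X.nb_mem) (X.Vt_O (X.pv_mem _)))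
    (inv_mem (X.A_O X.nb_mem)))
theorem norm_Wt {g : G} (h : g ∈ 𝐍(X.Vt)) (h' : X.nb⁻¹ * g * X.nb ∈ 𝐍(X.Vt)) : g ∈ 𝐍(X.Wt) := VT.nrm fun a ha => by
  obtain ⟨s, s', rfl⟩ := X.mem_Wt'.1 ha
  rw [ww, cj_mul]
  refine mul_mem (X.Vt_le_Wt (conj_mem_of_mem_normalizer h (X.pv_mem s))) ?_
  convert X.nb_Vt (conj_mem_of_mem_normalizer h' (X.pv_mem s')) using 1
  group
theorem t_Wt : X.t ∈ 𝐍(X.Wt) := X.norm_Wt X.t_Vt (by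
  rw [mul_assoc, ← X.t_A X.nb_mem, inv_mul_cancel_left]; exact X.t_Vt)
theorem nb_Wt : X.nb ∈ 𝐍(X.Wt) := VT.nrm fun a ha => by
  obtain ⟨s, s', rfl⟩ := X.mem_Wt'.1 ha
  rw [ww, cj_mul]
  refine mul_mem (X.nb_Vt (X.pv_mem s)) ?_
  rw [show X.nb * (X.nb * X.pv s' * X.nb⁻¹) * X.nb⁻¹ = X.nb * X.nb * X.pv s' * (X.nb * X.nb)⁻¹ by group, X.nb_sq,
    one_mul, inv_one, mul_one]
  exact X.Vt_le_Wt (X.pv_mem _)
theorem th_ww (u u' : F4 × F4) : X.th * X.ww u u' * X.th⁻¹ = X.ww (v * u.1, v * u.2) (w * u'.1, w * u'.2) := by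
  have h := X.B_Vt (mul_mem (X.L_le_B X.ha_mem) (X.L_le_B X.ha_mem)) _ (X.pv_mem u')
  have e : X.th = X.nb * (X.th * X.th * (X.ha * X.ha)) * X.nb⁻¹ := by
    rw [← mul_assoc (X.th * X.th), ← X.nb_th, show X.nb * (X.nb * X.th * X.nb⁻¹) * X.nb⁻¹ =
      X.nb * X.nb * X.th * (X.nb * X.nb)⁻¹ by group, X.nb_sq, one_mul, inv_one, mul_one]
  rw [ww, cj_mul, th_pv, ww, show w * u'.1 = v * (v * u'.1) by rw [← mul_assoc]; rfl,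
    show w * u'.2 = v * (v * u'.2) by rw [← mul_assoc]; rfl, ← X.th_pv (v * u'.1, v * u'.2), ← X.th_pv u']
  congr 1
  nth_rw 1 [e]
  nth_rw 3 [e]
  rw [show X.nb * (X.th * X.th * (X.ha * X.ha)) * X.nb⁻¹ * (X.nb * X.pv u' * X.nb⁻¹) =
    X.nb * (X.th * X.th * (X.ha * X.ha * X.pv u')) * X.nb⁻¹ by group, ← h]
  group
theorem th_Wt : X.th ∈ 𝐍(X.Wt) := VT.nrm fun a ha => by
  obtain ⟨s, s', rfl⟩ := X.mem_Wt'.1 ha
  exact X.th_ww s s' ▸ X.ww_mem _ _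
theorem U_Wt {u x : G} (hu : u ∈ X.U) (hx : x ∈ X.Wt) : u * x * u⁻¹ * x⁻¹ ∈ X.Vt := by
  obtain ⟨s, b, hb, rfl⟩ := X.U_split hu
  have h1 : X.x 6 s * b * x * (X.x 6 s * b)⁻¹ = X.x 6 s * x * (X.x 6 s)⁻¹ := by
    rw [mul_assoc _ b, ← X.P_Wt hb x hx]; group
  obtain ⟨y, d, a, e⟩ := X.mem_Wt.1 hx
  obtain ⟨c, hc⟩ := X.x6p s d
  have h2 : X.x 6 s * x * (X.x 6 s)⁻¹ = x * (X.pv (s * d, c) * X.vv (s * a)) := by
    rw [e, cj_mul, cj_mul, p', hc, X.x6_x10, ← X.B_Vt (X.x_B (by decide) s) _ (X.pv_mem y), mul_inv_cancel_right,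
      show X.p (s * d) * X.vv c = X.pv (s * d, c) from rfl, (X.x10_pv a _).mul_mul_mul_comm, mul_assoc (X.pv y)]
  have h3 := mul_mem (X.pv_mem (s * d, c)) (X.V_le_Vt (X.vv_mem (s * a)))
  rwa [h1, h2, X.Wt_ab (X.Vt_le_Wt h3) x hx, mul_inv_cancel_right]
theorem U_nWt : X.U ≤ 𝐍(X.Wt) := fun u hu => VT.nrm fun a ha => by
  simpa using mul_mem (X.Vt_le_Wt (X.U_Wt hu ha)) ha
theorem Wt_im {x : G} (hx : x ∈ X.Wt) : ∃ e ∈ X.W, x * X.t * x⁻¹ = X.t * e := by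
  obtain ⟨s, s', rfl⟩ := X.mem_Wt'.1 hx
  exact ⟨_, X.mem_W.2 ⟨_, _, rfl⟩, X.ww_t s s'⟩
theorem Wt_on {e : G} (he : e ∈ X.W) : ∃ x ∈ X.Wt, x * X.t * x⁻¹ = X.t * e := by
  obtain ⟨a, s, rfl⟩ := X.mem_W.1 he
  exact ⟨_, X.ww_mem _ _, X.ww_t (s, 0) (a, 0)⟩
theorem Wt_t {x : G} (h : x ∈ X.Wt) (e : x * X.t = X.t * x) : x ∈ X.W := by
  obtain ⟨s, s', rfl⟩ := X.mem_Wt'.1 h
  exact X.mem_W.2 ⟨_, _, X.ww_cen e⟩
theorem Wt_A {x : G} (h : x ∈ X.Wt) (e : x ∈ X.A) : x ∈ X.W := X.Wt_t h (X.t_A e)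
theorem fr_Wt : Fr X.t X.Wt := fun y hy e => X.Wt_on (X.Wt_t hy (by
  rw [mul_eq_one_iff_eq_inv, mul_inv_rev, X.t_inv, inv_eq_of_mul_eq_one_right (X.Wt_sq hy)] at e
  exact e.symm))
theorem th3_Wt {x : G} (h : x ∈ X.Wt) :
    x * (X.th * x * X.th⁻¹) * (X.th * X.th * x * (X.th * X.th)⁻¹) = 1 := by
  obtain ⟨s, s', rfl⟩ := X.mem_Wt'.1 h
  have e : ∀ a : F4, a + v * a + v * (v * a) = 0 ∧ a + w * a + w * (w * a) = 0 := by decide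
  rw [show X.th * X.th * X.ww s s' * (X.th * X.th)⁻¹ = X.th * (X.th * X.ww s s' * X.th⁻¹) * X.th⁻¹ by group, th_ww,
    th_ww, ww_mul, ww_mul, ← X.ww_zero]
  congr 1
  exacts [Prod.ext (e _).1 (e _).1, Prod.ext (e _).2 (e _).2]
theorem phi_Wt {f : G} (ht : f * X.t = X.t * f) (hf : X.Phi f) : f ∈ 𝐍(X.Wt) := X.norm_Wt (X.phi_Vt ht hf) (by
  rw [mul_assoc, X.Phi_nb hf, inv_mul_cancel_left]; exact X.phi_Vt ht hf)

end Cc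

end H16.GC
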